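import Cfsg.Agent.Fischer.RootBasic

/-! The members inside the product of two commuting members. -/

set_option autoImplicit false
open Cfsg
open scoped commutatorElement

namespace Cfsg.Agent.Fischer

variable {G : Type*} [Group G] {S : Set (Subgroup G)}

theorem mem_sup_comm {A B : Subgroup G} (h : ⁅A, B⁆ = ⊥) {x : G} (hx : x ∈ A ⊔ B) :
    ∃ a ∈ A, ∃ b ∈ B, x = a * b := by
  rw [← Subgroup.closure_eq A, ← Subgroup.closure_eq B, ← Subgroup.closure_union] at hx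
  refine Subgroup.closure_induction (p := fun x _ => ∃ a ∈ A, ∃ b ∈ B, x = a * b) ?_ ?_ ?_ ?_ hx
  · rintro y (hy | hy)
    · exact ⟨y, hy, 1, one_mem _, by simp⟩
    · exact ⟨1, one_mem _, y, hy, by simp⟩
  · exact ⟨1, one_mem _, 1, one_mem _, by simp⟩
  · rintro _ _ _ _ ⟨a, ha, b, hb, rfl⟩ ⟨a', ha', b', hb', rfl⟩
    refine ⟨a * a', mul_mem ha ha', b * b', mul_mem hb hb', ?_⟩
    calc a * b * (a' * b') = a * (b * a') * b' := by group
      _ = a * (a' * b) * b' := by rw [commute_cb_right h ha' hb]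
      _ = a * a' * (b * b') := by group
  · rintro _ _ ⟨a, ha, b, hb, rfl⟩
    refine ⟨a⁻¹, inv_mem ha, b⁻¹, inv_mem hb, ?_⟩
    rw [mul_inv_rev, commute_cb_right h (inv_mem ha) (inv_mem hb)]

theorem cb_sup_fix {A B : Subgroup G} {g : G} (hA : conjBy A g ≤ A ⊔ B) (hB : conjBy B g ≤ A ⊔ B)
    (hA' : conjBy A g⁻¹ ≤ A ⊔ B) (hB' : conjBy B g⁻¹ ≤ A ⊔ B) :
    g ∈ Subgroup.normalizer ((A ⊔ B : Subgroup G) : Set G) := by
  have h1 : conjBy (A ⊔ B) g ≤ A ⊔ B := by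
    show (A ⊔ B).map _ ≤ _
    rw [Subgroup.map_sup]; exact sup_le hA hB
  have h2 : conjBy (A ⊔ B) g⁻¹ ≤ A ⊔ B := by
    show (A ⊔ B).map _ ≤ _
    rw [Subgroup.map_sup]; exact sup_le hA' hB'
  rw [← cb_eq_self]
  refine le_antisymm h1 fun x hx => ?_
  rw [mem_cb]
  have := h2 (cb_mem g⁻¹ hx)
  simpa using this

variable (hS : IsRootSubgroupSet S)
include hS

/-- A member `T` commuting with the non-isolated `A` and not a partner of `F`, such that each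
`a * t` lies in a member commuting with `A`, equals `⁅A, ⁅T, F⁆⁆`. -/
theorem shift_eq {A T F : Subgroup G} (hA : A ∈ S) (hT : T ∈ S) (hF : F ∈ S)
    (hAF : IsRankOnePair A F) (hTF : ¬ IsRankOnePair T F) (hAT : ⁅A, T⁆ = ⊥)
    {a : G} (ha : a ∈ A) (ha1 : a ≠ 1)
    (hcov : ∀ t ∈ T, t ≠ 1 → ∃ E ∈ S, ⁅A, E⁆ = ⊥ ∧ a * t ∈ E) :
    RootCommutatorCase S T F ∧ RootCommutatorCase S A ⁅T, F⁆ ∧ T = ⁅A, ⁅T, F⁆⁆ := by
  obtain ⟨f, hf, hf1, hc⟩ := hAF.cond_left a ha ha1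
  obtain ⟨t₀, ht₀, ht₀1⟩ := exists_mem_ne_one hS hT
  obtain ⟨E₀, hE₀, hAE₀, he₀⟩ := hcov t₀ ht₀ ht₀1
  obtain ⟨hcase, hcase2, -, -⟩ := shift hS hA hT hE₀ hF hAF hTF hAT hAE₀ ha ha1 ht₀ ht₀1 he₀ hf hc
  refine ⟨hcase, hcase2, le_antisymm ?_ ?_⟩
  · intro t ht
    by_cases ht1 : t = 1
    · rw [ht1]; exact one_mem _
    obtain ⟨E, hE, hAE, he⟩ := hcov t ht ht1
    obtain ⟨-, -, -, e⟩ := shift hS hA hT hE hF hAF hTF hAT hAE ha ha1 ht ht1 he hf hc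
    rw [e, Subgroup.commutator_comm A]
    refine Subgroup.commutator_mem_commutator ?_ ha
    rw [Subgroup.commutator_comm]
    exact Subgroup.commutator_mem_commutator hf (inv_mem ht)
  · intro h hh
    obtain ⟨g, hg, rfl⟩ := case_surj hcase2 ha ha1 hh
    have hg' : g ∈ ⁅F, T⁆ := by rw [Subgroup.commutator_comm]; exact hg
    obtain ⟨t', ht', rfl⟩ := case_surj (case_symm hcase) hf hf1 hg'
    by_cases ht1 : t' = 1
    · simp [ht1, commutatorElement_def]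
    obtain ⟨E, hE, hAE, he⟩ := hcov t'⁻¹ (inv_mem ht') (by simpa using ht1)
    obtain ⟨-, -, -, e⟩ := shift hS hA hT hE hF hAF hTF hAT hAE ha ha1 (inv_mem ht') (by simpa using ht1) he hf hc
    rw [inv_inv] at e
    rw [← commutatorElement_inv, ← e, inv_inv]
    exact ht'

theorem shift_le_eq {A E M F : Subgroup G} (hA : A ∈ S) (hE : E ∈ S) (hM : M ∈ S) (hF : F ∈ S)
    (hAF : IsRankOnePair A F) (hEF : ¬ IsRankOnePair E F) (hAE : ⁅A, E⁆ = ⊥) (hle : M ≤ E)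
    {a : G} (ha : a ∈ A) (ha1 : a ≠ 1)
    (hcov : ∀ t ∈ E, t ≠ 1 → ∃ T ∈ S, ⁅A, T⁆ = ⊥ ∧ a * t ∈ T) : M = E := by
  obtain ⟨x, hx, hx1⟩ := exists_mem_ne_one hS hM
  by_cases hMF : IsRankOnePair M F
  · exact eq_of_inter hS hM (not_isolated_of_pair hS hM hF hMF) hE hx (hle hx) hx1
  obtain ⟨-, hcase2, hEeq⟩ := shift_eq hS hA hE hF hAF hEF hAE ha ha1 hcov
  obtain ⟨hc1, -, hTeq⟩ := shift_eq hS hA hM hF hAF hMF
    (bot_of_commute fun y hy z hz => commute_cb_right hAE hy (hle hz)) ha ha1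
    (fun t ht => hcov t (hle ht))
  refine le_antisymm hle ?_
  rw [hTeq, hEeq]
  obtain ⟨g, hg, hg1⟩ := exists_mem_ne_one hS hc1.1
  rw [← hcase2.2.2.2 g (Subgroup.commutator_mono hle le_rfl hg) hg1, Subgroup.closure_le]
  rintro _ ⟨y, hy, rfl⟩
  show y * g * y⁻¹ * g⁻¹ ∈ ⁅A, ⁅M, F⁆⁆
  rw [← commutatorElement_def]
  exact Subgroup.commutator_mem_commutator hy hg

theorem line_commute {A B M N : Subgroup G} (hA : A ∈ S) (hB : B ∈ S) (hAB : ⁅A, B⁆ = ⊥)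
    (hM : M ≤ A ⊔ B) (hN : N ≤ A ⊔ B) : ⁅M, N⁆ = ⊥ := by
  refine bot_of_commute fun x hx y hy => ?_
  obtain ⟨a, ha, b, hb, rfl⟩ := mem_sup_comm hAB (hM hx)
  obtain ⟨a', ha', b', hb', rfl⟩ := mem_sup_comm hAB (hN hy)
  have c1 : Commute a a' := member_comm hS hA ha ha'
  have c2 : Commute a b' := commute_cb_right hAB ha hb'
  have c3 : Commute b a' := (commute_cb_right hAB ha' hb).symm
  have c4 : Commute b b' := member_comm hS hB hb hb'
  exact ((c1.mul_left c3).mul_right (c2.mul_left c4)).eq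

/-- In a line, some member `E` is fixed by normalizing members which move `A` to every other member. -/
theorem line_shift {A B F : Subgroup G} (hA : A ∈ S) (hB : B ∈ S) (hF : F ∈ S)
    (hAF : IsRankOnePair A F) (hne : A ≠ B) (hAB : ⁅A, B⁆ = ⊥)
    (hcov : ∀ x ∈ A ⊔ B, x ≠ 1 → ∃ C ∈ membersIn S (A ⊔ B), x ∈ C) :
    ∃ E ∈ membersIn S (A ⊔ B), E ≠ A ∧ ¬ IsRankOnePair E F ∧
      ∀ M ∈ membersIn S (A ⊔ B), M ≠ E →
        ∃ x ∈ ⨆ T ∈ normalizingMembers S (A ⊔ B), T,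
          conjBy A x = M ∧ conjBy E x = E ∧ M ⊔ E = A ⊔ B := by
  have hniA := not_isolated_of_pair hS hA hF hAF
  obtain ⟨E, hE, hEF, hBmem⟩ : ∃ E ∈ membersIn S (A ⊔ B), ¬ IsRankOnePair E F ∧
      (E = B ∨ (IsRankOnePair B F ∧ ∃ b ∈ B, b ≠ 1 ∧ b ∈ A ⊔ E)) := by
    by_cases hBF : IsRankOnePair B F
    · obtain ⟨a, ha, ha1⟩ := exists_ne_one hAF
      obtain ⟨f, hf, hf1, e1⟩ := hAF.cond_left a ha ha1
      obtain ⟨b, hb, hb1, e2⟩ := hBF.cond_right f hf hf1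
      have hab : a * b⁻¹ ≠ 1 := by
        intro e
        rw [mul_inv_eq_one] at e
        exact hne (eq_of_inter hS hA hniA hB ha (e ▸ hb) ha1)
      obtain ⟨E, hE, he⟩ := hcov _ (mul_mem (le_sup_left (α := Subgroup G) ha)
        (le_sup_right (α := Subgroup G) (inv_mem hb))) hab
      refine ⟨E, hE, fun hR => ?_, Or.inr ⟨hBF, b, hb, hb1, ?_⟩⟩
      · have h1 : ⁅conjBy F a⁻¹, conjBy F b⁻¹⁆ = ⊥ := by
          rw [← e1, e2]; exact cb_bot hAB
        have h2 := cb_bot (g := a) h1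
        rw [cb_cb, mul_inv_cancel, cb_one, cb_cb] at h2
        have hE' := eq_one_of_normalize hR he (cb_eq_self.1 ?_)
        · exact hab hE'
        exact eq_of_commute hR (unipotent_conj (right_mem hR) (le_sup_left (α := Subgroup G) he))
          (right_mem hR) (bot_symm h2)
      · have := mul_mem (le_sup_right (α := Subgroup G) (inv_mem he) : _ ∈ A ⊔ E)
          (le_sup_left (α := Subgroup G) ha : a ∈ A ⊔ E)
        simpa [mul_assoc] using this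
    · exact ⟨B, ⟨hB, le_sup_right⟩, hBF, Or.inl rfl⟩
  refine ⟨E, hE, fun e => hEF (e ▸ hAF), hEF, ?_⟩
  have hEA : E ≠ A := fun e => hEF (e ▸ hAF)
  have hAE : ⁅A, E⁆ = ⊥ := line_commute hS hA hB hAB le_sup_left hE.2
  obtain ⟨f₀, -⟩ := exists_ne_one (symm hAF)
  obtain ⟨a₀, ha₀, ha₀1⟩ := exists_ne_one hAF
  have hmem : ∀ x ∈ A ⊔ B, x ≠ 1 → ∃ M ∈ S, ⁅A, M⁆ = ⊥ ∧ x ∈ M := by
    intro x hx hx1
    obtain ⟨M, hM, hxM⟩ := hcov x hx hx1
    exact ⟨M, hM.1, line_commute hS hA hB hAB le_sup_left hM.2, hxM⟩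
  have hne1 : ∀ {a e : G}, a ∈ A → a ≠ 1 → e ∈ E → a * e ≠ 1 := by
    intro a e ha ha1 he h
    exact hEA (eq_of_inter hS hA hniA hE.1 ha
      ((eq_inv_of_mul_eq_one_left h).symm ▸ inv_mem he) ha1).symm
  obtain ⟨hcase, hcase2, hEeq⟩ := shift_eq hS hA hE.1 hF hAF hEF hAE ha₀ ha₀1 (fun t ht _ =>
    hmem _ (mul_mem (le_sup_left (α := Subgroup G) ha₀) (hE.2 ht)) (hne1 ha₀ ha₀1 ht))
  have hfixE : ∀ g ∈ ⁅E, F⁆, conjBy E g = E := fun g hg =>
    cb_of_commute fun x hx => case_comm hcase hg (le_sup_left (α := Subgroup G) hx)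
  have hgA : ∀ g ∈ ⁅E, F⁆, conjBy A g ≤ A ⊔ E := fun g hg => by
    have := case_cb_le (case_symm hcase2) hg
    rwa [Subgroup.commutator_comm ⁅E, F⁆ A, ← hEeq] at this
  have hconj : ∀ M ∈ S, M ≤ A ⊔ E → M ≠ E → ∃ g ∈ ⁅E, F⁆, conjBy A g = M := by
    intro M hM hMle hME
    by_cases hMA : ∃ x ∈ M, x ∉ E
    · obtain ⟨x, hx, hxE⟩ := hMA
      obtain ⟨a, ha, e, he, rfl⟩ := mem_sup_comm hAE (hMle hx)
      have ha1 : a ≠ 1 := by rintro rfl; rw [one_mul] at hxE; exact hxE he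
      by_cases he1 : e = 1
      · rw [he1, mul_one] at hx
        exact ⟨1, one_mem _, by rw [cb_one]; exact eq_of_inter hS hA hniA hM ha hx ha1⟩
      obtain ⟨M', hM', hAM', hxM'⟩ := hmem _ (mul_mem (le_sup_left (α := Subgroup G) ha) (hE.2 he))
        (hne1 ha ha1 he)
      obtain ⟨f, hf, -, hc⟩ := hAF.cond_left a ha ha1
      obtain ⟨-, -, eM, -⟩ := shift hS hA hE.1 hM' hF hAF hEF hAE hAM' ha ha1 he he1 hxM' hf hc
      have hg : ⁅f, e⁻¹⁆ ∈ ⁅E, F⁆ := by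
        rw [Subgroup.commutator_comm]; exact Subgroup.commutator_mem_commutator hf (inv_mem he)
      refine ⟨_, hg, ?_⟩
      rw [← eM]
      exact eq_of_inter hS hM' (eM ▸ not_isolated_cb hS hA hniA _) hM hxM' hx (hne1 ha ha1 he)
    · push_neg at hMA
      exact absurd (shift_le_eq hS hA hE.1 hM hF hAF hEF hAE (fun z hz => hMA z hz) ha₀ ha₀1
        (fun t ht _ => hmem _ (mul_mem (le_sup_left (α := Subgroup G) ha₀) (hE.2 ht))
          (hne1 ha₀ ha₀1 ht))) hME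
  have hsup : A ⊔ E = A ⊔ B := by
    refine le_antisymm (sup_le le_sup_left hE.2) (sup_le le_sup_left ?_)
    rcases hBmem with rfl | ⟨hBF, b, hb, hb1, hbAE⟩
    · exact le_sup_right
    obtain ⟨a, ha, e, he, hbe⟩ := mem_sup_comm hAE hbAE
    by_cases ha1 : a = 1
    · rw [ha1, one_mul] at hbe
      exact (eq_of_inter hS hB (not_isolated_of_pair hS hB hF hBF) hE.1 hb (hbe ▸ he) hb1).le.trans le_sup_right
    · obtain ⟨M', hM', hAM', hxM'⟩ := hmem _ (mul_mem (le_sup_left (α := Subgroup G) ha) (hE.2 he))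
        (hne1 ha ha1 he)
      by_cases he1 : e = 1
      · rw [he1, mul_one] at hbe
        exact absurd (eq_of_inter hS hA hniA hB ha (hbe ▸ hb) ha1) hne
      obtain ⟨f, hf, -, hc⟩ := hAF.cond_left a ha ha1
      obtain ⟨-, -, eM, -⟩ := shift hS hA hE.1 hM' hF hAF hEF hAE hAM' ha ha1 he he1 hxM' hf hc
      have hBM : conjBy A ⁅f, e⁻¹⁆ = B := eM ▸ eq_of_inter hS hM' (eM ▸ not_isolated_cb hS hA hniA _)
        hB hxM' (hbe ▸ hb) (hne1 ha ha1 he)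
      rw [← hBM]
      exact hgA _ (by rw [Subgroup.commutator_comm]; exact Subgroup.commutator_mem_commutator hf (inv_mem he))
  have hG : ⁅E, F⁆ ∈ normalizingMembers S (A ⊔ B) := by
    refine ⟨hcase.1, fun g hg => ?_⟩
    rw [← hsup]
    exact cb_sup_fix (hgA g hg) ((hfixE g hg).le.trans le_sup_right) (hgA _ (inv_mem hg))
      ((hfixE _ (inv_mem hg)).le.trans le_sup_right)
  intro M hM hME
  obtain ⟨g, hg, hgM⟩ := hconj M hM.1 (hsup.symm ▸ hM.2) hME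
  refine ⟨g, le_iSup₂_of_le (f := fun T _ => T) _ hG le_rfl hg, hgM, hfixE g hg, ?_⟩
  rw [← hgM, ← hsup]
  refine le_antisymm (sup_le (hgA g hg) le_sup_right) ?_
  have hgn : g ∈ Subgroup.normalizer ((A ⊔ E : Subgroup G) : Set G) := hsup.symm ▸ hG.2 hg
  refine (cb_eq_self.2 hgn).ge.trans ?_
  show (A ⊔ E).map _ ≤ _
  rw [Subgroup.map_sup]
  exact sup_le le_sup_left ((hfixE g hg).le.trans le_sup_right)

end Cfsg.Agent.Fischer
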