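import Cfsg.Agent.Fischer.RootLine
import Cfsg.Agent.Fischer.RootMember
import Cfsg.Agent.S5029
import Mathlib.GroupTheory.Nilpotent

/-! Configurations `⁅A, B⁆`, `⁅B, C⁆` with commuting `A`, `C`. -/

set_option autoImplicit false
open Cfsg
open scoped commutatorElement

namespace Cfsg.Agent.Fischer

variable {G : Type*} [Group G] {S : Set (Subgroup G)}

/-- Commutators of two sets of generators determine the commutator of the generated subgroups. -/
theorem comm_le_of_gens {s t : Set G} {L : Subgroup G}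
    (hs : Subgroup.closure s ≤ Subgroup.normalizer (L : Set G))
    (ht : Subgroup.closure t ≤ Subgroup.normalizer (L : Set G))
    (h : ∀ x ∈ s, ∀ y ∈ t, ⁅x, y⁆ ∈ L) : ⁅Subgroup.closure s, Subgroup.closure t⁆ ≤ L := by
  have cj : ∀ {g l : G}, g ∈ Subgroup.normalizer (L : Set G) → l ∈ L → g * l * g⁻¹ ∈ L :=
    fun hg hl => (Subgroup.mem_normalizer_iff.1 hg _).1 hl
  have h1 : ∀ x ∈ s, ∀ y ∈ Subgroup.closure t, ⁅x, y⁆ ∈ L := by
    intro x hx y hy
    induction hy using Subgroup.closure_induction with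
    | mem y hy => exact h x hx y hy
    | one => rw [commutatorElement_one_right]; exact one_mem _
    | mul y y' hy _ ih ih' =>
      rw [show ⁅x, y * y'⁆ = ⁅x, y⁆ * (y * ⁅x, y'⁆ * y⁻¹) by simp only [commutatorElement_def]; group]
      exact mul_mem ih (cj (ht hy) ih')
    | inv y hy ih =>
      rw [show ⁅x, y⁻¹⁆ = y⁻¹ * ⁅x, y⁆⁻¹ * y⁻¹⁻¹ by simp only [commutatorElement_def]; group]
      exact cj (inv_mem (ht hy)) (inv_mem ih)
  rw [Subgroup.commutator_le]
  intro x hx y hy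
  induction hx using Subgroup.closure_induction with
  | mem x hx => exact h1 x hx y hy
  | one => rw [commutatorElement_one_left]; exact one_mem _
  | mul x x' hx _ ih ih' =>
    rw [show ⁅x * x', y⁆ = (x * ⁅x', y⁆ * x⁻¹) * ⁅x, y⁆ by simp only [commutatorElement_def]; group]
    exact mul_mem (cj (hs hx) ih') ih
  | inv x hx ih =>
    rw [show ⁅x⁻¹, y⁆ = x⁻¹ * ⁅x, y⁆⁻¹ * x⁻¹⁻¹ by simp only [commutatorElement_def]; group]
    exact cj (inv_mem (hs hx)) (inv_mem ih)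

theorem closure_union3 (A B C : Subgroup G) :
    Subgroup.closure ((A : Set G) ∪ B ∪ C) = A ⊔ B ⊔ C := by
  rw [Subgroup.closure_union, Subgroup.closure_union, Subgroup.closure_eq, Subgroup.closure_eq,
    Subgroup.closure_eq]

theorem le_normalizer_of_gens {H L : Subgroup G} (h : ∀ g ∈ H, ∀ l ∈ L, g * l * g⁻¹ ∈ L) :
    H ≤ Subgroup.normalizer (L : Set G) := by
  intro g hg
  rw [Subgroup.mem_normalizer_iff]
  refine fun x => ⟨h g hg x, fun hx => ?_⟩
  have := h g⁻¹ (inv_mem hg) _ hx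
  simpa [mul_assoc] using this

variable (hS : IsRootSubgroupSet S)
include hS

/-- If `⁅A, B⁆` is a member, then no partner of `⁅A, B⁆` commutes with `A`. -/
theorem not_rankOne_of_case_commute {A B F : Subgroup G} (hA : A ∈ S) (hB : B ∈ S) (hF : F ∈ S)
    (hC : ⁅A, B⁆ ∈ S) (hAF : ⁅A, F⁆ = ⊥) : ¬ IsRankOnePair ⁅A, B⁆ F := by
  intro hR
  have hcase := case_of_member hS hA hB hC
  obtain ⟨Q, hQ⟩ : ∃ Q, Q = ⁅A, B⁆ := ⟨_, rfl⟩
  rw [← hQ] at hR
  have hQS : Q ∈ S := hQ ▸ hC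
  have hni := not_isolated_of_pair hS hQS hF hR
  have hne : Q ≠ A := fun e => not_commute hR (e ▸ hAF)
  have hQA : ⁅Q, A⁆ = ⊥ := hQ ▸ case_comm_left hcase
  have hmem : ∀ x ∈ Q ⊔ A, x ≠ 1 → ∃ M ∈ membersIn S (Q ⊔ A), x ∈ M := by
    intro x hx hx1
    obtain ⟨q, hq, a, ha, rfl⟩ := mem_sup_comm hQA hx
    by_cases ha1 : a = 1
    · exact ⟨Q, ⟨hQS, le_sup_left⟩, by rw [ha1, mul_one]; exact hq⟩
    -- `q a` lies in a conjugate of `A`
    obtain ⟨b, hb, e⟩ := case_surj hcase ha ha1 (show q⁻¹ ∈ ⁅A, B⁆ from hQ ▸ inv_mem hq)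
    refine ⟨conjBy A b, ⟨hS.conj_mem A hA b, ?_⟩, ?_⟩
    · have := case_cb_le (case_symm hcase) hb
      rwa [Subgroup.commutator_comm, ← hQ, sup_comm] at this
    · have e2 : b * a * b⁻¹ = q * a := by
        rw [show b * a * b⁻¹ = ⁅a, b⁆⁻¹ * a by simp only [commutatorElement_def]; group, e, inv_inv]
      rw [← e2]
      exact cb_mem b ha
  obtain ⟨E, hE, hEQ, hEF, hmove⟩ := line_shift hS hQS hA hF hR hne hQA hmem
  obtain ⟨q₀, hq₀, hq₀1⟩ := exists_ne_one hR
  obtain ⟨hEcase, hcase2, hEeq⟩ := shift_eq hS hQS hE.1 hF hR hEF (line_commute hS hQS hA hQA le_sup_left hE.2)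
    hq₀ hq₀1 (fun t ht _ => by
      have hqt : q₀ * t ≠ 1 := by
        intro e
        have : t ∈ Q := by rw [eq_inv_of_mul_eq_one_right e]; exact inv_mem hq₀
        have ht1 : t ≠ 1 := fun et => hq₀1 (by rwa [et, mul_one] at e)
        exact hEQ (eq_of_inter hS hQS hni hE.1 this ht ht1).symm
      obtain ⟨M, hM, hx⟩ := hmem _ (mul_mem (le_sup_left (α := Subgroup G) hq₀) (hE.2 ht)) hqt
      exact ⟨M, hM.1, line_commute hS hQS hA hQA le_sup_left hM.2, hx⟩)
  have hAE : A ≠ E := fun e => case_not_bot hS hEcase (e ▸ hAF)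
  obtain ⟨-, -, -, -, hsup⟩ := hmove Q ⟨hQS, le_sup_left⟩ hEQ.symm
  have hmemb := (Cfsg.Agent.S5029.result hS hni hQS hEcase.1 hcase2.1).1
  rw [← hEeq, hsup] at hmemb
  have hAm : A ∈ membersIn S (Q ⊔ A) := ⟨hA, le_sup_right⟩
  rw [hmemb] at hAm
  rcases hAm with ⟨g, hg, hgA⟩ | hAm
  · have hgF : conjBy F g = F := cb_of_commute fun z hz =>
      case_comm hEcase hg (le_sup_right (α := Subgroup G) hz)
    exact not_commute ((show conjBy Q g = A from hgA) ▸ hgF ▸ rankOne_cb hR g) hAF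
  · exact hAE hAm

end Cfsg.Agent.Fischer
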