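import Cfsg.Agent.Fischer.RankOneGroup

/-! Special rank one pairs with abelian unipotent subgroups: powers. -/

set_option autoImplicit false
open Cfsg

namespace Cfsg.Agent.Fischer

variable {G : Type*} [Group G] {A B : Subgroup G}

variable (hs : IsSpecialRankOnePair A B)
include hs

theorem special_id {a b : G} (ha : a ∈ A) (ha1 : a ≠ 1) (hb : b ∈ B) (hb1 : b ≠ 1)
    (e : conjBy A b⁻¹ = conjBy B a⁻¹) : b⁻¹ * a * b = a⁻¹ * b⁻¹ * a :=
  hs.2 a ha ha1 b hb hb1 e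

theorem swap_conj {a b : G} (ha : a ∈ A) (ha1 : a ≠ 1) (hb : b ∈ B) (hb1 : b ≠ 1)
    (e : conjBy A b⁻¹ = conjBy B a⁻¹) :
    (a * b⁻¹ * a) * a * (a * b⁻¹ * a)⁻¹ = b⁻¹ ∧ (a * b⁻¹ * a) * b * (a * b⁻¹ * a)⁻¹ = a⁻¹ := by
  have h := special_id hs ha ha1 hb hb1 e
  have hn : a * b⁻¹ * a = b⁻¹ * a * b⁻¹ := by
    calc a * b⁻¹ * a = a * a * (a⁻¹ * b⁻¹ * a) := by group
      _ = a * a * (b⁻¹ * a * b) := by rw [h]
      _ = _ := by
        have h' : b⁻¹ * a = a⁻¹ * b⁻¹ * a * b⁻¹ := by rw [← h]; group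
        calc a * a * (b⁻¹ * a * b) = a * a * (a⁻¹ * b⁻¹ * a) := by rw [h]
          _ = a * (b⁻¹ * a) := by group
          _ = a * (a⁻¹ * b⁻¹ * a * b⁻¹) := by rw [← h']
          _ = b⁻¹ * a * b⁻¹ := by group
  constructor
  · calc (a * b⁻¹ * a) * a * (a * b⁻¹ * a)⁻¹ = a * (b⁻¹ * a * b) * a⁻¹ := by group
      _ = a * (a⁻¹ * b⁻¹ * a) * a⁻¹ := by rw [h]
      _ = b⁻¹ := by group
  · calc (a * b⁻¹ * a) * b * (a * b⁻¹ * a)⁻¹
        = (b⁻¹ * a * b⁻¹) * b * (b⁻¹ * a * b⁻¹)⁻¹ := by rw [hn]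
      _ = (b⁻¹ * a * b) * a⁻¹ * b := by group
      _ = (a⁻¹ * b⁻¹ * a) * a⁻¹ * b := by rw [h]
      _ = a⁻¹ := by group

theorem partner_inv {a b : G} (ha : a ∈ A) (ha1 : a ≠ 1) (hb : b ∈ B) (hb1 : b ≠ 1)
    (e : conjBy A b⁻¹ = conjBy B a⁻¹) : conjBy A b = conjBy B a := by
  obtain ⟨h1, h2⟩ := swap_conj hs ha ha1 hb hb1 e
  set n := a * b⁻¹ * a
  have hn : n ∈ A ⊔ B := mul_mem (mul_mem (le_sup_left (α := Subgroup G) ha)
    (inv_mem (le_sup_right (α := Subgroup G) hb))) (le_sup_left (α := Subgroup G) ha)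
  have hu : conjBy B n ∈ unipotentSubgroups A B := unipotent_conj (right_mem hs.1) hn
  have hA : conjBy B n = A := by
    by_contra hne
    have hm : a⁻¹ ∈ conjBy B n := h2 ▸ cb_mem n hb
    have := eq_one_of_normalize' hs.1 hu self_mem hne hm (Subgroup.le_normalizer (inv_mem ha))
    exact ha1 (by simpa using this)
  rw [show n = (a * b⁻¹) * a from rfl, ← cb_cb, ← cb_cb, cb_eq_iff, cb_of_mem (inv_mem ha),
    cb_eq_iff, inv_inv] at hA
  exact hA.symm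

variable (hab : HasAbelianUnipotents A B)
include hab

/-- `b(a^n)^n = b(a)` whenever `a^n ≠ 1`. -/
theorem partner_pow {a b : G} (ha : a ∈ A) (ha1 : a ≠ 1) (hb : b ∈ B) (hb1 : b ≠ 1)
    (e : conjBy A b⁻¹ = conjBy B a⁻¹) {n : ℕ} {c : G} (hn : a ^ n ≠ 1) (hc : c ∈ B)
    (hc1 : c ≠ 1) (ec : conjBy A c⁻¹ = conjBy B (a ^ n)⁻¹) : c ^ n = b := by
  induction n generalizing a b c with
  | zero => simp at hn
  | succ n ih =>
    rcases Nat.eq_zero_or_pos n with rfl | hnpos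
    · rw [Nat.zero_add, pow_one] at ec ⊢
      exact inv_injective (regular (RankOnePair_symm hs.1) (inv_mem hc) (inv_mem hb) (ec.trans e.symm))
    have hcomm : ∀ {x y : G}, x ∈ B → y ∈ B → x * y = y * x := by
      intro x y hx hy
      haveI := hab.2
      exact congrArg Subtype.val (mul_comm' (⟨x, hx⟩ : B) ⟨y, hy⟩)
    obtain ⟨hswap1, -⟩ := swap_conj hs ha ha1 hb hb1 e
    by_cases hna : a ^ n = 1
    · rw [pow_succ, hna, one_mul] at ec hn
      have hcb : c = b :=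
        inv_injective (regular (RankOnePair_symm hs.1) (inv_mem hc) (inv_mem hb) (ec.trans e.symm))
      have hbn : b ^ n = 1 := by
        have := conj_pow (a := a * b⁻¹ * a) (b := a) (i := n)
        rw [hswap1, hna, mul_one, mul_inv_cancel, inv_pow, inv_eq_one] at this
        exact this
      rw [hcb, pow_succ, hbn, one_mul]
    obtain ⟨bn, hbn, hbn1, ebn⟩ := hs.1.cond_left (a ^ n) (pow_mem ha n) hna
    have hbnn : bn ^ n = b := ih ha ha1 hb hb1 e hna hbn hbn1 ebn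
    set a' := b * (a⁻¹ * bn⁻¹ * a) * b⁻¹
    have ha' : a' ∈ A := by
      have hm : a⁻¹ * bn⁻¹ * a ∈ conjBy A b⁻¹ := by
        rw [e, mem_cb]; simpa [mul_assoc] using hbn
      rw [mem_cb] at hm
      simpa [a', mul_assoc] using hm
    have ha'n : a' ^ n = a := by
      have e1 : a' = (b * a⁻¹) * bn⁻¹ * (b * a⁻¹)⁻¹ := by simp only [a']; group
      rw [e1, conj_pow, inv_pow, hbnn]
      calc b * a⁻¹ * b⁻¹ * (b * a⁻¹)⁻¹ = b * (a⁻¹ * b⁻¹ * a) * b⁻¹ := by group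
        _ = b * (b⁻¹ * a * b) * b⁻¹ := by rw [special_id hs ha ha1 hb hb1 e]
        _ = a := by group
    -- the conjugate `B ^ (a^(n+1))`
    have hval : conjBy A c⁻¹ = conjBy (conjBy B (a' * a)) b⁻¹ := by
      rw [ec, show (a ^ (n + 1))⁻¹ = a⁻¹ * (a ^ n)⁻¹ by rw [pow_succ, mul_inv_rev],
        ← cb_cb B a⁻¹, ← ebn, cb_cb]
      have : conjBy A (a⁻¹ * bn⁻¹) = conjBy A (b⁻¹ * a' * b) := by
        rw [show b⁻¹ * a' * b = a⁻¹ * bn⁻¹ * a by simp only [a']; group, ← cb_cb A (a⁻¹ * bn⁻¹) a,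
          cb_of_mem ha]
      rw [this, ← cb_cb A (b⁻¹ * a') b, partner_inv hs ha ha1 hb hb1 e, cb_cb, cb_cb, mul_assoc]
    have hd : a' * a = a' ^ (n + 1) := by rw [pow_succ', ha'n]
    by_cases hd1 : a' ^ (n + 1) = 1
    · exfalso
      have h2 : a ^ (n + 1) = 1 := by
        rw [← ha'n, ← pow_mul, mul_comm, pow_mul, hd1, one_pow]
      exact hn h2
    set d := a' ^ (n + 1)
    obtain ⟨e', he', he'1, ee⟩ := hs.1.cond_left d (pow_mem ha' _) hd1
    rw [hd, ← partner_inv hs (pow_mem ha' _) hd1 he' he'1 ee, cb_cb] at hval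
    have hreg : c⁻¹ = b⁻¹ * e' :=
      regular (RankOnePair_symm hs.1) (inv_mem hc) (mul_mem (inv_mem hb) he') hval
    have hdn : d ^ n = a ^ (n + 1) := by
      rw [← pow_mul, mul_comm, pow_mul, ha'n]
    have hcn : c ^ n = e' := ih (pow_mem ha' _) hd1 he' he'1 ee (hdn ▸ hn) hc hc1 (hdn ▸ ec)
    calc c ^ (n + 1) = c * c ^ n := pow_succ' c n
      _ = c * (b * c⁻¹) := by rw [hcn, hreg]; group
      _ = (c * b) * c⁻¹ := by group
      _ = b := by rw [hcomm hc hb]; group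

end Cfsg.Agent.Fischer
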