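import Cfsg.Agent.Fischer.RootMember
import Cfsg.Agent.Fischer.Special
import Cfsg.Agent.S5032

/-! The quasisimplicity criterion for groups generated by abstract root subgroups. -/

set_option autoImplicit false
open Cfsg
open scoped commutatorElement

namespace Cfsg.Agent.Fischer

section Pair

variable {G Q : Type*} [Group G] [Group Q] (f : G →* Q) {A B : Subgroup G}
  (hs : IsSpecialRankOnePair A B)
  (hcomm : ∀ a ∈ A, ∀ b ∈ B, f a * f b = f b * f a)
include hs hcomm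

theorem partner_image {a b : G} (ha : a ∈ A) (ha1 : a ≠ 1) (hb : b ∈ B) (hb1 : b ≠ 1)
    (e : conjBy A b⁻¹ = conjBy B a⁻¹) : f b = (f a)⁻¹ := by
  have h := congrArg f (special_id hs ha ha1 hb hb1 e)
  simp only [map_mul, map_inv] at h
  have hc : Commute (f a) (f b) := hcomm a ha b hb
  rw [mul_assoc, hc.eq, inv_mul_cancel_left, mul_assoc, (hc.inv_right).eq.symm,
    inv_mul_cancel_left] at h
  rw [h, inv_inv]

theorem image_left {a : G} (ha : a ∈ A) : ∃ b ∈ B, f b = f a := by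
  by_cases ha1 : a = 1
  · exact ⟨1, one_mem _, by rw [ha1]⟩
  obtain ⟨b, hb, hb1, e⟩ := hs.1.cond_left a ha ha1
  exact ⟨b⁻¹, inv_mem hb, by rw [map_inv, partner_image f hs hcomm ha ha1 hb hb1 e, inv_inv]⟩

theorem image_right {b : G} (hb : b ∈ B) : ∃ a ∈ A, f a = f b := by
  by_cases hb1 : b = 1
  · exact ⟨1, one_mem _, by rw [hb1]⟩
  obtain ⟨a, ha, ha1, e⟩ := hs.1.cond_right b hb hb1
  exact ⟨a⁻¹, inv_mem ha, by rw [map_inv, partner_image f hs hcomm ha ha1 hb hb1 e.symm]⟩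

theorem image_abelian {a a' : G} (ha : a ∈ A) (ha' : a' ∈ A) : f a * f a' = f a' * f a := by
  obtain ⟨b, hb, e⟩ := image_left f hs hcomm ha'
  rw [← e, hcomm a ha b hb]

omit hcomm in
theorem swap_cb {a b : G} (ha : a ∈ A) (ha1 : a ≠ 1) (hb : b ∈ B) (hb1 : b ≠ 1)
    (e : conjBy A b⁻¹ = conjBy B a⁻¹) :
    conjBy A (a * b⁻¹ * a) = B ∧ conjBy B (a * b⁻¹ * a) = A := by
  constructor
  · rw [← cb_cb, cb_of_mem ha, ← cb_cb, e, cb_cb, mul_inv_cancel, cb_one]
  · rw [← cb_cb, ← partner_inv hs ha ha1 hb hb1 e, cb_cb, mul_assoc, inv_mul_cancel, mul_one,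
      cb_of_mem ha]

/-- The image of the reflection `a b⁻¹ a` inverts parameters modulo the kernel. -/
theorem swap_param {a b : G} (ha : a ∈ A) (ha1 : a ≠ 1) (hb : b ∈ B) (hb1 : b ≠ 1)
    (e : conjBy A b⁻¹ = conjBy B a⁻¹) {x : G} (hx : x ∈ A) (hx1 : x ≠ 1) :
    ∃ y ∈ A, f y = (f x)⁻¹ ∧
      conjBy (conjBy B x) (a * b⁻¹ * a) = conjBy B y := by
  obtain ⟨hnA, hnB⟩ := swap_cb hs ha ha1 hb hb1 e
  obtain ⟨c, hc, hc1, ec⟩ := hs.1.cond_left x⁻¹ (inv_mem hx) (inv_ne_one.2 hx1)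
  rw [inv_inv] at ec
  set n := a * b⁻¹ * a with hn
  refine ⟨n * c⁻¹ * n⁻¹, hnB ▸ cb_mem n (inv_mem hc), ?_, ?_⟩
  · have hfc := partner_image f hs hcomm (inv_mem hx) (inv_ne_one.2 hx1) hc hc1 (by rw [inv_inv, ec])
    rw [map_inv, inv_inv] at hfc
    have hnx : Commute (f n) (f x) := by
      simp only [hn, map_mul, map_inv]
      exact ((show Commute (f a) (f x) from image_abelian f hs hcomm ha hx).mul_left
        (show Commute (f b) (f x) from (hcomm x hx b hb).symm).inv_left).mul_left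
        (show Commute (f a) (f x) from image_abelian f hs hcomm ha hx)
    rw [map_mul, map_mul, map_inv, map_inv, hfc, hnx.inv_right.eq, mul_inv_cancel_right]
  · rw [← ec, cb_cb, ← hnA, cb_cb, inv_mul_cancel_right]

omit hcomm in
/-- The key relation between parameters, for a map multiplicative on `A`. -/
theorem param_core {P : Type*} [CommGroup P] (ψ : G → P)
    (hmul : ∀ u ∈ A, ∀ v ∈ A, ψ (u * v) = ψ u * ψ v)
    (hswap : ∀ a b : G, a ∈ A → a ≠ 1 → b ∈ B → b ≠ 1 → conjBy A b⁻¹ = conjBy B a⁻¹ →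
      ∀ x ∈ A, x ≠ 1 →
        ∃ y ∈ A, ψ y = (ψ x)⁻¹ ∧ conjBy (conjBy B x) (a * b⁻¹ * a) = conjBy B y)
    {a x : G} (ha : a ∈ A) (ha1 : a ≠ 1) (hx : x ∈ A) (hx1 : x ≠ 1) (hax : a * x ≠ 1) :
    ψ a = (ψ x * ψ x)⁻¹ := by
  obtain ⟨b, hb, hb1, e⟩ := hs.1.cond_left a ha ha1
  obtain ⟨hnA, hnB⟩ := swap_cb hs ha ha1 hb hb1 e
  obtain ⟨hsw, -⟩ := swap_conj hs ha ha1 hb hb1 e
  have e' : conjBy A (b⁻¹)⁻¹ = conjBy B (a⁻¹)⁻¹ := by
    rw [inv_inv, inv_inv]; exact partner_inv hs ha ha1 hb hb1 e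
  obtain ⟨y, hy, hfy, ey⟩ := hswap a b ha ha1 hb hb1 e x hx hx1
  obtain ⟨w, hw, hfw, ew⟩ := hswap a⁻¹ b⁻¹ (inv_mem ha) (inv_ne_one.2 ha1)
    (inv_mem hb) (inv_ne_one.2 hb1) e' (a * x) (mul_mem ha hx) hax
  have hninv : a⁻¹ * (b⁻¹)⁻¹ * a⁻¹ = (a * b⁻¹ * a)⁻¹ := by group
  rw [hninv] at ew
  set n := a * b⁻¹ * a with hn
  have hnP : conjBy (conjBy B x) n = conjBy (conjBy (conjBy B (a * w)) n) a := by
    rw [← cb_cb B a w, ← ew]
    simp only [cb_cb]
    congr 1
    calc n * x = a * b⁻¹ * (a * x) := by rw [hn]; group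
      _ = a * (n * a * n⁻¹) * (a * x) := by rw [hsw]
      _ = _ := by group
  have haw : a * w ≠ 1 := by
    intro h1
    rw [h1, cb_one, hnB, cb_of_mem ha, cb_eq_iff, ← hnB, cb_cb, inv_mul_cancel, cb_one,
      cb_eq_self] at hnP
    exact hx1 (eq_one_of_normalize hs.1 hx hnP)
  obtain ⟨v, hv, hfv, ev⟩ := hswap a b ha ha1 hb hb1 e (a * w) (mul_mem ha hw) haw
  rw [ey, ev, cb_cb] at hnP
  have hyv := regular hs.1 hy (mul_mem ha hv) hnP
  rw [hyv, hmul a ha v hv, hfv, hmul a ha w hw, hfw, hmul a ha x hx, mul_inv_rev, inv_inv,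
    mul_assoc, mul_comm (ψ x) (ψ a)⁻¹, mul_inv_cancel_left] at hfy
  rw [mul_inv_rev]
  exact eq_mul_inv_of_mul_eq hfy

omit hs hcomm in
theorem exists_avoid (h3 : 3 < ENat.card A) (p q r : G) :
    ∃ x ∈ A, x ≠ p ∧ x ≠ q ∧ x ≠ r := by
  by_contra hne
  push_neg at hne
  have hsub : (A : Set G) ⊆ {p, q, r} := by
    intro x hx
    by_cases h1 : x = p
    · simp [h1]
    by_cases h2 : x = q
    · simp [h2]
    simp [hne x hx h1 h2]
  have h2 : ENat.card A ≤ 3 := by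
    rw [show ENat.card A = (A : Set G).encard from ENat.card_coe_set_eq _]
    refine (Set.encard_mono hsub).trans ?_
    refine (Set.encard_insert_le _ _).trans ?_
    refine (add_le_add (Set.encard_insert_le _ _) le_rfl).trans ?_
    rw [Set.encard_singleton]
    norm_num
  exact absurd h3 (not_lt.2 h2)

omit hcomm in
/-- A map as in `param_core` is trivial on `A` if `A` has more than three elements. -/
theorem eq_one_core {P : Type*} [CommGroup P] (ψ : G → P)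
    (hmul : ∀ u ∈ A, ∀ v ∈ A, ψ (u * v) = ψ u * ψ v)
    (hswap : ∀ a b : G, a ∈ A → a ≠ 1 → b ∈ B → b ≠ 1 → conjBy A b⁻¹ = conjBy B a⁻¹ →
      ∀ x ∈ A, x ≠ 1 →
        ∃ y ∈ A, ψ y = (ψ x)⁻¹ ∧ conjBy (conjBy B x) (a * b⁻¹ * a) = conjBy B y)
    (h3 : 3 < ENat.card A) {a : G} (ha : a ∈ A) : ψ a = 1 := by
  have hone : ψ 1 = 1 := by
    have := hmul 1 (one_mem A) 1 (one_mem A)
    rwa [mul_one, left_eq_mul] at this
  by_cases ha1 : a = 1
  · rw [ha1, hone]
  have hsame : ∀ a₁ ∈ A, a₁ ≠ 1 → ∀ a₂ ∈ A, a₂ ≠ 1 → ψ a₁ = ψ a₂ := by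
    intro a₁ h₁ h₁' a₂ h₂ h₂'
    obtain ⟨x, hx, hx1, hxa, hxa'⟩ := exists_avoid h3 1 a₁⁻¹ a₂⁻¹
    rw [param_core hs ψ hmul hswap h₁ h₁' hx hx1 fun e => hxa (eq_inv_of_mul_eq_one_right e),
      param_core hs ψ hmul hswap h₂ h₂' hx hx1 fun e => hxa' (eq_inv_of_mul_eq_one_right e)]
  obtain ⟨a', ha', ha'1, hne, -⟩ := exists_avoid h3 1 a⁻¹ 1
  have h1 := hsame (a * a') (mul_mem ha ha') (fun e => hne (eq_inv_of_mul_eq_one_right e)) a ha ha1
  rw [hmul a ha a' ha', mul_eq_left] at h1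
  rw [hsame a ha ha1 a' ha' ha'1, h1]

/-- In a special pair with more than three elements, commuting images are trivial. -/
theorem image_eq_one (h3 : 3 < ENat.card A) {a : G} (ha : a ∈ A) : f a = 1 := by
  classical
  let T : Subgroup Q := A.map f
  letI : CommGroup T := { (inferInstance : Group T) with
    mul_comm := by
      rintro ⟨_, u, hu, rfl⟩ ⟨_, v, hv, rfl⟩
      exact Subtype.ext (image_abelian f hs hcomm hu hv) }
  let ψ : G → T := fun g => if hg : g ∈ A then ⟨f g, Subgroup.mem_map_of_mem f hg⟩ else 1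
  have hψ : ∀ g ∈ A, ((ψ g : T) : Q) = f g := fun g hg => by simp [ψ, dif_pos hg]
  have h := eq_one_core hs ψ (fun u hu v hv => Subtype.ext (by
      rw [hψ _ (mul_mem hu hv), map_mul]; show _ = (ψ u : Q) * (ψ v : Q); rw [hψ u hu, hψ v hv]))
    (fun a b ha ha1 hb hb1 e x hx hx1 => by
      obtain ⟨y, hy, hfy, ey⟩ := swap_param f hs hcomm ha ha1 hb hb1 e hx hx1
      exact ⟨y, hy, Subtype.ext (by rw [hψ y hy, hfy]; show _ = (ψ x : Q)⁻¹; rw [hψ x hx]), ey⟩)
    h3 ha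
  rw [← hψ a ha, h]
  rfl

end Pair

section Criterion

variable {G : Type*} [Group G] {S : Set (Subgroup G)} (hS : IsRootSubgroupSet S)
  (h2 : ∃ A ∈ S, ∃ B ∈ S, A ≠ B)
  (h1 : IsConnectedFamily (FAdj S) S)
  (h3 : IsDegenerateRootSet S → ∀ A ∈ S, 3 < ENat.card A)
  (h4 : ∀ A ∈ S, ∀ B ∈ rankOnePartners S A, IsSpecialRankOnePair A B)

include hS in
theorem eq_top_of_members_le {H : Subgroup G} (h : ∀ A ∈ S, A ≤ H) : H = ⊤ := by
  rw [eq_top_iff, ← hS.generates]
  exact iSup₂_le h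

include h2 h1 in
theorem conn_partner {A : Subgroup G} (hA : A ∈ S) : ∃ B ∈ S, IsRankOnePair A B := by
  obtain ⟨X, hX, Y, hY, hne⟩ := h2
  obtain ⟨Z, hZ, hAZ⟩ : ∃ Z ∈ S, A ≠ Z := by
    by_cases h : A = X
    · exact ⟨Y, hY, h ▸ hne⟩
    · exact ⟨X, hX, h⟩
  rcases (h1 A hA Z hZ).cases_head with e | ⟨F, hF, -⟩
  · exact absurd e hAZ
  · exact ⟨F, hF.2.1, hF.2.2⟩

include hS h2 h1 in
theorem case_through {A : Subgroup G} (hA : A ∈ S) (hnd : ¬ IsDegenerateRootSet S) :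
    ∃ E ∈ S, RootCommutatorCase S A E := by
  simp only [IsDegenerateRootSet, not_forall, not_not] at hnd
  obtain ⟨X, hX, Y, hY, hXY⟩ := hnd
  obtain ⟨g, rfl⟩ := ((Cfsg.Agent.S5032.result hS h2).1 h1).1.2 X hX A hA
  refine ⟨conjBy Y g, hS.conj_mem Y hY g, case_of_member hS hA (hS.conj_mem Y hY g) ?_⟩
  have := hS.conj_mem _ hXY.1 g
  rw [show conjBy ⁅X, Y⁆ g = ⁅conjBy X g, conjBy Y g⁆ from Subgroup.map_commutator _ _ _] at this
  exact this

include hS h2 h1 h3 h4 in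
theorem criterion_perfect : commutator G = ⊤ := by
  refine eq_top_of_members_le hS fun A hA => ?_
  by_cases hd : IsDegenerateRootSet S
  · obtain ⟨B, hB, hAB⟩ := conn_partner h2 h1 hA
    intro a ha
    have hab : ∀ p q : G ⧸ commutator G, p * q = q * p := fun p q =>
      mul_comm (G := Abelianization G) p q
    have := image_eq_one (QuotientGroup.mk' (commutator G)) (h4 A hA B ⟨hB, hAB⟩)
      (fun _ _ _ _ => hab _ _) (h3 hd A hA) ha
    exact (QuotientGroup.eq_one_iff a).1 this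
  · obtain ⟨E, hE, hAE⟩ := case_through hS h2 h1 hA hd
    obtain ⟨g, e⟩ := ((Cfsg.Agent.S5032.result hS h2).1 h1).1.2 _ hAE.1 A hA
    intro a ha
    rw [e, mem_cb] at ha
    have h := Subgroup.commutator_mono (le_top : A ≤ ⊤) (le_top : E ≤ ⊤) ha
    have := (inferInstance : (commutator G).Normal).conj_mem _ h g
    simpa [mul_assoc] using this

include hS h2 h1 h3 h4 in
/-- Members with trivial kernel part whose images commute do not form a rank one pair. -/
theorem no_pair_of_image {Q : Type*} [Group Q] (f : G →* Q)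
    (hN : ∀ A ∈ S, ∀ a ∈ A, f a = 1 → a = 1) {A C : Subgroup G} (hA : A ∈ S) (hC : C ∈ S)
    (hAC : IsRankOnePair A C) : ¬ ∀ a ∈ A, ∀ c ∈ C, f a * f c = f c * f a := by
  intro hcomm
  have hs := h4 A hA C ⟨hC, hAC⟩
  by_cases hd : IsDegenerateRootSet S
  · obtain ⟨a, ha, ha1⟩ := exists_ne_one hAC
    exact ha1 (hN A hA a ha (image_eq_one f hs hcomm (h3 hd A hA) ha))
  obtain ⟨E, hE, hAE⟩ := case_through hS h2 h1 hA hd
  have hR := hAE.1
  have hRA : ⁅A, ⁅A, E⁆⁆ = ⊥ := bot_symm (case_comm_left hAE)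
  have hRC : ∀ r ∈ ⁅A, E⁆, ∀ c ∈ C, f c * f r = f r * f c := by
    intro r hr c hc
    obtain ⟨a, ha, e⟩ := image_right f hs hcomm hc
    rw [← e, ← map_mul, ← map_mul, commute_cb_right hRA ha hr]
  suffices h : ∃ r ∈ ⁅A, E⁆, r ≠ 1 ∧ ∃ a ∈ A, f r = f a by
    obtain ⟨r, hr, hr1, a, ha, e⟩ := h
    by_cases ha1 : a = 1
    · rw [ha1, map_one] at e
      exact hr1 (hN _ hR r hr e)
    · obtain ⟨x, hx, ex⟩ := case_surj hAE ha ha1 hr
      refine hr1 (hN _ hR r hr ?_)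
      have hrx : f r * f x = f x * f r := by
        rw [← map_mul, ← map_mul, case_comm hAE hr (le_sup_right (α := Subgroup G) hx)]
      rw [← ex, map_commutatorElement, commutatorElement_eq_one_iff_mul_comm, ← e, hrx]
  obtain ⟨r, hr, hr1⟩ := exists_mem_ne_one hS hR
  by_cases hCR : IsRankOnePair ⁅A, E⁆ C
  · have hs' := h4 _ hR C ⟨hC, hCR⟩
    obtain ⟨c, hc, ec⟩ := image_left f hs' (fun r hr c hc => (hRC r hr c hc).symm) hr
    obtain ⟨a, ha, ea⟩ := image_right f hs hcomm hc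
    exact ⟨r, hr, hr1, a, ha, ec ▸ ea.symm⟩
  obtain ⟨a, ha, ha1⟩ := exists_ne_one hAC
  obtain ⟨x, hx, ex⟩ := case_surj hAE ha ha1 hr
  have hr' : ⁅x, a⁆ ∈ ⁅A, E⁆ := by
    rw [← commutatorElement_inv, ex]; exact inv_mem hr
  have hax : a * ⁅x, a⁆ ∈ conjBy A x := by
    rw [commute_cb_right hRA ha hr', show ⁅x, a⁆ * a = x * a * x⁻¹ by rw [commutatorElement_def]; group]
    exact cb_mem x ha
  have hF := hS.conj_mem A hA x
  have hFC := mixed_partner hS hR hF hC hAC hCR hRA ha ha1 hr' hax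
  have hsF := h4 _ hF C ⟨hC, hFC⟩
  have hcF : ∀ y ∈ conjBy A x, ∀ c ∈ C, f y * f c = f c * f y := by
    intro y hy c hc
    rw [mem_cb] at hy
    have hy' : ⁅x, x⁻¹ * y * x⁆ ∈ ⁅A, E⁆ := by
      rw [Subgroup.commutator_comm]; exact Subgroup.commutator_mem_commutator hx hy
    have e : y = ⁅x, x⁻¹ * y * x⁆ * (x⁻¹ * y * x) := by rw [commutatorElement_def]; group
    rw [e, map_mul]
    exact ((show Commute (f ⁅x, x⁻¹ * y * x⁆) (f c) from (hRC _ hy' c hc).symm).mul_left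
      (show Commute (f (x⁻¹ * y * x)) (f c) from hcomm _ hy c hc)).eq
  obtain ⟨c, hc, ec⟩ := image_left f hsF hcF hax
  obtain ⟨a₂, ha₂, ea⟩ := image_right f hs hcomm hc
  refine ⟨⁅x, a⁆, hr', ?_, a⁻¹ * a₂, mul_mem (inv_mem ha) ha₂, ?_⟩
  · rw [← commutatorElement_inv, ex]; simpa using hr1
  · rw [map_mul, map_inv, ea, ec, map_mul, inv_mul_cancel_left]

include hS h2 h1 h3 h4 in
theorem criterion_normal
    (h2' : ∀ A ∈ S, ∀ C ∈ S, A ≠ C → centralizingMembers S A ≠ centralizingMembers S C)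
    (N : Subgroup G) [N.Normal] (hNt : N ≠ ⊤) : N ≤ Subgroup.center G := by
  let f := QuotientGroup.mk' N
  have hf : ∀ x : G, f x = 1 ↔ x ∈ N := fun x => QuotientGroup.eq_one_iff x
  by_cases hex : ∃ A ∈ S, ∃ a ∈ A, a ≠ 1 ∧ a ∈ N
  · exfalso
    obtain ⟨A, hA, a, ha, ha1, haN⟩ := hex
    have step : ∀ {X Y : Subgroup G}, FAdj S X Y → (∃ x ∈ X, x ≠ 1 ∧ x ∈ N) ∧ X.map f = A.map f →
        (∃ y ∈ Y, y ≠ 1 ∧ y ∈ N) ∧ Y.map f = A.map f := by
      rintro X Y ⟨hX, hY, hXY⟩ ⟨⟨x, hx, hx1, hxN⟩, hmap⟩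
      obtain ⟨y, hy, hy1, e⟩ := hXY.cond_left x hx hx1
      have hsp := special_id (h4 X hX Y ⟨hY, hXY⟩) hx hx1 hy hy1 e
      have hyN : y ∈ N := by
        have h := congrArg f hsp
        simp only [map_mul, map_inv, (hf x).2 hxN, mul_one, one_mul, inv_one, inv_mul_cancel] at h
        exact (hf y).1 (inv_eq_one.1 h.symm)
      refine ⟨⟨y, hy, hy1, hyN⟩, hmap ▸ ?_⟩
      ext q
      simp only [Subgroup.mem_map]
      constructor
      · rintro ⟨z, hz, rfl⟩
        have hm := cb_mem x⁻¹ hz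
        rw [← e, mem_cb] at hm
        refine ⟨_, hm, ?_⟩
        simp [(hf x).2 hxN, (hf y).2 hyN]
      · rintro ⟨z, hz, rfl⟩
        have hm := cb_mem y⁻¹ hz
        rw [e, mem_cb] at hm
        refine ⟨_, hm, ?_⟩
        simp [(hf x).2 hxN, (hf y).2 hyN]
    have hall : ∀ X ∈ S, X.map f = A.map f := by
      intro X hX
      suffices h : (∃ y ∈ X, y ≠ 1 ∧ y ∈ N) ∧ X.map f = A.map f from h.2
      have hp := h1 A hA X hX
      clear hX
      induction hp with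
      | refl => exact ⟨⟨a, ha, ha1, haN⟩, rfl⟩
      | tail _ hadj ih => exact step hadj ih
    apply hNt
    have hle : ∀ g, f g ∈ A.map f := by
      have : (A.map f).comap f = ⊤ := eq_top_of_members_le hS fun X hX =>
        Subgroup.map_le_iff_le_comap.1 (hall X hX).le
      intro g
      have hg : g ∈ (A.map f).comap f := this ▸ Subgroup.mem_top g
      exact hg
    rw [eq_top_iff, ← criterion_perfect hS h2 h1 h3 h4, commutator_def, Subgroup.commutator_le]
    intro g _ g' _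
    obtain ⟨u, hu, eu⟩ := hle g
    obtain ⟨v, hv, ev⟩ := hle g'
    rw [← hf, map_commutatorElement, commutatorElement_eq_one_iff_mul_comm, ← eu, ← ev, ← map_mul,
      ← map_mul, member_comm hS hA hu hv]
  · push_neg at hex
    have hN : ∀ A ∈ S, ∀ a ∈ A, f a = 1 → a = 1 := fun A hA a ha e => by
      by_contra ha1
      exact hex A hA a ha ha1 ((hf a).1 e)
    have hcent : ∀ X ∈ S, ∀ Y ∈ S, (∀ x ∈ X, ∀ y ∈ Y, f x * f y = f y * f x) → ⁅X, Y⁆ = ⊥ := by
      intro X hX Y hY hc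
      rcases hS.pair X hX Y hY with h | h | h
      · exact h
      · exact absurd hc (no_pair_of_image hS h2 h1 h3 h4 f hN hX hY h)
      · refine absurd ((Subgroup.eq_bot_iff_forall _).2 fun r hr => hN _ h.1 r hr ?_)
          (case_not_bot hS h)
        have hle : ⁅X, Y⁆ ≤ f.ker := Subgroup.commutator_le.2 fun x hx y hy => by
          rw [MonoidHom.mem_ker, map_commutatorElement, commutatorElement_eq_one_iff_mul_comm]
          exact hc x hx y hy
        exact hle hr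
    intro n hn
    have hfn : f n = 1 := (hf n).2 hn
    have hfix : ∀ A ∈ S, conjBy A n = A := by
      intro A hA
      by_contra hne
      have himg : ∀ X ∈ S, (∀ g : G, f g = 1 → X ≤ Subgroup.centralizer (A : Set G) →
          X ≤ Subgroup.centralizer (conjBy A g : Set G)) := by
        intro X hX g hg hXA
        rw [← Subgroup.commutator_eq_bot_iff_le_centralizer]
        refine hcent X hX _ (hS.conj_mem A hA g) fun x hx y hy => ?_
        rw [mem_cb] at hy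
        have e : f y = f (g⁻¹ * y * g) := by simp [hg]
        rw [e, ← map_mul, ← map_mul, Subgroup.mem_centralizer_iff.1 (hXA hx) _ hy]
      refine h2' A hA _ (hS.conj_mem A hA n) (Ne.symm hne) (Set.ext fun X => ?_)
      constructor
      · exact fun h => ⟨h.1, himg X h.1 n hfn h.2⟩
      · rintro ⟨hX, hXn⟩
        refine ⟨hX, ?_⟩
        rw [← Subgroup.commutator_eq_bot_iff_le_centralizer]
        refine hcent X hX A hA fun x hx y hy => ?_
        have e : f y = f (n * y * n⁻¹) := by simp [hfn]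
        rw [e, ← map_mul, ← map_mul, Subgroup.mem_centralizer_iff.1 (hXn hx) _ (cb_mem n hy)]
    rw [Subgroup.mem_center_iff]
    intro g
    have : Subgroup.centralizer {n} = ⊤ := eq_top_of_members_le hS fun A hA a ha => by
      rw [Subgroup.mem_centralizer_singleton_iff]
      have hm : a * n * a⁻¹ * n⁻¹ = 1 := hN A hA _ (by
        have := cb_mem n (inv_mem ha)
        rw [hfix A hA] at this
        have := mul_mem ha this
        simpa [mul_assoc] using this) (by simp [hfn])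
      rwa [mul_inv_eq_one, mul_inv_eq_iff_eq_mul] at hm
    exact Subgroup.mem_centralizer_singleton_iff.1 (this ▸ Subgroup.mem_top g)

end Criterion

end Cfsg.Agent.Fischer
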