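import Cfsg.Agent.Fischer.SylowCentral

/-! An involution whose centralizer is a Sylow 2-subgroup with Frattini subgroup of order two. -/

set_option autoImplicit false
open Cfsg
open scoped commutatorElement

namespace Cfsg.Agent.Fischer

theorem dihedral_of_small_frattini {L : Type*} [Group L] [Finite L] [IsSimpleGroup L]
    (hL : ¬ IsMulCommutative L) (z : L) (hz : orderOf z = 2) (R : Sylow 2 L)
    (hR : (R : Subgroup L) = Subgroup.centralizer ({z} : Set L))
    (hΦ : (frattini ↥(R : Subgroup L)).map (R : Subgroup L).subtype = Subgroup.zpowers z) :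
    Nonempty (↥(R : Subgroup L) ≃* DihedralGroup 4) := by
  classical
  haveI := Fact.mk Nat.prime_two
  have hzz : z * z = 1 := by rw [← pow_two, ← hz, pow_orderOf_eq_one]
  have hz1 : z ≠ 1 := fun e => by simp [e] at hz
  have hzp : ∀ u : L, u ∈ Subgroup.zpowers z → u = 1 ∨ u = z := by
    intro u hu
    obtain ⟨n, rfl⟩ := Subgroup.mem_zpowers_iff.1 hu
    rcases Int.even_or_odd n with ⟨m, rfl⟩ | ⟨m, rfl⟩
    · exact Or.inl (by rw [zpow_add, ← (Commute.refl z).mul_zpow, hzz, one_zpow])
    · exact Or.inr (by rw [zpow_add, two_mul, zpow_add, ← (Commute.refl z).mul_zpow, hzz, one_zpow, zpow_one, one_mul])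
  have hmem : ∀ {u : L}, u ∈ (R : Subgroup L) ↔ u * z = z * u := fun {u} => by
    rw [hR]; exact Subgroup.mem_centralizer_singleton_iff
  have hphi : ∀ u : ↥(R : Subgroup L), u ∈ frattini ↥(R : Subgroup L) → (u : L) = 1 ∨ (u : L) = z :=
    fun u hu => hzp _ (hΦ ▸ ⟨u, hu, rfl⟩)
  have hsq : ∀ u ∈ (R : Subgroup L), u * u = 1 ∨ u * u = z := fun u hu => by
    have := hphi _ (FGS3.pow_mem_frattini (p := 2) R.2 ⟨u, hu⟩)
    rwa [SubmonoidClass.coe_pow, pow_two] at this
  have hbr : ∀ a ∈ (R : Subgroup L), ∀ b ∈ (R : Subgroup L), ⁅a, b⁆ = 1 ∨ ⁅a, b⁆ = z := fun a ha b hb => by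
    exact hphi ⁅(⟨a, ha⟩ : ↥(R : Subgroup L)), ⟨b, hb⟩⁆ (FGS3.commutator_le_frattini (p := 2) R.2
      (Subgroup.commutator_mem_commutator (Subgroup.mem_top _) (Subgroup.mem_top _)))
  have hN : Subgroup.normalizer ((R : Subgroup L) : Set L) ≤ (R : Subgroup L) := by
    intro n hn
    rw [hmem]
    have hnz : n * z * n⁻¹ ∈ (frattini ↥(R : Subgroup L)).map (R : Subgroup L).subtype := by
      let e : ↥(R : Subgroup L) ≃* ↥(R : Subgroup L) :=
        { toFun := fun u => ⟨n * u * n⁻¹, (Subgroup.mem_normalizer_iff.1 hn _).1 u.2⟩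
          invFun := fun u => ⟨n⁻¹ * u * n, (Subgroup.mem_normalizer_iff''.1 hn _).1 u.2⟩
          left_inv := fun u => Subtype.ext (by simp [mul_assoc])
          right_inv := fun u => Subtype.ext (by simp [mul_assoc])
          map_mul' := fun u v => Subtype.ext (by simp [mul_assoc]) }
      obtain ⟨u, hu, rfl⟩ : z ∈ (frattini ↥(R : Subgroup L)).map (R : Subgroup L).subtype :=
        hΦ ▸ Subgroup.mem_zpowers z
      have h2 := (Subgroup.characteristic_iff_map_eq.1 frattini_characteristic e).le ⟨u, hu, rfl⟩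
      exact ⟨e u, h2, rfl⟩
    rcases hzp _ (hΦ ▸ hnz) with e | e
    · exact absurd (conj_eq_one_iff.1 e) hz1
    · exact mul_inv_eq_iff_eq_mul.1 e
  have hzR : z ∈ (R : Subgroup L) := hmem.2 rfl
  -- a second conjugate of z in R
  obtain ⟨g, hgR, hgne⟩ : ∃ g : L, g * z * g⁻¹ ∈ (R : Subgroup L) ∧ g * z * g⁻¹ ≠ z := by
    by_contra hn
    push_neg at hn
    obtain ⟨N, hNn, hNodd, hN'⟩ := S0215.result R z hz hzR hn
    rcases hNn.eq_bot_or_eq_top with e | e
    · have hc : z ∈ Subgroup.center L := Subgroup.mem_center_iff.2 fun a => by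
        have := hN' a
        rw [e, Subgroup.mem_bot, mul_inv_eq_one, mul_inv_eq_iff_eq_mul] at this
        exact this.symm
      rcases Subgroup.Normal.eq_bot_or_eq_top (inferInstance : (Subgroup.center L).Normal) with c | c
      · rw [c, Subgroup.mem_bot] at hc; exact hz1 hc
      · exact hL ⟨⟨fun a b => Subgroup.mem_center_iff.1 (c ▸ Subgroup.mem_top b) a⟩⟩
    · rw [e, Subgroup.card_top] at hNodd
      have h2 : 2 ∣ Nat.card L := hz ▸ orderOf_dvd_natCard z
      exact (Nat.two_dvd_ne_zero.2 (Nat.odd_iff.1 hNodd)) h2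
  set t := g * z * g⁻¹ with ht
  clear_value t
  have htt : t * t = 1 := by rw [ht, show g * z * g⁻¹ * (g * z * g⁻¹) = g * (z * z) * g⁻¹ by group, hzz]; group
  have ht1 : t ≠ 1 := fun e => hz1 (conj_eq_one_iff.1 (ht ▸ e))
  have htz : t * z = z * t := hmem.1 hgR
  have hzR' : g⁻¹ * z * g ∈ (R : Subgroup L) := hmem.2 (by
    calc g⁻¹ * z * g * z = g⁻¹ * (z * t) * g := by rw [ht]; group
      _ = g⁻¹ * (t * z) * g := by rw [htz]
      _ = z * (g⁻¹ * z * g) := by rw [ht]; group)
  -- central elements of R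
  have hcenR : ∀ y ∈ (R : Subgroup L), (∀ r ∈ (R : Subgroup L), r * y = y * r) → y * y = 1 → y = 1 ∨ y = z :=
    fun y hy hc hyy => hphi ⟨y, hy⟩ (central_mem_frattini hL R hN (y := ⟨y, hy⟩) hc hyy)
  have htnc : ∃ r ∈ (R : Subgroup L), r * t ≠ t * r := by
    by_contra hn
    push_neg at hn
    rcases hcenR t hgR hn htt with e | e
    exacts [ht1 e, hgne e]
  obtain ⟨r, hr, hrt⟩ := htnc
  -- the common centralizer
  have hPsq : ∀ a ∈ (R : Subgroup L), a * t = t * a → a * a = 1 := by
    intro a ha hat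
    rcases hsq a ha with e | e
    · exact e
    exfalso
    have hb : g⁻¹ * a * g ∈ (R : Subgroup L) := hmem.2 (by
      calc g⁻¹ * a * g * z = g⁻¹ * (a * t) * g := by rw [ht]; group
        _ = g⁻¹ * (t * a) * g := by rw [hat]
        _ = z * (g⁻¹ * a * g) := by rw [ht]; group)
    rcases hsq _ hb with e' | e' <;>
      rw [show g⁻¹ * a * g * (g⁻¹ * a * g) = g⁻¹ * (a * a) * g by group, e] at e'
    · exact hz1 (by
        have h2 := congrArg (fun u => g * u * g⁻¹) e'
        simpa [mul_assoc] using h2)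
    · exact hgne (by
        have h2 := congrArg (fun u => g * u * g⁻¹) e'
        simp [mul_assoc] at h2
        rw [ht]; simp [mul_assoc]; exact h2.symm)
  have hPcomm : ∀ a ∈ (R : Subgroup L), ∀ b ∈ (R : Subgroup L), a * t = t * a → b * t = t * b → a * b = b * a := by
    intro a ha b hb hat hbt
    have h1 := hPsq a ha hat
    have h2 := hPsq b hb hbt
    have h3 := hPsq (a * b) (mul_mem ha hb) (Commute.mul_left hat hbt).eq
    calc a * b = a * (a * b * (a * b)) * b := by rw [h3, mul_one]
      _ = (a * a) * (b * a) * (b * b) := by group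
      _ = b * a := by rw [h1, h2, one_mul, mul_one]
  -- every element lies in the common centralizer or its translate by r
  have hbrt : ∀ u ∈ (R : Subgroup L), u * t ≠ t * u → u * t * u⁻¹ = z * t := by
    intro u hu hne
    rcases hbr u hu t hgR with e | e
    · exact absurd (commutatorElement_eq_one_iff_mul_comm.1 e) hne
    · rw [← e, commutatorElement_def]; group
  have hrz : r * z = z * r := hmem.1 hr
  have hsplit : ∀ u ∈ (R : Subgroup L), u * t = t * u ∨ (r⁻¹ * u) * t = t * (r⁻¹ * u) := by
    intro u hu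
    by_cases hne : u * t = t * u
    · exact Or.inl hne
    refine Or.inr ?_
    calc r⁻¹ * u * t = r⁻¹ * (u * t * u⁻¹) * u := by group
      _ = r⁻¹ * (r * t * r⁻¹) * u := by rw [hbrt u hu hne, hbrt r hr hrt]
      _ = _ := by group
  have hPsmall : ∀ a ∈ (R : Subgroup L), a * t = t * a → a = 1 ∨ a = z ∨ a = t ∨ a = z * t := by
    have fixed : ∀ a ∈ (R : Subgroup L), a * t = t * a → r * a = a * r → a = 1 ∨ a = z := by
      intro a ha hat hra
      refine hcenR a ha (fun u hu => ?_) (hPsq a ha hat)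
      rcases hsplit u hu with e | e
      · exact hPcomm u hu a ha e hat
      · have h1 := hPcomm (r⁻¹ * u) (mul_mem (inv_mem hr) hu) a ha e hat
        calc u * a = r * (r⁻¹ * u * a) := by group
          _ = r * a * (r⁻¹ * u) := by rw [h1]; group
          _ = _ := by rw [hra]; group
    intro a ha hat
    by_cases hra : r * a = a * r
    · rcases fixed a ha hat hra with e | e
      exacts [Or.inl e, Or.inr (Or.inl e)]
    · have hrat : r * a * r⁻¹ = z * a := by
        rcases hbr r hr a ha with e | e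
        · exact absurd (commutatorElement_eq_one_iff_mul_comm.1 e) hra
        · rw [← e, commutatorElement_def]; group
      have h2 : r * (a * t) = a * t * r := by
        refine mul_inv_eq_iff_eq_mul.1 ?_
        calc r * (a * t) * r⁻¹ = (r * a * r⁻¹) * (r * t * r⁻¹) := by group
          _ = z * a * (z * t) := by rw [hrat, hbrt r hr hrt]
          _ = z * (z * a) * t := by rw [mul_assoc z a, ← mul_assoc a z t, hmem.1 ha]; group
          _ = a * t := by rw [← mul_assoc z z a, hzz, one_mul]
      rcases fixed (a * t) (mul_mem ha hgR) (by rw [mul_assoc, ← mul_assoc t a t, ← hat, mul_assoc a t t, htt, mul_one]) h2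
        with e | e
      · refine Or.inr (Or.inr (Or.inl ?_))
        rw [← inv_eq_of_mul_eq_one_left e]; exact inv_eq_of_mul_eq_one_right htt
      · refine Or.inr (Or.inr (Or.inr ?_))
        rw [← e, mul_assoc, htt, mul_one]
  -- generators
  obtain ⟨x, hx, hxt, hxx⟩ : ∃ x ∈ (R : Subgroup L), x * t ≠ t * x ∧ x * x = z := by
    rcases hsq r hr with e | e
    · refine ⟨r * t, mul_mem hr hgR, fun h => hrt ?_, ?_⟩
      · exact mul_right_cancel (b := t) (by rw [h, mul_assoc])
      · calc r * t * (r * t) = r * t * r⁻¹ * (r * r) * t := by group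
          _ = z * t * t := by rw [hbrt r hr hrt, e, mul_one]
          _ = z := by rw [mul_assoc, htt, mul_one]
    · exact ⟨r, hr, hrt, e⟩
  have htx : t * x * t = x⁻¹ := by
    refine (inv_eq_of_mul_eq_one_right ?_).symm
    calc x * (t * x * t) = (x * t * x⁻¹) * (x * x) * t := by group
      _ = z * t * z * t := by rw [hbrt x hx hxt, hxx]
      _ = z * (t * z) * t := by group
      _ = z * z * (t * t) := by rw [htz]; group
      _ = 1 := by rw [hzz, htt, one_mul]
  have hx4 : orderOf (⟨x, hx⟩ : ↥(R : Subgroup L)) = 4 := by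
    rw [← Subgroup.orderOf_coe]
    refine orderOf_eq_prime_pow (p := 2) (n := 1) ?_ ?_
    · rw [pow_one, pow_two, hxx]; exact hz1
    · rw [show 2 ^ (1 + 1) = 2 * 2 from rfl, pow_mul, pow_two, pow_two, hxx, hzz]
  have htnot : (⟨t, hgR⟩ : ↥(R : Subgroup L)) ∉ Subgroup.zpowers (⟨x, hx⟩ : ↥(R : Subgroup L)) := by
    intro hm
    obtain ⟨n, hn⟩ := Subgroup.mem_zpowers_iff.1 hm
    have : x ^ n = t := by simpa using congrArg Subtype.val hn
    exact hxt (by rw [← this]; exact ((Commute.refl x).zpow_right n).eq)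
  have hsplit' : ∀ u ∈ (R : Subgroup L), u * t = t * u ∨ (x⁻¹ * u) * t = t * (x⁻¹ * u) := by
    intro u hu
    by_cases hne : u * t = t * u
    · exact Or.inl hne
    refine Or.inr ?_
    calc x⁻¹ * u * t = x⁻¹ * (u * t * u⁻¹) * u := by group
      _ = x⁻¹ * (x * t * x⁻¹) * u := by rw [hbrt u hu hne, hbrt x hx hxt]
      _ = _ := by group
  have hcard : Nat.card ↥(R : Subgroup L) = 2 * 4 := by
    let S : Finset L := {1, z, t, z * t}
    have hS4 : S.card ≤ 4 := le_trans (Finset.card_insert_le _ _) (by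
      refine Nat.succ_le_succ (le_trans (Finset.card_insert_le _ _) (Nat.succ_le_succ
        (le_trans (Finset.card_insert_le _ _) (by simp)))))
    have hle : Nat.card ↥(R : Subgroup L) ≤ 2 * 4 := by
      let Φ : ↥(R : Subgroup L) → Bool × ↥S := fun u =>
        if h : (u : L) * t = t * u then (false, ⟨u, by
          rcases hPsmall u u.2 h with e | e | e | e <;> simp [S, e]⟩)
        else (true, ⟨x⁻¹ * u, by
          rcases hPsmall _ (mul_mem (inv_mem hx) u.2) ((hsplit' u u.2).resolve_left h) with e | e | e | e <;>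
            simp [S, e]⟩)
      have hinj : Function.Injective Φ := by
        intro a b hab
        simp only [Φ] at hab
        split_ifs at hab with ha hb hb
        · exact Subtype.ext (congrArg (fun p : Bool × ↥S => (p.2 : L)) hab)
        · exact absurd (congrArg Prod.fst hab) (by simp)
        · exact absurd (congrArg Prod.fst hab) (by simp)
        · exact Subtype.ext (mul_left_cancel (congrArg (fun p : Bool × ↥S => (p.2 : L)) hab))
      refine (Nat.card_le_card_of_injective Φ hinj).trans ?_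
      rw [Nat.card_prod, Nat.card_eq_fintype_card, Nat.card_eq_fintype_card, Fintype.card_coe, Fintype.card_bool]
      omega
    obtain ⟨k, hk⟩ := IsPGroup.iff_card.1 R.2
    have h4 : 4 ∣ Nat.card ↥(R : Subgroup L) := hx4 ▸ orderOf_dvd_natCard _
    have h4' : 4 < Nat.card ↥(R : Subgroup L) := by
      refine lt_of_le_of_ne (Nat.le_of_dvd Nat.card_pos h4) fun e => htnot ?_
      rw [Subgroup.eq_top_of_card_eq (Subgroup.zpowers (⟨x, hx⟩ : ↥(R : Subgroup L)))
        (by rw [Nat.card_zpowers, hx4, e])]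
      exact Subgroup.mem_top _
    omega
  exact TwoGroups.IsTwoExt.dihedral (x := (⟨x, hx⟩ : ↥(R : Subgroup L))) (y := ⟨t, hgR⟩) (N := 4)
    { ord := hx4, card := hcard, npos := by norm_num, notMem := htnot, ysq := Subtype.ext htt
      conj := by
        rw [zpow_neg_one]
        exact Subtype.ext (by simpa [inv_eq_of_mul_eq_one_right htt] using htx) }

end Cfsg.Agent.Fischer
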