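import Cfsg.Agent.Fischer.Fi22Transp
import Cfsg.Prelude.Def_Sporadic
import Cfsg.Prelude.Def_Classical

/-!
# Centralisers of the transpositions of Fi22, given the structure of the table's subgroup
-/

set_option autoImplicit false
set_option maxRecDepth 20000

namespace Cfsg.Agent.Fischer.Fi22Transp

open Cfsg Cfsg.Agent.Screen.CosetEnum

/-- Being a non-split double cover passes along isomorphisms. -/
theorem doubleCover_of_equiv {H H' K : Type*} [Group H] [Group H'] [Group K] (e : H ≃* H')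
    (h : IsNonsplitDoubleCover H K) : IsNonsplitDoubleCover H' K := by
  obtain ⟨h1, ⟨φ⟩, h3⟩ := h
  have hc : (Subgroup.center H).map e.toMonoidHom = Subgroup.center H' := by
    ext x
    rw [Subgroup.mem_map_equiv, Subgroup.mem_center_iff, Subgroup.mem_center_iff]
    constructor
    · intro hx y
      have := congrArg e (hx (e.symm y))
      simpa using this
    · intro hx y
      apply e.injective
      simpa using hx (e y)
  refine ⟨?_, ⟨(QuotientGroup.congr _ _ e hc).symm.trans φ⟩, fun L hL => h3 (L.map e.symm.toMonoidHom) ?_⟩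
  · rw [← h1]
    exact (Nat.card_congr (((Subgroup.center H).equivMapOfInjective _ e.injective).trans
      (MulEquiv.subgroupCongr hc)).toEquiv).symm
  · have hc' : (Subgroup.center H').map e.symm.toMonoidHom = Subgroup.center H := by
      rw [← hc, Subgroup.map_map]
      simp
    refine Subgroup.isComplement'_of_disjoint_and_mul_eq_univ ?_ ?_
    · rw [← hc', disjoint_iff, ← Subgroup.map_inf _ _ _ e.symm.injective, hL.disjoint.eq_bot, Subgroup.map_bot]
    · refine Set.eq_univ_of_forall fun x => ?_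
      obtain ⟨⟨⟨a, ha⟩, ⟨b, hb⟩⟩, hab⟩ := hL.2 (e x)
      refine ⟨e.symm a, hc' ▸ ⟨a, ha, rfl⟩, e.symm b, ⟨b, hb, rfl⟩, ?_⟩
      have : a * b = e x := hab
      show e.symm a * e.symm b = x
      rw [← map_mul, this, e.symm_apply_apply]

theorem map_eq_U : ((Subgroup.closure ({Cfsg.Spor.Fi22.a, Cfsg.Spor.Fi22.c, Cfsg.Spor.Fi22.d, Cfsg.Spor.Fi22.e, Cfsg.Spor.Fi22.f, Cfsg.Spor.Fi22.g, Cfsg.Spor.Fi22.h, Cfsg.Spor.Fi22.i, (Cfsg.Spor.Fi22.a * Cfsg.Spor.Fi22.b * Cfsg.Spor.Fi22.c * Cfsg.Spor.Fi22.d * Cfsg.Spor.Fi22.e * Cfsg.Spor.Fi22.h) ^ 5} : Set (FreeGroup Cfsg.Spor.Fi22.Gen))).map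
      (PresentedGroup.mk (Cfsg.Spor.coxRelators Cfsg.Spor.Fi22.edges ∪ {r | r ∈ Cfsg.Spor.Fi22.extra}))) = U := by
  rw [MonoidHom.map_closure, U]
  congr 1
  ext g
  simp only [Fi22U62.tbl, List.mem_cons, List.not_mem_nil, or_false, exists_eq_or_imp, exists_eq_left,
    Set.image_insert_eq, Set.image_singleton, Set.mem_insert_iff, Set.mem_singleton_iff, Set.mem_setOf_eq]
  simp [evalW, PresFi22.gens, PresentedGroup.of, pow_succ, mul_assoc]

/-- The realisation, given simplicity, the order and the double cover. -/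
theorem realization (ho : IsSimpleGroup Spor.Fi22 ∧ Nat.card Spor.Fi22 = 64561751654400)
    (hU : ∃ (K : Type) (_ : Field K) (_ : Fintype K), Fintype.card K = 4 ∧ IsNonsplitDoubleCover ↥U (PSU 6 K 2)) :
    ∃ (G : Type) (_ : Group G) (_ : Finite G), IsFi22 G ∧ ∃ D : Set G, IsThreeTranspositionClass D ∧
      Nat.card D = 3510 ∧ ∀ d ∈ D, ∃ (F : Type) (_ : Field F) (_ : Fintype F), Fintype.card F = 4 ∧
        IsNonsplitDoubleCover (Subgroup.centralizer ({d} : Set G)) (PSU 6 F 2) := by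
  haveI : Finite Spor.Fi22 := Nat.finite_of_card_ne_zero (by rw [ho.2]; norm_num)
  obtain ⟨h1, h2, -, h4⟩ := transpositions ho.1
  obtain ⟨K, iF, iT, hK, hc⟩ := hU
  refine ⟨Spor.Fi22, inferInstance, inferInstance, ho, _, h1, h2, fun d hd => ?_⟩
  obtain ⟨e⟩ := h4 d hd
  exact ⟨K, iF, iT, hK, doubleCover_of_equiv e.symm hc⟩

end Cfsg.Agent.Fischer.Fi22Transp
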