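import Cfsg.Agent.Fischer.LargeSimple
import Cfsg.Agent.Fischer.DihedralCentralizer
import Cfsg.Agent.Components.Structure
import Cfsg.Agent.Core.MinimalNormal

/-! The structure of a group with a large extraspecial 2-subgroup. -/

set_option autoImplicit false
set_option linter.style.haveILetI false
open Cfsg
open scoped commutatorElement

namespace Cfsg.Agent.Fischer.LargeStr

variable {G : Type*} [Group G]

/-- conjugate subgroup -/
abbrev cjg (g : G) (K : Subgroup G) : Subgroup G := K.map (MulAut.conj g).toMonoidHom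

theorem mem_cjg {g x : G} {K : Subgroup G} : x ∈ cjg g K ↔ ∃ k ∈ K, g * k * g⁻¹ = x := by
  simp [cjg, Subgroup.mem_map]

theorem cjg_mem {g x : G} {K : Subgroup G} (hx : x ∈ K) : g * x * g⁻¹ ∈ cjg g K :=
  mem_cjg.2 ⟨x, hx, rfl⟩

theorem cjg_cjg (g k : G) (K : Subgroup G) : cjg g (cjg k K) = cjg (g * k) K := by
  ext x
  simp only [mem_cjg]
  constructor
  · rintro ⟨_, ⟨l, hl, rfl⟩, rfl⟩; exact ⟨l, hl, by group⟩
  · rintro ⟨l, hl, rfl⟩; exact ⟨_, ⟨l, hl, rfl⟩, by group⟩

theorem cjg_one (K : Subgroup G) : cjg 1 K = K := by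
  ext x; simp [mem_cjg]

/-- In a non-abelian simple group no involution has centralizer of order two. -/
theorem small_centralizer_false {L : Type*} [Group L] [Finite L] [IsSimpleGroup L]
    (hL : ¬ IsMulCommutative L) (a : L) (ha : orderOf a = 2)
    (hs : ∀ c : L, c * a = a * c → c = 1 ∨ c = a) : False := by
  haveI := Fact.mk Nat.prime_two
  have ha1 : a ≠ 1 := fun e => by simp [e] at ha
  obtain ⟨R, hR⟩ := (IsPGroup.of_card (p := 2) (n := 1)
    (show Nat.card ↥(Subgroup.zpowers a) = 2 ^ 1 by rw [Nat.card_zpowers, ha, pow_one])).exists_le_sylow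
  have haR : a ∈ (R : Subgroup L) := hR (Subgroup.mem_zpowers a)
  haveI : Nontrivial ↥(R : Subgroup L) := ⟨⟨⟨a, haR⟩, 1, fun e => ha1 (congrArg Subtype.val e)⟩⟩
  haveI := R.2.center_nontrivial
  obtain ⟨⟨w, hw⟩, hw1⟩ := exists_ne (1 : Subgroup.center ↥(R : Subgroup L))
  have hwa : (w : L) = a := by
    rcases hs w (congrArg Subtype.val (Subgroup.mem_center_iff.1 hw ⟨a, haR⟩)).symm with e | e
    · exact absurd (Subtype.ext (Subtype.ext e)) hw1
    · exact e
  have hall : ∀ r ∈ (R : Subgroup L), r = 1 ∨ r = a := fun r hr => hs r (by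
    have := congrArg Subtype.val (Subgroup.mem_center_iff.1 hw ⟨r, hr⟩)
    simpa [hwa] using this)
  obtain ⟨N, hNn, hNodd, hN'⟩ := S0215.result R a ha haR fun g hg => by
    rcases hall _ hg with e | e
    · exact absurd (conj_eq_one_iff.1 e) ha1
    · exact e
  rcases hNn.eq_bot_or_eq_top with e | e
  · have hc : a ∈ Subgroup.center L := Subgroup.mem_center_iff.2 fun g => by
      have := hN' g
      rw [e, Subgroup.mem_bot, mul_inv_eq_one, mul_inv_eq_iff_eq_mul] at this
      exact this.symm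
    rcases Subgroup.Normal.eq_bot_or_eq_top (inferInstance : (Subgroup.center L).Normal) with c | c
    · rw [c, Subgroup.mem_bot] at hc; exact ha1 hc
    · exact hL ⟨⟨fun x y => Subgroup.mem_center_iff.1 (c ▸ Subgroup.mem_top y) x⟩⟩
  · rw [e, Subgroup.card_top] at hNodd
    exact (Nat.two_dvd_ne_zero.2 (Nat.odd_iff.1 hNodd)) (ha ▸ orderOf_dvd_natCard a)

variable [Finite G] {Q : Subgroup G} {z : G}

/-- A non-trivial subgroup normalized by a large extraspecial subgroup contains its central involution. -/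
theorem mem_of_normalized (hQ : IsLargeExtraspecial Q) (h : CoreLike z Q) {N : Subgroup G} (hN : N ≠ ⊥)
    (hn : ∀ q ∈ Q, ∀ x ∈ N, q * x * q⁻¹ ∈ N) : z ∈ N := by
  haveI := Fact.mk Nat.prime_two
  have hQN : Q ≤ Subgroup.normalizer (N : Set G) := fun q hq => Subgroup.mem_normalizer_iff.2 fun x =>
    ⟨hn q hq x, fun hx => by
      have := hn q⁻¹ (inv_mem hq) _ hx
      simpa [mul_assoc] using this⟩
  letI : MulAction ↥Q ↥N :=
    { smul := fun q x => ⟨q * x * (q : G)⁻¹, hn q q.2 x x.2⟩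
      one_smul := fun x => Subtype.ext (show (1 : G) * x * (1 : G)⁻¹ = x by simp)
      mul_smul := fun p q x => Subtype.ext (show ((p : G) * q) * x * ((p : G) * q)⁻¹ =
        p * (q * x * (q : G)⁻¹) * (p : G)⁻¹ by group) }
  have h2 : 2 ∣ Nat.card ↥N := by
    by_contra h2
    exact hN (hQ.2.2.2 N (Nat.odd_iff.2 (Nat.two_dvd_ne_zero.1 h2)) hQN)
  obtain ⟨x, hx, hx1⟩ := hQ.1.1.1.exists_fixed_point_of_prime_dvd_card_of_fixed_point ↥N h2
    (a := (1 : ↥N)) (fun q => Subtype.ext (show (q : G) * 1 * (q : G)⁻¹ = 1 by group))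
  have hc : ∀ q ∈ Q, q * (x : G) = x * q := fun q hq =>
    mul_inv_eq_iff_eq_mul.1 (congrArg Subtype.val (hx ⟨q, hq⟩))
  rcases h.center x (h.small _ hc) hc with e | e
  · exact absurd (Subtype.ext e.symm) hx1
  · exact e ▸ x.2

/-- `z` is central in every Sylow 2-subgroup containing `Q`. -/
theorem central_in_sylow (h : CoreLike z Q) (T : Sylow 2 G) (hT : Q ≤ (T : Subgroup G)) :
    ∀ t ∈ (T : Subgroup G), t * z = z * t := by
  haveI := Fact.mk Nat.prime_two
  haveI : Nontrivial ↥(T : Subgroup G) :=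
    ⟨⟨⟨z, hT h.mem⟩, 1, fun e => h.ne (congrArg Subtype.val e)⟩⟩
  haveI := T.2.center_nontrivial
  obtain ⟨⟨w, hw⟩, hw1⟩ := exists_ne (1 : Subgroup.center ↥(T : Subgroup G))
  have hc : ∀ q ∈ Q, q * (w : G) = w * q := fun q hq =>
    congrArg Subtype.val (Subgroup.mem_center_iff.1 hw ⟨q, hT hq⟩)
  intro t ht
  rcases h.center w (h.small _ hc) hc with e | e
  · exact absurd (Subtype.ext (Subtype.ext e)) hw1
  · exact e ▸ congrArg Subtype.val (Subgroup.mem_center_iff.1 hw ⟨t, ht⟩)

theorem large_structure (Q : Subgroup G) (hQ : Cfsg.IsLargeExtraspecial Q) (z : G)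
    (hz : ((Subgroup.center ↥Q).map Q.subtype) = Subgroup.zpowers z) (M : Subgroup G)
    (hM : M = Subgroup.normalClosure ({z} : Set G)) :
    Q.Normal ∨
    (IsMulCommutative ↥M ∧ Cfsg.generalizedFittingSubgroup G = Cfsg.pCore 2 G) ∨
    (M = Cfsg.generalizedFittingSubgroup G ∧ IsSimpleGroup ↥M ∧ ¬ IsMulCommutative ↥M) ∨
    (M = Cfsg.generalizedFittingSubgroup G ∧ ∃ (L : Subgroup G) (u : G), u ∈ Q ∧ IsSimpleGroup ↥L ∧
      ¬ IsMulCommutative ↥L ∧ L ⊓ (L).map (MulAut.conj u).toMonoidHom = ⊥ ∧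
      (∀ x ∈ L, ∀ y ∈ (L).map (MulAut.conj u).toMonoidHom, x * y = y * x) ∧
      L ⊔ (L).map (MulAut.conj u).toMonoidHom = M ∧
      ∃ z₁ ∈ L, z = z₁ * (u * z₁ * u⁻¹) ∧
      (∃ R : Sylow 2 ↥L, (R : Subgroup ↥L) = (Subgroup.centralizer ({z₁} : Set G)).subgroupOf L ∧
        (frattini ↥(R : Subgroup ↥L)).map ((L.subtype).comp (R : Subgroup ↥L).subtype) ≤ Subgroup.zpowers z₁) ∧
      Q ≠ (Cfsg.pCore 2 ↥(Subgroup.centralizer ({z} : Set G))).map
        (Subgroup.centralizer ({z} : Set G)).subtype) := by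
  classical
  haveI := Fact.mk Nat.prime_two
  have hz2 : orderOf z = 2 := by
    rw [← Nat.card_zpowers, ← hz, Subgroup.card_map_of_injective Q.subtype_injective]
    exact hQ.1.2
  have hzc : ∀ q ∈ Q, q * z = z * q := fun q hq => by
    obtain ⟨c, hc, rfl⟩ : z ∈ (Subgroup.center ↥Q).map Q.subtype := hz ▸ Subgroup.mem_zpowers z
    exact congrArg Subtype.val (Subgroup.mem_center_iff.1 hc ⟨q, hq⟩)
  have hnorm : ∀ c : G, c * z = z * c → c ∈ Subgroup.normalizer (Q : Set G) := fun c hc =>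
    hQ.2.2.1 (Subgroup.mem_centralizer_iff.2 fun u hu => by
      rw [hz, SetLike.mem_coe, Subgroup.mem_zpowers_iff] at hu
      obtain ⟨n, rfl⟩ := hu
      exact ((show Commute c z from hc).zpow_right n).eq.symm)
  have h : CoreLike z Q := coreLike hz2 hzc
    (fun c hc q hq => (Subgroup.mem_normalizer_iff.1 (hnorm c hc) q).1 hq) hQ.1
    (hQ.2.1.le.trans (Subgroup.map_subtype_le _))
  haveI hMn : M.Normal := hM ▸ Subgroup.normalClosure_normal
  have hzM : z ∈ M := hM ▸ Subgroup.subset_normalClosure rfl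
  have hmin : ∀ N : Subgroup G, N.Normal → N ≠ ⊥ → M ≤ N := fun N hN hne => by
    haveI := hN
    rw [hM]
    exact Subgroup.normalClosure_le_normal
      (Set.singleton_subset_iff.2 (mem_of_normalized hQ h hne fun q _ x hx => hN.conj_mem x hx q))
  have hMne : M ≠ ⊥ := fun e => h.ne ((Subgroup.eq_bot_iff_forall _).1 e z hzM)
  -- the odd core is trivial
  have hodd : pPrimeCore 2 G = ⊥ := hQ.2.2.2 _
    (Nat.coprime_two_right.1 (Core.card_pPrimeCore_coprime 2 G))
    (by rw [Subgroup.normalizer_eq_top]; exact le_top)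
  have hfit := Core.fittingSubgroup_eq_pCore (p := 2) hodd
  by_cases hO : pCore 2 G = ⊥
  swap
  · -- the 2-core is non-trivial
    refine Or.inr (Or.inl ⟨?_, ?_⟩)
    · have hp : IsPGroup 2 ↥M := (Core.isPGroup_pCore 2 G).to_le (hmin _ inferInstance hO)
      haveI := hp.isNilpotent
      exact (show Core.IsMinNormal M from ⟨hMn, hMne, fun K hK hKM => (em (K = ⊥)).imp_right fun hK0 =>
        le_antisymm hKM (hmin K hK hK0)⟩).isMulCommutative IsNilpotent.to_isSolvable
    · have hzO : z ∈ pCore 2 G := hmin _ inferInstance hO hzM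
      have hl : Cfsg.layer G = ⊥ := by
        rw [Components.layer_eq_bot_iff]
        intro L hL
        have hLz : ∀ l ∈ L, l * z = z * l := fun l hl => by
          have := Components.layer_le_centralizer_fitting (Components.component_le_layer hL hl)
          exact (Subgroup.mem_centralizer_iff.1 this z (hfit.symm ▸ hzO)).symm
        haveI := hQ.1.1.1.isNilpotent
        have hcomm := Components.component_commutator_solvable hL (S := Q) IsNilpotent.to_isSolvable
          fun l hl => hnorm l (hLz l hl)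
        apply Components.component_not_commute hL
        rw [Subgroup.commutator_eq_bot_iff_le_centralizer] at hcomm ⊢
        intro x hx
        refine Subgroup.mem_centralizer_iff.2 fun y hy => ?_
        have hc : ∀ q ∈ Q, q * x = x * q := Subgroup.mem_centralizer_iff.1 (hcomm hx)
        rcases h.center x (h.small _ hc) hc with rfl | rfl
        · simp
        · exact hLz y hy
      rw [generalizedFittingSubgroup, hl, bot_sup_eq, hfit]
  -- trivial 2-core
  have hF : fittingSubgroup G = ⊥ := hfit.trans hO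
  have hFstar : Cfsg.generalizedFittingSubgroup G = Cfsg.layer G := by
    rw [generalizedFittingSubgroup, hF, sup_bot_eq]
  have hlne : Cfsg.layer G ≠ ⊥ := fun e => h.ne (by
    have := Components.centralizer_generalizedFitting_le (G := G)
    rw [hFstar, e] at this
    exact Subgroup.mem_bot.1 (this (Subgroup.mem_centralizer_iff.2 fun x hx => by
      rw [Subgroup.mem_bot.1 hx]; simp)))
  have hMnc : ¬ IsMulCommutative ↥M := fun hc => hMne (le_bot_iff.1 (hF ▸ Components.le_fitting hMn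
    (Components.isNilpotent_of_commute (Subgroup.commutator_eq_bot_iff_le_centralizer.2 fun x hx =>
      Subgroup.mem_centralizer_iff.2 fun y hy => congrArg Subtype.val (hc.1.1 ⟨y, hy⟩ ⟨x, hx⟩)))))
  have hlay : Cfsg.layer G = M := by
    refine le_antisymm (Components.layer_le_iff.2 fun L hL => ?_) (hmin _ inferInstance hlne)
    rcases Components.component_le_or_commutator_normal hL M with e | e
    · exact e
    exfalso
    have hCne : Subgroup.centralizer (M : Set G) ≠ ⊥ := fun e' => Components.component_ne_bot hL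
      (le_bot_iff.1 (e' ▸ Subgroup.commutator_eq_bot_iff_le_centralizer.1 e))
    exact hMnc ⟨⟨fun x y => Subtype.ext
      (Subgroup.mem_centralizer_iff.1 (hmin _ inferInstance hCne y.2) x x.2)⟩⟩
  have hMFs : M = Cfsg.generalizedFittingSubgroup G := (hFstar.trans hlay).symm
  have hcen : ∀ x ∈ Cfsg.layer G, (∀ y ∈ Cfsg.layer G, y * x = x * y) → x = 1 := fun x hx hc => by
    have : x ∈ fittingSubgroup G ⊓ Cfsg.layer G := by
      rw [Components.fitting_inf_layer_eq]
      exact ⟨hx, Subgroup.mem_centralizer_iff.2 hc⟩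
    exact (Subgroup.eq_bot_iff_forall _).1 hF x this.1
  set Cs : Set (Subgroup G) := {K | Cfsg.IsComponent K} with hCs
  -- the join of all components other than `L`
  set Rest : Subgroup G → Subgroup G := fun L => sSup (Cs \ {L}) with hRest
  have hRC : ∀ L, Cfsg.IsComponent L → ∀ x ∈ L, ∀ y ∈ Rest L, x * y = y * x := fun L hL x hx y hy => by
    have := Components.sSup_components_le_centralizer (s := Cs \ {L}) (t := {L}) (fun K hK => hK.1)
      (fun K hK => by rw [Set.mem_singleton_iff.1 hK]; exact hL) Set.disjoint_sdiff_left hy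
    exact Subgroup.mem_centralizer_iff.1 this x (by simpa using hx)
  have hRle : ∀ {L K : Subgroup G}, Cfsg.IsComponent K → K ≠ L → K ≤ Rest L := fun hK hne =>
    le_sSup ⟨hK, hne⟩
  have hdec : ∀ L, Cfsg.IsComponent L → ∀ x ∈ M, ∃ a ∈ L, ∃ b ∈ Rest L, a * b = x := fun L hL x hx => by
    refine Components.mem_sup_of_le_centralizer
      (fun a ha => Subgroup.mem_centralizer_iff.2 fun b hb => (hRC L hL a ha b hb).symm) ?_
    refine (le_of_eq hlay.symm |>.trans (Components.layer_le_iff.2 fun K hK => ?_)) hx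
    by_cases e : K = L
    · exact e ▸ le_sup_left
    · exact (hRle hK e).trans le_sup_right
  have hLM : ∀ {L : Subgroup G}, Cfsg.IsComponent L → L ≤ M := fun hL =>
    hlay ▸ Components.component_le_layer hL
  have hRM : ∀ L, Rest L ≤ M := fun L => sSup_le fun K hK => hLM hK.1
  have hdisj : ∀ L, Cfsg.IsComponent L → ∀ x ∈ L, x ∈ Rest L → x = 1 := fun L hL x hx hx' =>
    hcen x (hlay.symm ▸ hLM hL hx) fun y hy => by
      obtain ⟨a, ha, b, hb, rfl⟩ := hdec L hL y (hlay ▸ hy)
      have h1 := hRC L hL a ha x hx'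
      have h2 := hRC L hL x hx b hb
      rw [mul_assoc, ← h2, ← mul_assoc, h1, mul_assoc]
  have huniq : ∀ L, Cfsg.IsComponent L → ∀ {a a' b b' : G}, a ∈ L → a' ∈ L → b ∈ Rest L → b' ∈ Rest L →
      a * b = a' * b' → a = a' ∧ b = b' := fun L hL a a' b b' ha ha' hb hb' e => by
    have e1 : a'⁻¹ * a = b' * b⁻¹ := by
      calc a'⁻¹ * a = a'⁻¹ * (a * b) * b⁻¹ := by group
        _ = _ := by rw [e]; group
    have e2 : a'⁻¹ * a = 1 := hdisj L hL _ (mul_mem (inv_mem ha') ha) (e1 ▸ mul_mem hb' (inv_mem hb))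
    have e3 : a = a' := (inv_mul_eq_one.1 e2).symm
    exact ⟨e3, mul_left_cancel (e3 ▸ e)⟩
  have hzfix : ∀ K, Cfsg.IsComponent K → cjg z K = K := fun K hK => by
    obtain ⟨a, ha, b, hb, e⟩ := hdec K hK z hzM
    have key : ∀ x ∈ K, z * x * z⁻¹ = a * x * a⁻¹ := fun x hx => by
      rw [← e]
      calc a * b * x * (a * b)⁻¹ = a * (b * x) * b⁻¹ * a⁻¹ := by group
        _ = _ := by rw [← hRC K hK x hx b hb]; group
    ext x
    rw [mem_cjg]
    constructor
    · rintro ⟨k, hk, rfl⟩; rw [key k hk]; exact mul_mem (mul_mem ha hk) (inv_mem ha)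
    · intro hx
      refine ⟨a⁻¹ * x * a, mul_mem (mul_mem (inv_mem ha) hx) ha, ?_⟩
      rw [key _ (mul_mem (mul_mem (inv_mem ha) hx) ha)]; group
  -- a component
  obtain ⟨L, hL⟩ : ∃ L, Cfsg.IsComponent L := by
    by_contra hn; push_neg at hn
    exact hlne (Components.layer_eq_bot_iff.2 hn)
  have hLs : IsSimpleGroup ↥L := by
    haveI := Components.quasisimple_nontrivial hL.2
    refine ⟨fun N hN => ?_⟩
    haveI := hN
    rcases Components.quasisimple_normal_eq_top_or_le_center hL.2 N with e | e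
    · exact Or.inr e
    · refine Or.inl ((Subgroup.eq_bot_iff_forall _).2 fun x hx => Subtype.ext ?_)
      refine hcen x (Components.component_le_layer hL x.2) fun y hy => ?_
      obtain ⟨a, ha, b, hb, rfl⟩ := hdec L hL y (hlay ▸ hy)
      have h1 : a * x = x * a := congrArg Subtype.val (Subgroup.mem_center_iff.1 (e hx) ⟨a, ha⟩)
      have h2 := hRC L hL x x.2 b hb
      rw [mul_assoc, ← h2, ← mul_assoc, h1, mul_assoc]
  have hLnc : ¬ IsMulCommutative ↥L := Components.quasisimple_not_isMulCommutative hL.2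
  -- transitivity of `Q`
  have htr : ∀ K, Cfsg.IsComponent K → ∃ v ∈ Q, cjg v L = K := by
    intro K hK
    set t : Set (Subgroup G) := {K | ∃ v ∈ Q, cjg v L = K} with ht
    have hts : t ⊆ Cs := by rintro _ ⟨v, -, rfl⟩; exact Components.isComponent_conj hL v
    have hinv : ∀ {X : Set (Subgroup G)}, (∀ q ∈ Q, ∀ K ∈ X, cjg q K ∈ X) →
        ∀ q ∈ Q, ∀ x ∈ sSup X, q * x * q⁻¹ ∈ sSup X := fun {X} hX q hq x hx => by
      have : sSup X ≤ (sSup X).comap (MulAut.conj q).toMonoidHom :=
        sSup_le fun K hK => Subgroup.map_le_iff_le_comap.1 (le_sSup (hX q hq K hK))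
      exact this hx
    by_contra hKt
    have hKt' : K ∉ t := hKt
    have h1 : z ∈ sSup t := mem_of_normalized hQ h
      (fun e => Components.component_ne_bot hL (le_bot_iff.1 (e ▸ le_sSup ⟨1, one_mem Q, cjg_one L⟩)))
      (hinv fun q hq _ hv => by
        obtain ⟨v, hv, rfl⟩ := hv
        exact ⟨q * v, mul_mem hq hv, (cjg_cjg q v L).symm⟩)
    have h2 : z ∈ sSup (Cs \ t) := mem_of_normalized hQ h
      (fun e => Components.component_ne_bot hK (le_bot_iff.1 (e ▸ le_sSup ⟨hK, hKt'⟩)))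
      (hinv fun q hq J hJ => ⟨Components.isComponent_conj hJ.1 q, fun hJt => by
        obtain ⟨v, hv, e⟩ := hJt
        refine hJ.2 ⟨q⁻¹ * v, mul_mem (inv_mem hq) hv, ?_⟩
        rw [← cjg_cjg, e, cjg_cjg, inv_mul_cancel, cjg_one]⟩)
    refine h.ne (hcen z (hlay.symm ▸ hzM) fun y hy => ?_)
    have c1 := Components.sSup_components_le_centralizer (fun J hJ => hts hJ) (fun J hJ => hJ.1)
      Set.disjoint_sdiff_right h1
    have c2 := Components.sSup_components_le_centralizer (fun J hJ => hJ.1) (fun J hJ => hts hJ)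
      Set.disjoint_sdiff_left h2
    have : Cfsg.layer G ≤ Subgroup.centralizer ({z} : Set G) := by
      refine Components.layer_le_iff.2 fun J hJ x hx => mem_cent_singleton.2 ?_
      by_cases hJt : J ∈ t
      · exact Subgroup.mem_centralizer_iff.1 c2 x (((le_sSup hJt) : J ≤ _) hx)
      · exact Subgroup.mem_centralizer_iff.1 c1 x (((le_sSup (show J ∈ Cs \ t from ⟨hJ, hJt⟩)) : J ≤ _) hx)
    exact mem_cent_singleton.1 (this hy)
  -- the coordinate of `z`
  obtain ⟨a, ha, b, hb, hab⟩ := hdec L hL z hzM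
  have hcz : ∀ c ∈ L, (c * z = z * c ↔ c * a = a * c) := fun c hc => by
    have h1 := hRC L hL c hc b hb
    rw [← hab]
    constructor
    · intro e
      exact mul_right_cancel (b := b) (by rw [mul_assoc, e, mul_assoc, ← h1, ← mul_assoc])
    · intro e
      rw [← mul_assoc, e, mul_assoc, h1, ← mul_assoc]
  have ha1 : a ≠ 1 := by
    rintro rfl
    rw [one_mul] at hab
    subst hab
    refine h.ne (hcen b (hlay.symm ▸ hzM) fun y hy => ?_)
    have : Cfsg.layer G ≤ Subgroup.centralizer ({b} : Set G) := by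
      refine Components.layer_le_iff.2 fun K hK x hx => mem_cent_singleton.2 ?_
      obtain ⟨v, hv, rfl⟩ := htr K hK
      obtain ⟨l, hl, rfl⟩ := mem_cjg.1 hx
      calc v * l * v⁻¹ * b = v * (l * b) * v⁻¹ := by
            rw [mul_assoc (v * l), h.comm _ (inv_mem hv)]; group
        _ = v * (b * l) * v⁻¹ := by rw [hRC L hL l hl b hb]
        _ = _ := by rw [← mul_assoc v b, h.comm v hv]; group
    exact mem_cent_singleton.1 (this hy)
  have haa : a * a = 1 := by
    refine (huniq L hL (mul_mem ha ha) (one_mem L) (mul_mem hb hb) (one_mem _) ?_).1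
    calc a * a * (b * b) = a * (a * b) * b := by group
      _ = a * (b * a) * b := by rw [← hRC L hL a ha b hb]
      _ = a * b * (a * b) := by group
      _ = 1 * 1 := by rw [hab, h.sq, one_mul]
  have haord : orderOf (⟨a, ha⟩ : ↥L) = 2 := by
    rw [← Subgroup.orderOf_coe]
    exact orderOf_eq_prime (by rw [pow_two, haa]) ha1
  have hsmall : ¬ ∀ c ∈ L, c * z = z * c → c = 1 ∨ c = a := fun hs => by
    haveI := hLs
    refine small_centralizer_false hLnc ⟨a, ha⟩ haord fun c hc => ?_
    rcases hs c c.2 ((hcz c c.2).2 (congrArg Subtype.val hc)) with e | e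
    · exact Or.inl (Subtype.ext e)
    · exact Or.inr (Subtype.ext e)
  by_cases hone : ∀ K, Cfsg.IsComponent K → K = L
  · -- one component
    refine Or.inr (Or.inr (Or.inl ⟨hMFs, ?_, hMnc⟩))
    have e : M = L := le_antisymm (hlay ▸ Components.layer_le_iff.2 fun K hK => (hone K hK).le) (hLM hL)
    exact e ▸ hLs
  push_neg at hone
  obtain ⟨K₀, hK₀, hK₀L⟩ := hone
  obtain ⟨u, hu, rfl⟩ := htr K₀ hK₀
  refine Or.inr (Or.inr (Or.inr ⟨hMFs, L, u, hu, hLs, hLnc, ?_⟩))
  have hconj : ∀ q ∈ Q, ∀ p ∈ Q, ∀ K, Cfsg.IsComponent K → cjg q (cjg p K) = cjg p (cjg q K) :=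
    fun q hq p hp K hK => by
    rw [cjg_cjg, cjg_cjg]
    rcases h.brack q hq p hp with e | e
    · rw [commutatorElement_eq_one_iff_mul_comm.1 e]
    · rw [show q * p = z * (p * q) by rw [← e, commutatorElement_def]; group, ← cjg_cjg z,
        hzfix _ (Components.isComponent_conj hK _)]
  have huu : cjg u (cjg u L) = L := by
    rw [cjg_cjg]
    rcases h.square u hu with e | e <;> rw [e]
    · exact cjg_one L
    · exact hzfix L hL
  set L' : Subgroup G := cjg u L with hL'
  have hL'c : Cfsg.IsComponent L' := hK₀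
  -- commutators with `u`
  have hyQ : ∀ c : G, c * z = z * c → c * (u * c⁻¹ * u⁻¹) ∈ Q := fun c hc => by
    have := mul_mem (h.norm c hc u hu) (inv_mem hu)
    simpa [mul_assoc] using this
  -- there are exactly two components
  have htwo : ∀ K, Cfsg.IsComponent K → K = L ∨ K = L' := by
    intro K hK
    by_contra hne
    push_neg at hne
    obtain ⟨v, hv, rfl⟩ := htr K hK
    have hne1 : cjg v L' ≠ L := fun e => hne.2 (by
      rw [hL', hconj v hv u hu L hL] at e
      have := congrArg (cjg u) e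
      rwa [cjg_cjg u u, show cjg (u * u) (cjg v L) = cjg v L from by
        rcases h.square u hu with r | r <;> rw [r]
        · exact cjg_one _
        · exact hzfix _ hK] at this)
    apply hsmall
    intro c hc hcz'
    set d := u * c⁻¹ * u⁻¹ with hd
    have hdL : d ∈ L' := cjg_mem (inv_mem hc)
    have hy := hyQ c hcz'
    have hrest : d * (v * (c * d)⁻¹ * v⁻¹) ∈ Rest L := by
      refine mul_mem (hRle hL'c hK₀L hdL) ?_
      rw [show v * (c * d)⁻¹ * v⁻¹ = (v * d⁻¹ * v⁻¹) * (v * c⁻¹ * v⁻¹) by group]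
      exact mul_mem (hRle (Components.isComponent_conj hL'c v) hne1 (cjg_mem (inv_mem hdL)))
        (hRle hK hne.1 (cjg_mem (inv_mem hc)))
    have he : c * (d * (v * (c * d)⁻¹ * v⁻¹)) = ⁅c * d, v⁆ := by rw [commutatorElement_def]; group
    rcases h.brack _ hy v hv with e | e
    · exact Or.inl (huniq L hL hc (one_mem L) hrest (one_mem _) (by rw [he, e, one_mul])).1
    · exact Or.inr (huniq L hL hc ha hrest hb (by rw [he, e, hab])).1
  have hRL' : Rest L = L' := le_antisymm
    (sSup_le fun K hK => ((htwo K hK.1).resolve_left hK.2).le) (hRle hL'c hK₀L)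
  rw [hRL'] at hb
  have hbu : b = u * a * u⁻¹ := by
    have hub : u * b * u⁻¹ ∈ L := huu ▸ cjg_mem hb
    have hua : u * a * u⁻¹ ∈ Rest L := hRL' ▸ cjg_mem ha
    refine (huniq L hL ha hub (hRL' ▸ hb) hua ?_).2
    calc a * b = z := hab
      _ = u * z * u⁻¹ := by rw [h.comm u hu]; group
      _ = u * (b * a) * u⁻¹ := by rw [← hRC L hL a ha b (hRL' ▸ hb), hab]
      _ = _ := by group
  refine ⟨?_, ?_, ?_, a, ha, by rw [← hbu, hab], ?_⟩
  · exact (Subgroup.eq_bot_iff_forall _).2 fun x hx => hdisj L hL x hx.1 (hRL' ▸ hx.2)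
  · exact fun x hx y hy => hRC L hL x hx y (hRL' ▸ hy)
  · refine le_antisymm (sup_le (hLM hL) (hLM hL'c)) fun x hx => ?_
    obtain ⟨p, hp, q, hq, rfl⟩ := hdec L hL x hx
    exact mul_mem (Subgroup.mem_sup_left hp) (Subgroup.mem_sup_right (hRL'.le hq))
  -- the centralizer of `a` in `L`
  have hpow : ∀ c ∈ L, c * z = z * c → ∀ n : ℕ, (c * (u * c⁻¹ * u⁻¹)) ^ n = 1 → c ^ n = 1 := by
    intro c hc _ n e
    have hcomm : Commute c (u * c⁻¹ * u⁻¹) := hRC L hL c hc _ (hRL' ▸ cjg_mem (inv_mem hc))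
    rw [hcomm.mul_pow] at e
    exact (huniq L hL (pow_mem hc n) (one_mem L) (hRL' ▸ pow_mem (cjg_mem (inv_mem hc)) n) (one_mem _)
      (e.trans (one_mul 1).symm)).1
  have h2el : ∀ c ∈ L, c * z = z * c → ∃ k : ℕ, c ^ 2 ^ k = 1 := fun c hc hcz' => by
    obtain ⟨k, hk⟩ := hQ.1.1.1 ⟨_, hyQ c hcz'⟩
    exact ⟨k, hpow c hc hcz' _ (by simpa using congrArg Subtype.val hk)⟩
  set P₁ : Subgroup ↥L := (Subgroup.centralizer ({a} : Set G)).subgroupOf L with hP₁def
  have hP₁ : ∀ c : ↥L, c ∈ P₁ ↔ (c : G) * z = z * c := fun c => by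
    rw [hP₁def, Subgroup.mem_subgroupOf, mem_cent_singleton, hcz c c.2]
  have hP₁p : IsPGroup 2 ↥P₁ := fun c => by
    obtain ⟨k, hk⟩ := h2el (c : ↥L) (c : ↥L).2 ((hP₁ c).1 c.2)
    exact ⟨k, Subtype.ext (Subtype.ext (by simpa using hk))⟩
  refine ⟨?_, ?_⟩
  · obtain ⟨R, hR⟩ := hP₁p.exists_le_sylow
    have hRP : (R : Subgroup ↥L) = P₁ := by
      refine (Subgroup.eq_of_le_of_card_ge hR ?_).symm
      set Rg := (R : Subgroup ↥L).map L.subtype with hRg
      obtain ⟨P, hP⟩ := (R.2.map L.subtype).exists_le_sylow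
      obtain ⟨T, hT⟩ := hQ.1.1.1.exists_le_sylow
      obtain ⟨g, hg⟩ := MulAction.exists_smul_eq G T P
      have hK : Cfsg.IsComponent (cjg g⁻¹ L) := Components.isComponent_conj hL _
      have h1 : cjg g⁻¹ Rg ≤ cjg g⁻¹ L ⊓ Subgroup.centralizer ({z} : Set G) := by
        intro x hx
        obtain ⟨r, hr, rfl⟩ := mem_cjg.1 hx
        refine ⟨cjg_mem (Subgroup.map_subtype_le _ hr), mem_cent_singleton.2 ?_⟩
        refine central_in_sylow h T hT _ ?_
        have hrP : r ∈ ((g • T : Sylow 2 G) : Subgroup G) := hg ▸ hP hr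
        rw [Sylow.coe_subgroup_smul, Subgroup.mem_pointwise_smul_iff_inv_smul_mem, ← map_inv,
          MulAut.smul_def, MulAut.conj_apply] at hrP
        exact hrP
      have hX : L ⊓ Subgroup.centralizer ({z} : Set G) ≤ P₁.map L.subtype := fun x hx =>
        ⟨⟨x, hx.1⟩, (hP₁ _).2 (mem_cent_singleton.1 hx.2), rfl⟩
      have h2 : Nat.card ↥(cjg g⁻¹ L ⊓ Subgroup.centralizer ({z} : Set G) : Subgroup G) ≤ Nat.card ↥P₁ := by
        rw [← Subgroup.card_map_of_injective L.subtype_injective (K := P₁)]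
        rcases htwo _ hK with e | e <;> rw [e]
        · exact Subgroup.card_le_of_le hX
        · have : L' ⊓ Subgroup.centralizer ({z} : Set G) ≤ cjg u (P₁.map L.subtype) := by
            intro x hx
            obtain ⟨l, hl, rfl⟩ := mem_cjg.1 hx.1
            refine cjg_mem (hX ⟨hl, mem_cent_singleton.2 ?_⟩)
            calc l * z = l * (u⁻¹ * z * u) := by rw [h.comm _ (inv_mem hu)]; group
              _ = u⁻¹ * ((u * l * u⁻¹) * z) * u := by group
              _ = u⁻¹ * (z * (u * l * u⁻¹)) * u := by rw [mem_cent_singleton.1 hx.2]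
              _ = (u⁻¹ * z * u) * l := by group
              _ = z * l := by rw [h.comm _ (inv_mem hu)]; group
          refine (Subgroup.card_le_of_le this).trans (le_of_eq ?_)
          exact Subgroup.card_map_of_injective (MulAut.conj u).injective
      refine le_trans (le_of_eq ?_) ((Subgroup.card_le_of_le h1).trans h2)
      rw [cjg, Subgroup.card_map_of_injective (MulAut.conj g⁻¹).injective, hRg,
        Subgroup.card_map_of_injective L.subtype_injective]
    refine ⟨R, hRP.trans hP₁def, ?_⟩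
    rw [Subgroup.map_le_iff_le_comap]
    set N := (Subgroup.zpowers a).comap ((L.subtype).comp (R : Subgroup ↥L).subtype) with hN
    have hza : ∀ r : ↥(R : Subgroup ↥L), ((r : ↥L) : G) * a = a * ((r : ↥L) : G) := fun r =>
      (hcz _ (r : ↥L).2).1 ((hP₁ r).1 (hRP ▸ r.2))
    have hNc : ∀ n ∈ N, ∀ r : ↥(R : Subgroup ↥L), r * n = n * r := fun n hn r => by
      obtain ⟨k, hk⟩ := Subgroup.mem_zpowers_iff.1 hn
      refine Subtype.ext (Subtype.ext ?_)
      have := ((show Commute ((r : ↥L) : G) a from hza r).zpow_right k).eq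
      rwa [hk] at this
    haveI : N.Normal := ⟨fun n hn r => by rwa [hNc n hn r, mul_inv_cancel_right]⟩
    have hsq : ∀ r : ↥(R : Subgroup ↥L), r * r ∈ N := fun r => by
      have hrz := (hP₁ r).1 (hRP ▸ r.2)
      set c : G := ((r : ↥L) : G) with hc
      have hcL : c ∈ L := (r : ↥L).2
      have hcd : Commute c (u * c⁻¹ * u⁻¹) := hRC L hL c hcL _ (hRL' ▸ cjg_mem (inv_mem hcL))
      have hd : (u * c⁻¹ * u⁻¹) * (u * c⁻¹ * u⁻¹) ∈ Rest L :=
        hRL' ▸ mul_mem (cjg_mem (inv_mem hcL)) (cjg_mem (inv_mem hcL))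
      show c * c ∈ Subgroup.zpowers a
      rcases h.square _ (hyQ c hrz) with e | e <;> rw [hcd.symm.mul_mul_mul_comm] at e
      · rw [(huniq L hL (mul_mem hcL hcL) (one_mem L) hd (one_mem _) (e.trans (one_mul 1).symm)).1]
        exact one_mem _
      · rw [(huniq L hL (mul_mem hcL hcL) ha hd (hRL' ▸ hb) (e.trans hab.symm)).1]
        exact Subgroup.mem_zpowers a
    refine FGS3.frattini_le_of_elementary (p := 2) ?_ fun r => by rw [pow_two]; exact hsq r
    rw [commutator_def, Subgroup.commutator_le]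
    intro p _ q _
    rw [show ⁅p, q⁆ = (p * p) * ((p⁻¹ * q) * (p⁻¹ * q)) * (q * q)⁻¹ by rw [commutatorElement_def]; group]
    exact mul_mem (mul_mem (hsq p) (hsq _)) (inv_mem (hsq q))
  · intro hQeq
    set C := Subgroup.centralizer ({z} : Set G) with hC
    haveI : ((M ⊓ C).subgroupOf C).Normal := by
      rw [Subgroup.inf_subgroupOf_right]
      exact Subgroup.Normal.subgroupOf hMn C
    have hp : IsPGroup 2 ↥((M ⊓ C).subgroupOf C) := by
      rintro ⟨⟨x, hxC⟩, hx⟩
      have hxM : x ∈ M := (Subgroup.mem_subgroupOf.1 hx).1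
      obtain ⟨p, hp, q, hq, rfl⟩ := hdec L hL x hxM
      have hxz := mem_cent_singleton.1 hxC
      have hqb : q * b ∈ Rest L := mul_mem hq (hRL' ▸ hb)
      have hbq : b * q ∈ Rest L := mul_mem (hRL' ▸ hb) hq
      obtain ⟨e1, e2⟩ := huniq L hL (mul_mem hp ha) (mul_mem ha hp) hqb hbq (by
        calc p * a * (q * b) = p * (a * q) * b := by group
          _ = p * q * (a * b) := by rw [hRC L hL a ha q hq]; group
          _ = a * b * (p * q) := by rw [hab, hxz]
          _ = a * (b * p) * q := by group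
          _ = _ := by rw [← hRC L hL p hp b (hRL' ▸ hb)]; group)
      obtain ⟨i, hi⟩ := h2el p hp ((hcz p hp).2 e1)
      obtain ⟨l, hl, hlq⟩ := mem_cjg.1 (hRL' ▸ hq : q ∈ L')
      have hla : l * a = a * l := by
        rw [← hlq, hbu] at e2
        have := congrArg (fun w => u⁻¹ * w * u) e2
        simpa [mul_assoc] using this
      obtain ⟨j, hj⟩ := h2el l hl ((hcz l hl).2 hla)
      have hq' : q ^ 2 ^ j = 1 := by rw [← hlq, conj_pow, hj]; group
      refine ⟨i + j, Subtype.ext (Subtype.ext ?_)⟩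
      show (p * q) ^ 2 ^ (i + j) = 1
      rw [(show Commute p q from hRC L hL p hp q hq).mul_pow, pow_add, pow_mul, hi, one_pow, one_mul,
        mul_comm (2 ^ i), pow_mul, hq', one_pow]
    have hle := Core.le_pCore inferInstance hp
    apply hsmall
    intro c hc hcz'
    have hcQ : c ∈ Q := hQeq ▸ ⟨⟨c, mem_cent_singleton.2 hcz'⟩, hle (Subgroup.mem_subgroupOf.2 ⟨hLM hL hc, mem_cent_singleton.2 hcz'⟩), rfl⟩
    have he : ⁅c, u⁆ = c * (u * c⁻¹ * u⁻¹) := by rw [commutatorElement_def]; group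
    have hd : u * c⁻¹ * u⁻¹ ∈ Rest L := hRL' ▸ cjg_mem (inv_mem hc)
    rcases h.brack c hcQ u hu with e | e <;> rw [he] at e
    · exact Or.inl (huniq L hL hc (one_mem L) hd (one_mem _) (e.trans (one_mul 1).symm)).1
    · exact Or.inr (huniq L hL hc ha hd (hRL' ▸ hb) (e.trans hab.symm)).1

end Cfsg.Agent.Fischer.LargeStr
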