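import Cfsg.Agent.Fischer.SpecialPairs

/-! Degenerate classes of abstract root subgroups with large members have no twins. -/

set_option autoImplicit false
open Cfsg
open scoped commutatorElement

namespace Cfsg.Agent.Fischer

variable {G : Type*} [Group G] {S : Set (Subgroup G)}

/-- `U` and `V` are twins: they have the same commuting partners. -/
def Twins (S : Set (Subgroup G)) (U V : Subgroup G) : Prop :=
  commutingPartners S U = commutingPartners S V

theorem Twins.symm' {U V : Subgroup G} (h : Twins S U V) : Twins S V U :=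
  (show commutingPartners S U = commutingPartners S V from h).symm

theorem Twins.trans' {U V W : Subgroup G} (h : Twins S U V) (h' : Twins S V W) : Twins S U W :=
  (show commutingPartners S U = commutingPartners S V from h).trans h'

variable (hS : IsRootSubgroupSet S)
include hS

theorem mem_partners_cb {U M : Subgroup G} (g : G) (h : M ∈ commutingPartners S U) :
    conjBy M g ∈ commutingPartners S (conjBy U g) :=
  ⟨hS.conj_mem M h.1 g, fun e => h.2.1 (cb_inj.1 e), cb_bot h.2.2⟩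

theorem Twins.cb {U V : Subgroup G} (h : Twins S U V) (g : G) :
    Twins S (conjBy U g) (conjBy V g) := by
  have key : ∀ {U V : Subgroup G}, Twins S U V → ∀ M ∈ commutingPartners S (conjBy U g),
      M ∈ commutingPartners S (conjBy V g) := by
    intro U V h M hM
    have := mem_partners_cb hS g⁻¹ hM
    rw [cb_cb U, inv_mul_cancel, cb_one] at this
    have := mem_partners_cb hS g (h ▸ this : conjBy M g⁻¹ ∈ commutingPartners S V)
    rwa [cb_cb, mul_inv_cancel, cb_one] at this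
  exact Set.ext fun M => ⟨key h M, key h.symm' M⟩

/-- Two commuting members inside a rank one group coincide. -/
theorem pencil_eq {A B M : Subgroup G} (hAB : IsRankOnePair A B) {C D : Subgroup G}
    (hC : C ∈ unipotentSubgroups A B) (hD : D ∈ unipotentSubgroups A B) (hne : C ≠ D)
    (h1 : ⁅C, M⁆ = ⊥) (h2 : ⁅D, M⁆ = ⊥) : ⁅A ⊔ B, M⁆ = ⊥ := by
  rw [← sup_eq_of_unipotent hAB hC hD hne, Subgroup.commutator_eq_bot_iff_le_centralizer]
  exact sup_le (Subgroup.commutator_eq_bot_iff_le_centralizer.1 h1)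
    (Subgroup.commutator_eq_bot_iff_le_centralizer.1 h2)

omit hS in
theorem normalize_pencil {A B : Subgroup G} (hAB : IsRankOnePair A B) {C D : Subgroup G}
    (hC : C ∈ unipotentSubgroups A B) (hD : D ∈ unipotentSubgroups A B) (hne : C ≠ D) {g : G}
    (hgC : conjBy C g = C) (hgD : conjBy D g = D) : conjBy A g ∈ unipotentSubgroups A B := by
  obtain ⟨x, hx, rfl⟩ := hC
  have hgn : conjBy (A ⊔ B) g = A ⊔ B := by
    rw [← sup_eq_of_unipotent hAB ⟨x, hx, rfl⟩ hD hne]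
    show Subgroup.map _ _ = _
    rw [Subgroup.map_sup]
    exact congrArg₂ (· ⊔ ·) hgC hgD
  refine ⟨(g * x⁻¹ * g⁻¹) * x, mul_mem ?_ hx, ?_⟩
  · rw [← hgn]; exact cb_mem g (inv_mem hx)
  · rw [← cb_cb]
    conv_rhs => rw [← hgC]
    rw [cb_cb, cb_cb]
    congr 1
    group

variable (hdeg : IsDegenerateRootSet S)
include hdeg

theorem deg_partner {U V : Subgroup G} (hU : U ∈ S) (hV : V ∈ S) (h : ⁅U, V⁆ ≠ ⊥) :
    IsRankOnePair U V := by
  rcases hS.pair U hU V hV with h' | h' | h'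
  · exact absurd h' h
  · exact h'
  · exact absurd h' (hdeg U hU V hV)

theorem twins_partner {U V : Subgroup G} (hU : U ∈ S) (hV : V ∈ S) (h : Twins S U V) (hne : U ≠ V) :
    IsRankOnePair U V := by
  refine deg_partner hS hdeg hU hV fun hc => ?_
  have : V ∈ commutingPartners S V := h ▸ (⟨hV, hne.symm, hc⟩ : V ∈ commutingPartners S U)
  exact this.2.1 rfl

omit hdeg in
theorem twins_commute {U V M : Subgroup G} (h : Twins S U V) (hM : M ∈ commutingPartners S U) :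
    ⁅V, M⁆ = ⊥ := (h ▸ hM : M ∈ commutingPartners S V).2.2

/-- No twins among members with more than three elements, given a configured pair. -/
theorem no_twins_of_configured {A Z U₀ : Subgroup G} (hA : A ∈ S) (hZ : Z ∈ S) (hU₀ : U₀ ∈ S)
    (hc : Configured A Z) (htw : Twins S Z U₀) (hne : Z ≠ U₀) (h3 : 3 < ENat.card A) : False := by
  obtain ⟨hAZ, g₀, hg₀, hAX, hXA⟩ := hc
  obtain ⟨X, hXdef⟩ : ∃ X, X = conjBy A g₀ := ⟨_, rfl⟩
  rw [← hXdef] at hAX hXA
  have hX : X ∈ S := hXdef ▸ hS.conj_mem A hA g₀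
  have hXZ : IsRankOnePair X Z := by
    have hr := rankOne_cb hAZ g₀
    rwa [cb_of_commute hg₀, ← hXdef] at hr
  obtain ⟨φ, hφ⟩ : ∃ φ : G → G, ∀ a, φ a = g₀ * a * g₀⁻¹ := ⟨fun a => g₀ * a * g₀⁻¹, fun _ => rfl⟩
  have hφmem : ∀ {a : G}, a ∈ A → φ a ∈ X := fun ha => by rw [hφ, hXdef]; exact cb_mem g₀ ha
  have hφmul : ∀ a b : G, φ (a * b) = φ a * φ b := fun a b => by simp only [hφ]; group
  have hφinv : ∀ a : G, φ a⁻¹ = (φ a)⁻¹ := fun a => by simp only [hφ]; group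
  have hφsurj : ∀ {x : G}, x ∈ X → ∃ a ∈ A, φ a = x := by
    intro x hx
    rw [hXdef, mem_cb] at hx
    exact ⟨_, hx, by simp only [hφ]; group⟩
  have hcomm : ∀ {a x : G}, a ∈ A → x ∈ X → a * x = x * a := fun ha hx => commute_cb_right hAX ha hx
  have hφZ : ∀ a : G, conjBy Z (φ a) = conjBy (conjBy Z a) g₀ := fun a => by
    rw [hφ]; exact (cb_eq_conj_of_comm hg₀ a).symm
  have uA : ∀ {a : G}, a ∈ A → conjBy Z a ∈ unipotentSubgroups A Z := fun ha =>
    unipotent_conj (right_mem hAZ) (le_sup_left (α := Subgroup G) ha)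
  have uX : ∀ {x : G}, x ∈ X → conjBy Z x ∈ unipotentSubgroups X Z := fun hx =>
    unipotent_conj (right_mem hXZ) (le_sup_left (α := Subgroup G) hx)
  -- corresponding points commute
  have hrel : ∀ {a : G}, a ∈ A → a ≠ 1 →
      conjBy Z (φ a) ∈ commutingPartners S (conjBy Z a) := by
    intro a ha ha1
    obtain ⟨f, hf, -, e⟩ := hAZ.cond_left a⁻¹ (inv_mem ha) (inv_ne_one.2 ha1)
    rw [inv_inv] at e
    have eX : conjBy X f⁻¹ = conjBy Z (φ a) := by
      rw [hφZ, ← e, hXdef, cb_cb, cb_cb, (show Commute g₀ f from hg₀ f hf).inv_right.eq]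
    refine ⟨hS.conj_mem Z hZ _, fun h => ha1 ?_, ?_⟩
    · exact not_same_of_commute hS hX hZ hAZ hAX hXA ha (hφmem ha) h
    · rw [← e, ← eX]; exact cb_bot hAX
  obtain ⟨W, hWdef⟩ : ∃ W : G → Subgroup G, ∀ a, W a = conjBy Z ((φ a)⁻¹ * a) :=
    ⟨fun a => conjBy Z ((φ a)⁻¹ * a), fun _ => rfl⟩
  have hW : ∀ {a : G}, a ∈ A → a ≠ 1 → W a ∈ commutingPartners S Z := by
    intro a ha ha1
    have h := mem_partners_cb hS (φ a)⁻¹ (hrel ha ha1)
    rw [cb_cb, cb_cb, inv_mul_cancel, cb_one, ← hWdef] at h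
    exact ⟨h.1 |> fun _ => (hWdef a).symm ▸ hS.conj_mem Z hZ _, h.2.1.symm, bot_symm h.2.2⟩
  have hWmul : ∀ {a b : G}, a ∈ A → b ∈ A → conjBy (W b) ((φ a)⁻¹ * a) = W (a * b) := by
    intro a b ha hb
    rw [hWdef, hWdef, cb_cb, hφmul, mul_inv_rev]
    congr 1
    calc (φ a)⁻¹ * a * ((φ b)⁻¹ * b) = (φ a)⁻¹ * (a * (φ b)⁻¹) * b := by group
      _ = (φ a)⁻¹ * ((φ b)⁻¹ * a) * b := by rw [hcomm ha (inv_mem (hφmem hb))]
      _ = ((φ a)⁻¹ * (φ b)⁻¹) * (a * b) := by group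
      _ = ((φ b)⁻¹ * (φ a)⁻¹) * (a * b) := by
        rw [member_comm hS hX (inv_mem (hφmem ha)) (inv_mem (hφmem hb))]
  -- twins separate parameters
  have hsep : ∀ {d x : G}, d ∈ A → x ∈ X → Twins S (conjBy Z d) (conjBy Z x) → d = 1 ∧ x = 1 := by
    intro d x hd hx ht
    by_cases hx1 : x = 1
    · refine ⟨?_, hx1⟩
      by_contra hd1
      rw [hx1, cb_one] at ht
      have h := twins_commute hS ht (hrel hd hd1)
      exact not_commute hXZ ((Subgroup.commutator_eq_bot_iff_le_centralizer).2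
        (le_trans le_sup_left (Subgroup.commutator_eq_bot_iff_le_centralizer.1
          (pencil_eq hS hXZ (right_mem hXZ) (uX (hφmem hd)) (fun e => by
            have := eq_one_of_normalize hXZ (hφmem hd) (cb_eq_self.1 e.symm)
            apply hd1
            have h2 := congrArg (fun t => g₀⁻¹ * t * g₀) this
            simpa [hφ, mul_assoc] using h2)
            (bot_of_commute fun p hp q hq => member_comm hS hZ hp hq)
            (bot_symm h)))))
    · exfalso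
      obtain ⟨a, ha, rfl⟩ := hφsurj hx
      have ha1 : a ≠ 1 := fun e => hx1 (by simp [e, hφ])
      have h1 : conjBy Z a ∈ commutingPartners S (conjBy Z (φ a)) :=
        ⟨hS.conj_mem Z hZ a, (hrel ha ha1).2.1.symm, bot_symm (hrel ha ha1).2.2⟩
      have h2 : conjBy Z a ∈ commutingPartners S (conjBy Z d) := ht.symm' ▸ h1
      exact h2.2.1 (eq_of_commute hAZ (uA ha) (uA hd) (bot_symm h2.2.2))
  -- twins of `X` act as members of `X` on the classes
  have hpi : ∀ {X' : Subgroup G}, X' ∈ S → Twins S X X' → ∀ c' ∈ X',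
      ∃ x ∈ X, Twins S (conjBy Z c') (conjBy Z x) := by
    intro X' hX' ht c' hc'
    by_cases hc1 : c' = 1
    · exact ⟨1, one_mem _, by rw [hc1]; rfl⟩
    have hX'Z : IsRankOnePair X' Z := by
      refine deg_partner hS hdeg hX' hZ fun hc => ?_
      by_cases e : Z = X'
      · have : A ∈ commutingPartners S Z := e ▸ ht ▸ (⟨hA, hXA.symm, bot_symm hAX⟩ : A ∈ commutingPartners S X)
        exact not_commute hAZ (bot_symm this.2.2)
      · have : Z ∈ commutingPartners S X := ht.symm' ▸ (⟨hZ, e, hc⟩ : Z ∈ commutingPartners S X')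
        exact not_commute hXZ this.2.2
    obtain ⟨f, hf, hf1, e⟩ := hX'Z.cond_left c'⁻¹ (inv_mem hc') (inv_ne_one.2 hc1)
    obtain ⟨x, hx, -, e'⟩ := hXZ.cond_right f hf hf1
    rw [inv_inv] at e
    exact ⟨x⁻¹, inv_mem hx, e' ▸ e ▸ (ht.symm'.cb hS f⁻¹)⟩
  -- the elements `z` and `u`
  obtain ⟨a₁, ha₁, ha₁1⟩ := exists_ne_one hAZ
  obtain ⟨f, hf, -, ef⟩ := hAZ.cond_left a₁⁻¹ (inv_mem ha₁) (inv_ne_one.2 ha₁1)
  rw [inv_inv] at ef
  have efX : conjBy X f⁻¹ = conjBy Z (φ a₁) := by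
    rw [hφZ, ← ef, hXdef, cb_cb, cb_cb, (show Commute g₀ f from hg₀ f hf).inv_right.eq]
  have hU : ∀ {U : Subgroup G}, U ∈ S → Twins S Z U → Z ≠ U → ∃ v : G,
      conjBy A v = conjBy U (f * a₁) ∧ Twins S (conjBy X v) X ∧ conjBy Z v ≠ Z ∧
      Twins S (conjBy Z v) Z ∧ (∀ M ∈ commutingPartners S Z, conjBy M v = M) := by
    intro U hU ht hne
    have partner : ∀ {M : Subgroup G}, M ∈ S → IsRankOnePair M Z →
        (∃ P ∈ commutingPartners S M, IsRankOnePair P Z) → IsRankOnePair M U := by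
      intro M hM hMZ ⟨P, hP, hPZ⟩
      refine deg_partner hS hdeg hM hU fun hc => ?_
      by_cases e : M = U
      · have : P ∈ commutingPartners S Z := ht.symm' ▸ (e ▸ hP)
        exact not_commute hPZ (bot_symm this.2.2)
      · have : M ∈ commutingPartners S Z := ht.symm' ▸ (⟨hM, e, bot_symm hc⟩ : M ∈ commutingPartners S U)
        exact not_commute hMZ (bot_symm this.2.2)
    have hAU : IsRankOnePair A U := partner hA hAZ ⟨X, ⟨hX, hXA, hAX⟩, hXZ⟩
    have hXU : IsRankOnePair X U := partner hX hXZ ⟨A, ⟨hA, hXA.symm, bot_symm hAX⟩, hAZ⟩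
    obtain ⟨u, hu, hu1, eu⟩ := hAU.cond_left a₁⁻¹ (inv_mem ha₁) (inv_ne_one.2 ha₁1)
    rw [inv_inv] at eu
    obtain ⟨x, hx, hx1, ex⟩ := hXU.cond_right u hu hu1
    have hfix : ∀ M ∈ commutingPartners S Z, conjBy M (f * u⁻¹) = M := by
      intro M hM
      rw [← cb_cb, cb_of_commute fun m hm => commute_cb_right (twins_commute hS ht hM) (inv_mem hu) hm,
        cb_of_commute fun m hm => commute_cb_right hM.2.2 hf hm]
    have hvZ : Twins S (conjBy Z (f * u⁻¹)) Z := by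
      have h1 := (ht.cb hS u⁻¹).cb hS f
      rw [cb_of_mem (inv_mem hu), cb_cb] at h1
      have h2 := ht.symm'.cb hS f
      rw [cb_of_mem hf] at h2
      exact h1.trans' h2
    refine ⟨f * u⁻¹, by rw [← cb_cb, eu, cb_cb], ?_, ?_, hvZ, hfix⟩
    · -- the twin of `Z ^ φ a₁`
      have hxe : x⁻¹ = φ a₁ := by
        by_contra hne'
        have hP : conjBy U a₁ ∈ commutingPartners S (conjBy U (φ a₁)) := by
          have h1 : conjBy Z (φ a₁) ∈ commutingPartners S (conjBy U a₁) :=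
            (ht.cb hS a₁) ▸ hrel ha₁ ha₁1
          have h2 : conjBy U a₁ ∈ commutingPartners S (conjBy Z (φ a₁)) :=
            ⟨hS.conj_mem U hU _, h1.2.1.symm, bot_symm h1.2.2⟩
          exact (ht.cb hS (φ a₁)) ▸ h2
        have hQ : ⁅conjBy U x⁻¹, conjBy U a₁⁆ = ⊥ := by
          rw [ex, ← eu]; exact bot_symm (cb_bot hAX)
        have hall := pencil_eq hS hXU (C := conjBy U x⁻¹) (D := conjBy U (φ a₁)) (M := conjBy U a₁)
          (unipotent_conj (right_mem hXU) (le_sup_left (α := Subgroup G) (inv_mem hx)))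
          (unipotent_conj (right_mem hXU) (le_sup_left (α := Subgroup G) (hφmem ha₁)))
          (fun e => hne' (regular hXU (inv_mem hx) (hφmem ha₁) e)) hQ hP.2.2
        have hUU : ⁅U, conjBy U a₁⁆ = ⊥ := le_bot_iff.1 (hall ▸ Subgroup.commutator_mono le_sup_right le_rfl)
        exact ha₁1 (eq_one_of_normalize hAU ha₁ (cb_eq_self.1 (eq_of_commute hAU
          (unipotent_conj (right_mem hAU) (le_sup_left (α := Subgroup G) ha₁)) (right_mem hAU)
          (bot_symm hUU))))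
      have h1 := (ht.symm'.cb hS (φ a₁)).cb hS f
      rw [show conjBy (conjBy Z (φ a₁)) f = X from by rw [← efX, cb_cb, mul_inv_cancel, cb_one]] at h1
      rwa [← cb_cb, ← ex, hxe]
    · intro h
      rw [← cb_cb, cb_eq_iff, cb_of_mem (inv_mem hf)] at h
      have hZU : IsRankOnePair U Z := RankOnePair_symm (twins_partner hS hdeg hZ hU ht hne)
      exact hu1 (by simpa using eq_one_of_normalize hZU (inv_mem hu) (cb_eq_self.1 h))
  obtain ⟨v, hvA, hvX, hvne, hvZ, hvfix⟩ := hU hU₀ htw hne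
  obtain ⟨s, hs, hs1⟩ := exists_ne_one hAZ
  -- the second twin
  have hfaZ : conjBy Z (f * a₁) = A := by
    rw [← cb_cb, ← ef, cb_cb, mul_inv_cancel, cb_one]
  obtain ⟨z₁, hz₁def⟩ : ∃ z₁, z₁ = (f * a₁)⁻¹ * s⁻¹ * (f * a₁) := ⟨_, rfl⟩
  have hz₁ : z₁ ∈ Z := by
    have hm := inv_mem hs
    rw [← hfaZ, mem_cb] at hm
    rw [hz₁def]; exact hm
  have htw' : Twins S Z (conjBy U₀ z₁) := by
    have := htw.cb hS z₁
    rwa [cb_of_mem hz₁] at this
  have hne' : Z ≠ conjBy U₀ z₁ := fun e => hne (by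
    rw [eq_comm, cb_eq_iff, cb_of_mem (inv_mem hz₁)] at e; exact e.symm)
  obtain ⟨w, hwA, hwX, -, -, hwfix⟩ := hU (hS.conj_mem U₀ hU₀ _) htw' hne'
  obtain ⟨y, hydef⟩ : ∃ y, y = (φ s)⁻¹ * s := ⟨_, rfl⟩
  obtain ⟨t, htdef⟩ : ∃ t, t = conjBy U₀ (f * a₁) := ⟨_, rfl⟩
  obtain ⟨g, hgdef⟩ : ∃ g, g = y * w⁻¹ * y⁻¹ * v := ⟨_, rfl⟩
  have hyA : conjBy A y = A := by
    rw [hydef, ← cb_cb, cb_of_mem hs]
    exact cb_of_commute fun x hx => (hcomm hx (inv_mem (hφmem hs))).symm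
  have hyX : conjBy X y = X := by
    rw [hydef, ← cb_cb, cb_of_commute fun x hx => hcomm hs hx, cb_of_mem (inv_mem (hφmem hs))]
  have hyt : conjBy t y⁻¹ = conjBy t s⁻¹ := by
    have htA : Twins S A t := by rw [htdef, ← hfaZ]; exact htw.cb hS _
    rw [hydef, mul_inv_rev, inv_inv, ← cb_cb, cb_of_commute (g := φ s) fun x hx =>
      (commute_cb_right (twins_commute hS htA ⟨hX, hXA, hAX⟩) hx (hφmem hs)).symm]
  have hgA : conjBy A g = A := by
    rw [hgdef, ← cb_cb, hvA, ← htdef, ← cb_cb, hyt]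
    have : conjBy t s⁻¹ = conjBy A w := by
      rw [hwA, htdef, hz₁def, cb_cb, cb_cb]; congr 1; group
    rw [this, cb_cb, mul_assoc, inv_mul_cancel, mul_one, hyA]
  have hgX : Twins S X (conjBy X g) := by
    have h1 := hwX.cb hS w⁻¹
    rw [cb_cb, inv_mul_cancel, cb_one] at h1
    have h2 := hvX.cb hS (y * w⁻¹ * y⁻¹)
    rw [cb_cb, ← hgdef] at h2
    have h3 : conjBy X (y * w⁻¹ * y⁻¹) = conjBy (conjBy X w⁻¹) y := by
      rw [← cb_cb X (y * w⁻¹) y⁻¹, show conjBy X y⁻¹ = X from by rw [cb_eq_iff, inv_inv, hyX], cb_cb]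
    have h4 := h1.cb hS y
    rw [hyX, ← h3] at h4
    exact h4.trans' h2.symm'
  have hgZ : conjBy Z g = conjBy Z v := by
    rw [hgdef, ← cb_cb]
    have hmem : conjBy (conjBy Z v) y⁻¹ ∈ commutingPartners S Z := by
      have h := hW (inv_mem hs) (inv_ne_one.2 hs1)
      have h2 : conjBy Z y⁻¹ ∈ commutingPartners S Z := by
        rw [hWdef, hφinv, inv_inv] at h
        rwa [hydef, mul_inv_rev, inv_inv, hcomm (inv_mem hs) (hφmem hs)]
      have h3 := mem_partners_cb hS y⁻¹ (show conjBy Z y ∈ commutingPartners S Z by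
        rw [hydef, ← hWdef]; exact hW hs hs1)
      rw [cb_cb, inv_mul_cancel, cb_one] at h3
      have h4 : Z ∈ commutingPartners S (conjBy (conjBy Z v) y⁻¹) :=
        (hvZ.symm'.cb hS y⁻¹) ▸ h3
      exact ⟨hS.conj_mem _ (hS.conj_mem Z hZ v) _, h4.2.1.symm, bot_symm h4.2.2⟩
    have h5 : conjBy (conjBy (conjBy Z v) y⁻¹) w⁻¹ = conjBy (conjBy Z v) y⁻¹ := by
      rw [cb_eq_iff, inv_inv, hwfix _ hmem]
    rw [← cb_cb _ (y * w⁻¹), ← cb_cb _ y, h5, cb_cb, mul_inv_cancel, cb_one]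
  -- `g` fixes the other points of the line through `Z`
  have hgW : ∀ {a : G}, a ∈ A → a ≠ 1 → a ≠ s → conjBy (W a) g = W a := by
    intro a ha ha1 has
    rw [hgdef, ← cb_cb, hvfix _ (hW ha ha1)]
    have hy' : y⁻¹ = (φ s⁻¹)⁻¹ * s⁻¹ := by
      rw [hydef, mul_inv_rev, inv_inv, hφinv, inv_inv, hcomm (inv_mem hs) (hφmem hs)]
    have h1 : conjBy (W a) y⁻¹ = W (s⁻¹ * a) := by rw [hy', hWmul (inv_mem hs) ha]
    have hne1 : s⁻¹ * a ≠ 1 := fun e => has (inv_mul_eq_one.1 e).symm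
    have h5 : conjBy (W (s⁻¹ * a)) w⁻¹ = W (s⁻¹ * a) := by
      rw [cb_eq_iff, inv_inv, hwfix _ (hW (mul_mem (inv_mem hs) ha) hne1)]
    rw [← cb_cb _ (y * w⁻¹), ← cb_cb _ y, h1, h5, ← h1, cb_cb, mul_inv_cancel, cb_one]
  -- hence `g` fixes `Z ^ (φ a)⁻¹`
  have hfixed : ∀ {a : G}, a ∈ A → a ≠ 1 → a ≠ s →
      g * a * g⁻¹ = a ∧ conjBy (conjBy Z (φ a)⁻¹) g = conjBy Z (φ a)⁻¹ ∧
      ∃ c' ∈ conjBy X g, c' = g * (φ a)⁻¹ * g⁻¹ ∧ Twins S (conjBy Z c') (conjBy Z (φ a)⁻¹) := by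
    intro a ha ha1 has
    obtain ⟨a', ha'def⟩ : ∃ a', a' = g * a * g⁻¹ := ⟨_, rfl⟩
    obtain ⟨c', hc'def⟩ : ∃ c', c' = g * (φ a)⁻¹ * g⁻¹ := ⟨_, rfl⟩
    have ha' : a' ∈ A := by rw [ha'def, ← hgA]; exact cb_mem g ha
    have hc' : c' ∈ conjBy X g := hc'def ▸ cb_mem g (inv_mem (hφmem ha))
    obtain ⟨x, hx, htx⟩ := hpi (hS.conj_mem X hX g) hgX c' hc'
    have e1 : W a = conjBy (conjBy Z g) (c' * a') := by
      conv_lhs => rw [← hgW ha ha1 has, hWdef]
      rw [cb_cb, cb_cb, hc'def, ha'def]; congr 1; group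
    have hca : c' * a' = a' * c' := by
      rw [ha'def, hc'def]
      calc g * (φ a)⁻¹ * g⁻¹ * (g * a * g⁻¹) = g * ((φ a)⁻¹ * a) * g⁻¹ := by group
        _ = g * (a * (φ a)⁻¹) * g⁻¹ := by rw [hcomm ha (inv_mem (hφmem ha))]
        _ = _ := by group
    have t1 : Twins S (W a) (conjBy Z (a' * c')) := by
      rw [e1, ← hca, hgZ]
      exact hvZ.cb hS _
    have t2 : Twins S (conjBy Z (a' * c')) (conjBy Z (a' * x)) := by
      rw [← cb_cb, ← cb_cb]; exact htx.cb hS a'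
    have t3 := (t1.trans' t2).cb hS (φ a * a'⁻¹)
    rw [hWdef, cb_cb, cb_cb] at t3
    have e2 : φ a * a'⁻¹ * ((φ a)⁻¹ * a) = a'⁻¹ * a := by
      rw [← hcomm (inv_mem ha') (hφmem ha)]; group
    have e3 : φ a * a'⁻¹ * (a' * x) = φ a * x := by group
    rw [e2, e3] at t3
    obtain ⟨q1, q2⟩ := hsep (mul_mem (inv_mem ha') ha) (mul_mem (hφmem ha) hx) t3
    rw [inv_mul_eq_one] at q1
    have hx' : x = (φ a)⁻¹ := eq_inv_of_mul_eq_one_right q2
    refine ⟨by rw [← ha'def, q1], ?_, c', hc', hc'def, hx' ▸ htx⟩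
    have e4 : conjBy Z (φ a)⁻¹ = conjBy (W a) a⁻¹ := by
      rw [hWdef, cb_cb]; congr 1
      rw [← mul_assoc, hcomm (inv_mem ha) (inv_mem (hφmem ha))]; group
    rw [e4, cb_cb, show g * a⁻¹ = a⁻¹ * g from by
      calc g * a⁻¹ = (g * a * g⁻¹)⁻¹ * g := by group
        _ = _ := by rw [← ha'def, q1], ← cb_cb, hgW ha ha1 has]
  have hcard : ∀ p q r : G, ∃ x ∈ A, x ≠ p ∧ x ≠ q ∧ x ≠ r := by
    intro p q r
    by_contra hne
    push_neg at hne
    have hsub : (A : Set G) ⊆ {p, q, r} := by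
      intro x hx
      by_cases h1 : x = p
      · simp [h1]
      by_cases h2 : x = q
      · simp [h2]
      simp [hne x hx h1 h2]
    refine absurd h3 (not_lt.2 ?_)
    rw [show ENat.card A = (A : Set G).encard from ENat.card_coe_set_eq _]
    refine (Set.encard_mono hsub).trans ?_
    refine (Set.encard_insert_le _ _).trans ?_
    refine (add_le_add (Set.encard_insert_le _ _) le_rfl).trans ?_
    rw [Set.encard_singleton]
    norm_num
  obtain ⟨a₂, ha₂, ha₂1, ha₂s, -⟩ := hcard 1 s 1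
  obtain ⟨a₃, ha₃, ha₃1, ha₃s, ha₃₂⟩ := hcard 1 s a₂
  obtain ⟨-, hF2, c', -, hc'def, htc'⟩ := hfixed ha₂ ha₂1 ha₂s
  obtain ⟨-, hF3, -⟩ := hfixed ha₃ ha₃1 ha₃s
  have u2 := uX (inv_mem (hφmem ha₂))
  have u3 := uX (inv_mem (hφmem ha₃))
  have h23 : conjBy Z (φ a₂)⁻¹ ≠ conjBy Z (φ a₃)⁻¹ := fun e => ha₃₂ (by
    have h := regular hXZ (inv_mem (hφmem ha₂)) (inv_mem (hφmem ha₃)) e
    simpa [hφ] using h.symm)
  have hgXu := normalize_pencil hXZ u2 u3 h23 hF2 hF3
  have hAgX : ⁅conjBy X g, A⁆ = ⊥ := by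
    have h := cb_bot (g := g) hAX
    rw [hgA] at h
    exact bot_symm h
  have hgXX : conjBy X g = X := by
    by_contra hne'
    have hall := pencil_eq hS hXZ hgXu self_mem hne' hAgX (bot_symm hAX)
    exact not_commute hAZ (bot_symm (le_bot_iff.1 (hall ▸ Subgroup.commutator_mono le_sup_right le_rfl)))
  have hc'X : c' ∈ X := by
    rw [hc'def, ← hgXX]; exact cb_mem g (inv_mem (hφmem ha₂))
  have hc'eq : c' = (φ a₂)⁻¹ := by
    have h := htc'.cb hS (φ a₂)
    rw [cb_cb, cb_cb, mul_inv_cancel] at h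
    exact eq_inv_of_mul_eq_one_right (hsep (one_mem A) (mul_mem (hφmem ha₂) hc'X) h.symm').2
  apply hvne
  rw [← hgZ]
  have hgc : g * φ a₂ = φ a₂ * g := by
    calc g * φ a₂ = (g * (φ a₂)⁻¹ * g⁻¹)⁻¹ * g := by group
      _ = _ := by rw [← hc'def, hc'eq, inv_inv]
  conv_lhs => rw [show Z = conjBy (conjBy Z (φ a₂)⁻¹) (φ a₂) from by rw [cb_cb, mul_inv_cancel, cb_one]]
  rw [cb_cb, hgc, ← cb_cb, hF2, cb_cb, mul_inv_cancel, cb_one]

end Cfsg.Agent.Fischer
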