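import Cfsg.Agent.Fischer.RootLine
import Cfsg.Agent.Fischer.RootMember
import Cfsg.Agent.S5029
import Cfsg.Agent.S5036

/-! Non-degenerate classes of abstract root subgroups: partners on lines, specialness. -/

set_option autoImplicit false
open Cfsg
open scoped commutatorElement

namespace Cfsg.Agent.Fischer

variable {G : Type*} [Group G] {S : Set (Subgroup G)}
  (hS : IsRootSubgroupClass S) (hnd : IsNondegenerateRootSet S)
include hS hnd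

theorem nd_partner {A : Subgroup G} (hA : A ∈ S) : ∃ F ∈ S, IsRankOnePair A F := by
  obtain ⟨X, hX, Y, hY, h⟩ := hnd.2.1
  obtain ⟨g, rfl⟩ := hS.2.2 X hX A hA
  exact ⟨conjBy Y g, hS.1.conj_mem Y hY g, rankOne_cb h g⟩

theorem nd_not_isolated {A : Subgroup G} (hA : A ∈ S) : ¬ IsIsolatedIn (FAdj S) S A := by
  obtain ⟨F, hF, h⟩ := nd_partner hS hnd hA
  exact not_isolated_of_pair hS.1 hA hF h

theorem nd_case {A : Subgroup G} (hA : A ∈ S) : ∃ B ∈ S, ⁅A, B⁆ ∈ S := by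
  obtain ⟨X, hX, Y, hY, h⟩ := hnd.2.2
  obtain ⟨g, rfl⟩ := hS.2.2 X hX A hA
  refine ⟨conjBy Y g, hS.1.conj_mem Y hY g, ?_⟩
  have := hS.1.conj_mem _ h.1 g
  rwa [show conjBy ⁅X, Y⁆ g = ⁅conjBy X g, conjBy Y g⁆ from Subgroup.map_commutator _ _ _] at this

theorem nd_line {A : Subgroup G} (hA : A ∈ S) : (linePartners S A).Nonempty := by
  obtain ⟨B, hB, hC⟩ := nd_case hS hnd hA
  obtain ⟨-, hpart, ⟨⟨-, hne, hcomm⟩, -⟩, -⟩ :=
    Cfsg.Agent.S5029.result hS.1 (nd_not_isolated hS hnd hA) hA hB hC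
  exact ⟨⁅A, B⁆, ⟨hC, hne.symm, bot_symm hcomm⟩, hpart⟩

/-- In a line through `A` some member lies opposite the rank one partner `B` of `A`. -/
theorem nd_opposite {A B : Subgroup G} (hA : A ∈ S) (hB : B ∈ S) (hAB : IsRankOnePair A B)
    {C : Subgroup G} (hC : C ∈ linePartners S A) :
    ∃ E ∈ membersIn S (A ⊔ C), A ⊔ E = A ⊔ C ∧ E ∈ linePartners S A ∧ RootCommutatorCase S E B ∧
      RootCommutatorCase S A ⁅E, B⁆ ∧ E = ⁅A, ⁅E, B⁆⁆ := by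
  obtain ⟨⟨hCS, hne, hAC⟩, hline⟩ := hC
  obtain ⟨-, hcov, hdisj⟩ := hline
  obtain ⟨E, hE, hEA, hEB, hmove⟩ := line_shift hS.1 hA hCS hB hAB hne.symm hAC hcov
  obtain ⟨-, -, -, -, hsup⟩ := hmove A ⟨hA, le_sup_left⟩ hEA.symm
  have hAE : ⁅A, E⁆ = ⊥ := line_commute hS.1 hA hCS hAC le_sup_left hE.2
  obtain ⟨a, ha, ha1⟩ := exists_ne_one hAB
  obtain ⟨h1, h2, h3⟩ := shift_eq hS.1 hA hE.1 hB hAB hEB hAE ha ha1 (fun t ht _ => by
    have hat : a * t ≠ 1 := by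
      intro e
      have hta : t ∈ A := by
        rw [eq_inv_of_mul_eq_one_right e]; exact inv_mem ha
      have ht1 : t ≠ 1 := fun et => ha1 (by rwa [et, mul_one] at e)
      exact hEA (eq_of_inter hS.1 hA (nd_not_isolated hS hnd hA) hE.1 hta ht ht1).symm
    obtain ⟨M, hM, hx⟩ := hcov _ (mul_mem (le_sup_left (α := Subgroup G) ha) (hE.2 ht)) hat
    exact ⟨M, hM.1, line_commute hS.1 hA hCS hAC le_sup_left hM.2, hx⟩)
  exact ⟨E, hE, hsup, ⟨⟨hE.1, hEA, hAE⟩, hsup.symm ▸ ⟨fun M hM => hM.2, hcov, hdisj⟩⟩, h1, h2, h3⟩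

theorem nd_special {A B : Subgroup G} (hA : A ∈ S) (hB : B ∈ S) (hAB : IsRankOnePair A B) :
    IsSpecialRankOnePair A B := by
  obtain ⟨C, hC⟩ := nd_line hS hnd hA
  obtain ⟨E, hE, -, hEl, hEB, hAR, hEeq⟩ := nd_opposite hS hnd hA hB hAB hC
  obtain ⟨R, hRdef⟩ : ∃ R, R = ⁅E, B⁆ := ⟨_, rfl⟩
  rw [← hRdef] at hAR hEeq
  have hRS : R ∈ S := hRdef ▸ hEB.1
  have hRA : ⁅R, A⁆ = E := by rw [Subgroup.commutator_comm]; exact hEeq.symm
  have hBE : ⁅B, ⁅R, A⁆⁆ = R := by rw [hRA, Subgroup.commutator_comm, hRdef]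
  obtain ⟨-, -, -, -, -, hcent⟩ := Cfsg.Agent.S5036.result hS.1 hRS hA (hRA ▸ hE.1) hB hBE
  rw [hRA] at hcent
  have hEA : ⁅A, E⁆ = ⊥ := hEl.1.2.2
  have hRB : ⁅R, B⁆ = ⊥ := hRdef ▸ case_comm_right hEB
  have hER : ⁅R, E⁆ = ⊥ := hRdef ▸ case_comm_left hEB
  have hdisj : ∀ x ∈ E, x ∈ R → x = 1 := by
    intro x hxE hxR
    by_contra hx1
    have := eq_of_inter hS.1 hE.1 (nd_not_isolated hS hnd hE.1) hRS hxE hxR hx1
    rw [← this] at hAR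
    exact case_not_bot hS.1 hAR hEA
  refine ⟨hAB, fun a ha ha1 b hb hb1 e => ?_⟩
  -- actions
  have hae : ∀ x ∈ E, a * x * a⁻¹ = x := fun x hx => by
    rw [commute_cb_right hEA ha hx, mul_inv_cancel_right]
  have hbr : ∀ x ∈ R, b * x * b⁻¹ = x := fun x hx => by
    rw [← commute_cb_right hRB hx hb, mul_inv_cancel_right]
  have hφm : ∀ x ∈ R, ⁅a, x⁆ ∈ E := fun x hx => by
    rw [hEeq]; exact Subgroup.commutator_mem_commutator ha hx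
  have hψm : ∀ x ∈ E, ⁅b, x⁆ ∈ R := fun x hx => by
    rw [hRdef, Subgroup.commutator_comm]; exact Subgroup.commutator_mem_commutator hb hx
  have hEBs := case_symm hEB
  have hc : ∀ x ∈ E, ∀ y ∈ R, Commute x y := fun x hx y hy => (commute_cb_right hER hy hx).symm
  have hφψ : ∀ x ∈ E, ⁅a, ⁅b, x⁆⁆ = x := by
    intro x hx
    have hy : ⁅b, x⁆ ∈ R := hψm x hx
    have hbx : b⁻¹ * x * b = ⁅b, x⁆⁻¹ * x := by
      have h' : b⁻¹ * ⁅b, x⁆ * b = ⁅b, x⁆ := by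
        rw [mul_assoc, commute_cb_right hRB hy hb, inv_mul_cancel_left]
      calc b⁻¹ * x * b = (b⁻¹ * ⁅b, x⁆ * b)⁻¹ * x := by rw [commutatorElement_def]; group
        _ = _ := by rw [h']
    have himg : a * (⁅b, x⁆⁻¹ * x) * a⁻¹ = (⁅a, ⁅b, x⁆⁆⁻¹ * x) * ⁅b, x⁆⁻¹ := by
      calc a * (⁅b, x⁆⁻¹ * x) * a⁻¹ = ⁅b, x⁆⁻¹ * ⁅a, ⁅b, x⁆⁆⁻¹ * (a * x * a⁻¹) := by
            simp only [commutatorElement_def]; group
        _ = ⁅b, x⁆⁻¹ * (⁅a, ⁅b, x⁆⁆⁻¹ * x) := by rw [hae x hx]; group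
        _ = _ := ((hc _ (mul_mem (inv_mem (hφm _ hy)) hx) _ (inv_mem hy)).eq).symm
    obtain ⟨e₁, he₁⟩ : ∃ e₁, e₁ = ⁅a, ⁅b, x⁆⁆⁻¹ * x := ⟨_, rfl⟩
    rw [← he₁] at himg
    have he₁E : e₁ ∈ E := he₁ ▸ mul_mem (inv_mem (hφm _ hy)) hx
    -- the image commutes with `B`
    have hfix : ∀ z ∈ B, (e₁ * ⁅b, x⁆⁻¹) * z = z * (e₁ * ⁅b, x⁆⁻¹) := by
      intro z hz
      have hm : a⁻¹ * z * a ∈ conjBy A b⁻¹ := by
        rw [e]; simpa using cb_mem a⁻¹ hz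
      rw [mem_cb, inv_inv] at hm
      have hcm : (b⁻¹ * x * b) * (a⁻¹ * z * a) = (a⁻¹ * z * a) * (b⁻¹ * x * b) := by
        have hxa : b * (a⁻¹ * z * a) * b⁻¹ * x = x * (b * (a⁻¹ * z * a) * b⁻¹) :=
          commute_cb_right hEA hm hx
        calc (b⁻¹ * x * b) * (a⁻¹ * z * a) = b⁻¹ * (x * (b * (a⁻¹ * z * a) * b⁻¹)) * b := by group
          _ = b⁻¹ * (b * (a⁻¹ * z * a) * b⁻¹ * x) * b := by rw [hxa]
          _ = _ := by group
      rw [← himg, ← hbx]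
      calc a * (b⁻¹ * x * b) * a⁻¹ * z = a * ((b⁻¹ * x * b) * (a⁻¹ * z * a)) * a⁻¹ := by group
        _ = a * ((a⁻¹ * z * a) * (b⁻¹ * x * b)) * a⁻¹ := by rw [hcm]
        _ = _ := by group
    have h1 : ⁅b, e₁⁆ = 1 := by
      rw [commutatorElement_eq_one_iff_mul_comm]
      have hr : Commute b ⁅b, x⁆⁻¹ := (show Commute ⁅b, x⁆ b from commute_cb_right hRB hy hb).symm.inv_right
      have hh : Commute b (e₁ * ⁅b, x⁆⁻¹) := (hfix b hb).symm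
      have := hh.mul_right hr.inv_right
      rw [inv_inv, inv_mul_cancel_right] at this
      exact this.eq
    have := case_injective hS.1 hB (nd_not_isolated hS hnd hB) hEBs hb hb1 he₁E h1
    rw [he₁, inv_mul_eq_one] at this
    exact this
  have hψφ : ∀ x ∈ R, ⁅b, ⁅a, x⁆⁆ = x := by
    intro x hx
    have hw := hψm _ (hφm x hx)
    have h := hφψ _ (hφm x hx)
    have : x * ⁅b, ⁅a, x⁆⁆⁻¹ = 1 := by
      refine case_injective hS.1 hA (nd_not_isolated hS hnd hA) hAR ha ha1 (mul_mem hx (inv_mem hw)) ?_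
      rw [case_mul_right hAR ha hx (inv_mem hw), case_inv_right hAR ha hw, h, mul_inv_cancel]
    rw [mul_inv_eq_one] at this
    exact this.symm
  -- both sides agree on `R ⊔ E`
  obtain ⟨L, hL⟩ : ∃ L, L = b⁻¹ * a * b := ⟨_, rfl⟩
  obtain ⟨M, hM⟩ : ∃ M, M = a⁻¹ * b⁻¹ * a := ⟨_, rfl⟩
  have hae' : ∀ x ∈ E, a⁻¹ * x * a = x := fun x hx => by
    calc a⁻¹ * x * a = a⁻¹ * (a * x * a⁻¹) * a := by rw [hae x hx]
      _ = x := by group
  have hbr' : ∀ x ∈ R, b⁻¹ * x * b = x := fun x hx => by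
    calc b⁻¹ * x * b = b⁻¹ * (b * x * b⁻¹) * b := by rw [hbr x hx]
      _ = x := by group
  have hbe' : ∀ x ∈ E, b⁻¹ * x * b = ⁅b, x⁆⁻¹ * x := fun x hx => by
    calc b⁻¹ * x * b = (b⁻¹ * ⁅b, x⁆ * b)⁻¹ * x := by rw [commutatorElement_def]; group
      _ = _ := by rw [hbr' _ (hψm x hx)]
  have har : ∀ x ∈ R, a * x * a⁻¹ = ⁅a, x⁆ * x := fun x _ => by rw [commutatorElement_def]; group
  have har' : ∀ x ∈ R, a⁻¹ * x * a = ⁅a, x⁆⁻¹ * x := fun x hx => by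
    calc a⁻¹ * x * a = (a⁻¹ * ⁅a, x⁆ * a)⁻¹ * x := by rw [commutatorElement_def]; group
      _ = _ := by rw [hae' _ (hφm x hx)]
  have hbe : ∀ x ∈ E, b * x * b⁻¹ = ⁅b, x⁆ * x := fun x _ => by rw [commutatorElement_def]; group
  have hE' : ∀ x ∈ E, L * x * L⁻¹ = M * x * M⁻¹ := by
    intro x hx
    have hy := hψm x hx
    have hcx : Commute x ⁅b, x⁆ := hc x hx _ hy
    have hψ2 : ⁅b, x * x⁆ = ⁅b, x⁆ * ⁅b, x⁆ := case_mul_right hEBs hb hx hx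
    calc L * x * L⁻¹ = b⁻¹ * (a * (b * x * b⁻¹) * a⁻¹) * b := by rw [hL]; group
      _ = b⁻¹ * ((a * ⁅b, x⁆ * a⁻¹) * (a * x * a⁻¹)) * b := by rw [hbe x hx]; group
      _ = b⁻¹ * (x * (⁅b, x⁆ * x)) * b := by rw [har _ hy, hφψ x hx, hae x hx]; group
      _ = (b⁻¹ * (x * x) * b) * (b⁻¹ * ⁅b, x⁆ * b) := by rw [← hcx.eq]; group
      _ = (⁅b, x⁆ * ⁅b, x⁆)⁻¹ * (x * x) * ⁅b, x⁆ := by rw [hbe' _ (mul_mem hx hx), hψ2, hbr' _ hy]
      _ = ⁅b, x⁆⁻¹ * (x * x) := by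
        rw [mul_assoc, (hcx.mul_left hcx).eq, ← mul_assoc, mul_inv_rev, inv_mul_cancel_right]
      _ = x * ⁅b, x⁆⁻¹ * x := by rw [← mul_assoc, hcx.inv_right.eq]
      _ = (a⁻¹ * ⁅b, x⁆⁻¹ * a) * (a⁻¹ * x * a) := by
        rw [har' _ (inv_mem hy), case_inv_right hAR ha hy, hφψ x hx, inv_inv, hae' x hx]
      _ = a⁻¹ * (b⁻¹ * (a * x * a⁻¹) * b) * a := by rw [hae x hx, hbe' x hx]; group
      _ = M * x * M⁻¹ := by rw [hM]; group
  have hR' : ∀ x ∈ R, L * x * L⁻¹ = M * x * M⁻¹ := by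
    intro x hx
    have hy := hφm x hx
    calc L * x * L⁻¹ = b⁻¹ * (a * (b * x * b⁻¹) * a⁻¹) * b := by rw [hL]; group
      _ = (b⁻¹ * ⁅a, x⁆ * b) * (b⁻¹ * x * b) := by rw [hbr x hx, har x hx]; group
      _ = x⁻¹ * ⁅a, x⁆ * x := by rw [hbe' _ hy, hψφ x hx, hbr' x hx]
      _ = a⁻¹ * ⁅a, x⁆ * a := by rw [hae' _ hy, mul_assoc, (hc _ hy x hx).eq, inv_mul_cancel_left]
      _ = a⁻¹ * (b⁻¹ * (a * x * a⁻¹) * b) * a := by
        rw [har x hx, show b⁻¹ * (⁅a, x⁆ * x) * b = (b⁻¹ * ⁅a, x⁆ * b) * (b⁻¹ * x * b) by group,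
          hbe' _ hy, hψφ x hx, hbr' x hx, mul_assoc x⁻¹, (hc _ hy x hx).eq, inv_mul_cancel_left]
      _ = M * x * M⁻¹ := by rw [hM]; group
  -- hence the quotient is central in `A ⊔ B`
  obtain ⟨z, hz⟩ : ∃ z, z = M⁻¹ * L := ⟨_, rfl⟩
  have hAle : ∀ {x : G}, x ∈ A → x ∈ A ⊔ B := fun hx => le_sup_left (α := Subgroup G) hx
  have hBle : ∀ {x : G}, x ∈ B → x ∈ A ⊔ B := fun hx => le_sup_right (α := Subgroup G) hx
  have hMX : M ∈ A ⊔ B := hM ▸ mul_mem (mul_mem (inv_mem (hAle ha)) (inv_mem (hBle hb))) (hAle ha)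
  have hLX : L ∈ A ⊔ B := hL ▸ mul_mem (mul_mem (inv_mem (hBle hb)) (hAle ha)) (hBle hb)
  have hzc : z ∈ Subgroup.centralizer ((R ⊔ E : Subgroup G) : Set G) := by
    rw [← Subgroup.zpowers_le, Subgroup.le_centralizer_iff]
    refine sup_le ?_ ?_ <;> intro x hx <;> rw [Subgroup.mem_centralizer_iff] <;>
      rintro _ ⟨i, rfl⟩ <;> refine (Commute.zpow_left ?_ i).eq <;> show z * x = x * z
    · calc z * x = M⁻¹ * (L * x * L⁻¹) * L := by rw [hz]; group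
        _ = M⁻¹ * (M * x * M⁻¹) * L := by rw [hR' x hx]
        _ = _ := by rw [hz]; group
    · calc z * x = M⁻¹ * (L * x * L⁻¹) * L := by rw [hz]; group
        _ = M⁻¹ * (M * x * M⁻¹) * L := by rw [hE' x hx]
        _ = _ := by rw [hz]; group
  have hzX : z ∈ A ⊔ B := hz ▸ mul_mem (inv_mem hMX) hLX
  have hcz := hcent z ⟨hzX, hzc⟩
  have hzU : z ∈ conjBy A b⁻¹ := by
    rw [hz]
    refine mul_mem (inv_mem ?_) ?_
    · rw [e, hM]; simpa using cb_mem a⁻¹ (inv_mem hb)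
    · rw [hL]; simpa using cb_mem b⁻¹ ha
  have hu : conjBy A b⁻¹ ∈ unipotentSubgroups A B := unipotent_conj self_mem (inv_mem (hBle hb))
  have hne : conjBy A b⁻¹ ≠ B := fun e' => hAB.ne (by
    have := congrArg (fun K => conjBy K b) e'
    simpa [cb_cb, cb_of_mem hb] using this)
  have hz1 : z = 1 := eq_one_of_normalize' hAB hu (right_mem hAB) hne hzU
    (cb_eq_self.1 (cb_of_commute fun y hy => hcz y (hBle hy)))
  rw [hz, inv_mul_eq_one] at hz1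
  rw [← hL, ← hM, hz1]

end Cfsg.Agent.Fischer
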