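import Cfsg.Agent.Fischer.NonDeg
import Cfsg.Agent.S5038

/-! Lines, connectedness and inclusions of neighbour sets in classes of abstract root subgroups. -/

set_option autoImplicit false
open Cfsg
open scoped commutatorElement

namespace Cfsg.Agent.Fischer

variable {G : Type*} [Group G] {S : Set (Subgroup G)}

theorem linePartners_symm {A B : Subgroup G} (hA : A ∈ S) (h : B ∈ linePartners S A) :
    A ∈ linePartners S B :=
  ⟨⟨hA, h.1.2.1.symm, bot_symm h.1.2.2⟩, sup_comm A B ▸ h.2⟩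

theorem linePartners_cb (hS : IsRootSubgroupSet S) {A B : Subgroup G}
    (h : B ∈ linePartners S A) (g : G) : conjBy B g ∈ linePartners S (conjBy A g) := by
  have hsup : conjBy A g ⊔ conjBy B g = conjBy (A ⊔ B) g := (Subgroup.map_sup _ _ _).symm
  refine ⟨⟨hS.conj_mem B h.1.1 g, fun e => h.1.2.1 (cb_inj.1 e), cb_bot h.1.2.2⟩, ?_⟩
  rw [hsup]
  refine ⟨fun M hM => hM.2, fun x hx hx1 => ?_, fun M hM N hN hMN => ?_⟩
  · rw [mem_cb] at hx
    obtain ⟨M, hM, hxM⟩ := h.2.2.1 _ hx (fun e => hx1 (by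
      have := congrArg (fun t => g * t * g⁻¹) e
      simpa [mul_assoc] using this))
    exact ⟨conjBy M g, ⟨hS.conj_mem M hM.1 g, Subgroup.map_mono hM.2⟩, mem_cb.2 hxM⟩
  · have hback : ∀ {K : Subgroup G}, K ∈ membersIn S (conjBy (A ⊔ B) g) →
        conjBy K g⁻¹ ∈ membersIn S (A ⊔ B) := by
      intro K hK
      refine ⟨hS.conj_mem K hK.1 _, ?_⟩
      have : conjBy K g⁻¹ ≤ conjBy (conjBy (A ⊔ B) g) g⁻¹ := Subgroup.map_mono hK.2
      rwa [cb_cb, inv_mul_cancel, cb_one] at this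
    refine (Subgroup.eq_bot_iff_forall _).2 fun x hx => ?_
    have hd := h.2.2.2 _ (hback hM) _ (hback hN) (fun e => hMN (cb_inj.1 e))
    have hm : g⁻¹ * x * g ∈ conjBy M g⁻¹ ⊓ conjBy N g⁻¹ := by
      refine ⟨?_, ?_⟩
      · simpa using cb_mem g⁻¹ hx.1
      · simpa using cb_mem g⁻¹ hx.2
    rw [hd, Subgroup.mem_bot] at hm
    have := congrArg (fun t => g * t * g⁻¹) hm
    simpa [mul_assoc] using this

/-- Members of a set moved into each other along an inclusion of neighbour sets. -/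
theorem inclusion_symm (P : Subgroup G → Subgroup G → Prop)
    (htrans : ∀ X Y Z, P X Y → P Y Z → P X Z)
    (hcb : ∀ X Y g, P X Y → P (conjBy X g) (conjBy Y g))
    (hnr : ∀ X Y, IsRankOnePair X Y → X ∈ S → Y ∈ S → ¬ P X Y)
    (hS : IsRootSubgroupSet S) {A C F : Subgroup G} (hC : C ∈ S) (hF : F ∈ S)
    (hAC : ⁅A, C⁆ = ⊥) (hAF : IsRankOnePair A F) (hCF : IsRankOnePair C F) (h : P A C) : P C A := by
  have key : ∀ a ∈ A, a ≠ 1 → ∃ f : G, ∃ c ∈ C, c ≠ 1 ∧ conjBy A f = conjBy F a ∧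
      conjBy C f = conjBy F c := by
    intro a ha ha1
    obtain ⟨f, hf, hf1, e⟩ := hAF.cond_left a⁻¹ (inv_mem ha) (inv_ne_one.2 ha1)
    obtain ⟨c, hc, hc1, e'⟩ := hCF.cond_right f hf hf1
    rw [inv_inv] at e
    exact ⟨f⁻¹, c⁻¹, inv_mem hc, inv_ne_one.2 hc1, e, e'.symm⟩
  obtain ⟨a, ha, ha1⟩ := exists_ne_one hAF
  obtain ⟨f, c, hc, hc1, ea, ec⟩ := key a ha ha1
  obtain ⟨f', c', hc', -, ea', ec'⟩ := key a⁻¹ (inv_mem ha) (inv_ne_one.2 ha1)
  have h1 : P (conjBy F a) (conjBy F c) := ea ▸ ec ▸ hcb _ _ f h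
  have h2 : P (conjBy F a⁻¹) (conjBy F c') := ea' ▸ ec' ▸ hcb _ _ f' h
  have h3 : P F (conjBy F (c' * c)) := by
    have e1 := hcb _ _ a h2
    rw [cb_cb, mul_inv_cancel, cb_one, cb_cb, commute_cb_right hAC ha hc'] at e1
    have e2 := hcb _ _ c' h1
    rw [cb_cb, cb_cb] at e2
    exact htrans _ _ _ e1 e2
  have hcc : c' * c = 1 := by
    by_contra hne
    have hd : c' * c ∈ C := mul_mem hc' hc
    have hu : conjBy F (c' * c) ∈ unipotentSubgroups C F :=
      unipotent_conj (right_mem hCF) (le_sup_left (α := Subgroup G) hd)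
    have hne' : F ≠ conjBy F (c' * c) := fun e =>
      hne (eq_one_of_normalize hCF hd (cb_eq_self.1 e.symm))
    obtain ⟨x, -, e1, e2⟩ := two_trans hCF (right_mem hCF) hu hne'
    have hr := rankOne_cb hCF x
    rw [e1, e2] at hr
    exact hnr _ _ hr hF (hS.conj_mem F hF _) h3
  have h4 := hcb _ _ (a * c) h2
  rw [cb_cb, cb_cb, eq_inv_of_mul_eq_one_left hcc, mul_inv_cancel_right,
    commute_cb_right hAC ha hc, mul_inv_cancel_right] at h4
  have h5 := hcb _ _ f⁻¹ h4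
  rwa [← ea, ← ec, cb_cb, cb_cb, inv_mul_cancel, cb_one, cb_one] at h5

section

variable (hS : IsRootSubgroupClass S)
include hS

/-- In a class with two members every member has a rank one partner, or the commutator case occurs. -/
theorem class_partner (hdn : IsDegenerateRootSet S ∨ IsNondegenerateRootSet S) {A C : Subgroup G}
    (hA : A ∈ S) (hC : C ∈ S) (hAC : A ≠ C) : ∃ F ∈ S, IsRankOnePair A F := by
  rcases hdn with hd | hnd
  · by_cases hex : ∃ X ∈ S, ∃ Y ∈ S, IsRankOnePair X Y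
    · obtain ⟨X, hX, Y, hY, h⟩ := hex
      obtain ⟨g, rfl⟩ := hS.2.2 X hX A hA
      exact ⟨conjBy Y g, hS.1.conj_mem Y hY g, rankOne_cb h g⟩
    · exfalso
      push_neg at hex
      have hcomm : ∀ X ∈ S, ∀ Y ∈ S, ⁅X, Y⁆ = ⊥ := fun X hX Y hY => by
        rcases hS.1.pair X hX Y hY with h | h | h
        · exact h
        · exact absurd h (hex X hX Y hY)
        · exact absurd h (hd X hX Y hY)
      obtain ⟨g, hg⟩ := hS.2.2 A hA C hC
      have hall : (⊤ : Subgroup G) ≤ Subgroup.normalizer (A : Set G) := by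
        rw [← hS.1.generates]
        refine iSup₂_le fun T hT t ht => ?_
        exact cb_eq_self.1 (cb_of_commute fun a ha => (commute_cb_right (hcomm A hA T hT) ha ht).symm)
      exact hAC (hg.trans (cb_eq_self.2 (hall (Subgroup.mem_top g)))).symm
  · exact nd_partner hS hnd hA

end

section NonDegenerate

variable (hS : IsRootSubgroupClass S) (hnd : IsNondegenerateRootSet S)
include hS hnd

theorem nd_line_member {A C M : Subgroup G} (hA : A ∈ S) (hC : C ∈ linePartners S A)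
    (hM : M ∈ membersIn S (A ⊔ C)) (hMA : M ≠ A) : A ⊔ M = A ⊔ C ∧ M ∈ linePartners S A := by
  obtain ⟨x, hx, e1, e2⟩ := Cfsg.Agent.S5038.result hS.1 (fun A hA => nd_not_isolated hS hnd hA) hA hC
    A ⟨hA, le_sup_left⟩ C ⟨hC.1.1, le_sup_right⟩ A ⟨hA, le_sup_left⟩ M hM hC.1.2.1.symm hMA.symm
  have hxn : x ∈ Subgroup.normalizer ((A ⊔ C : Subgroup G) : Set G) :=
    (iSup₂_le fun T hT => hT.2 : (⨆ E ∈ normalizingMembers S (A ⊔ C), E) ≤ _) hx
  have hsup : A ⊔ M = A ⊔ C := by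
    rw [← e2]
    conv_lhs => rw [← e1]
    exact (Subgroup.map_sup _ _ _).symm.trans (cb_eq_self.2 hxn)
  have := linePartners_cb hS.1 hC x
  rw [e1, e2] at this
  exact ⟨hsup, this⟩

/-- For a line through `A` and `C` some line partner `T` of `A` satisfies `⁅C, T⁆ = A`. -/
theorem nd_triangle {A C : Subgroup G} (hA : A ∈ S) (hC : C ∈ linePartners S A) :
    ∃ T ∈ linePartners S A, RootCommutatorCase S C T ∧ ⁅C, T⁆ = A := by
  have hCS := hC.1.1
  obtain ⟨F, hF, hCF⟩ := nd_partner hS hnd hCS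
  have hAl := linePartners_symm hA hC
  obtain ⟨E, hE, -, hEl, hEF, hcase, hEeq⟩ := nd_opposite hS hnd hCS hF hCF hAl
  have hEA : E ≠ C := hEl.1.2.1
  obtain ⟨x, -, e1, e2⟩ := Cfsg.Agent.S5038.result hS.1 (fun A hA => nd_not_isolated hS hnd hA) hCS hAl
    E hE C ⟨hCS, le_sup_left⟩ A ⟨hA, le_sup_right⟩ C ⟨hCS, le_sup_left⟩ hEA hC.1.2.1.symm
  have hEl' : E ∈ linePartners S ⁅E, F⁆ :=
    (Cfsg.Agent.S5029.result hS.1 (nd_not_isolated hS hnd hE.1) hE.1 hF hEF.1).2.2.1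
  refine ⟨conjBy ⁅E, F⁆ x, ?_, ?_⟩
  · rw [← e1]
    exact linePartners_cb hS.1 (linePartners_symm hEF.1 hEl') x
  · have he : ⁅C, conjBy ⁅E, F⁆ x⁆ = A := by
      conv_lhs => rw [← e2]
      rw [show ⁅conjBy C x, conjBy ⁅E, F⁆ x⁆ = conjBy ⁅C, ⁅E, F⁆⁆ x from
        (Subgroup.map_commutator _ _ _).symm, ← hEeq, e1]
    exact ⟨case_of_member hS.1 hCS (hS.1.conj_mem _ hEF.1 x) (he.symm ▸ hA), he⟩

theorem nd_eConn {A : Subgroup G} (hA : A ∈ S) {T : Subgroup G} (hT : T ∈ S) {t : G} (ht : t ∈ T) :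
    Relation.ReflTransGen (EAdj S S) A (conjBy A t) := by
  have adj : ∀ {X Y : Subgroup G}, X ∈ S → Y ∈ linePartners S X →
      Relation.ReflTransGen (EAdj S S) X Y :=
    fun hX h => Relation.ReflTransGen.single ⟨hX, h.1.1, h⟩
  have hcasestep : ∀ {X Y : Subgroup G}, X ∈ S → Y ∈ S → ⁅X, Y⁆ ∈ S → ∀ y ∈ Y,
      Relation.ReflTransGen (EAdj S S) X (conjBy X y) := by
    intro X Y hX hY hXY y hy
    have hl := (Cfsg.Agent.S5029.result hS.1 (nd_not_isolated hS hnd hX) hX hY hXY).2.2.1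
    have hl' := linePartners_cb hS.1 hl y
    rw [cb_of_commute fun c hc => (case_comm (case_of_member hS.1 hX hY hXY) hc
      (le_sup_right (α := Subgroup G) hy)).symm] at hl'
    exact (adj hX (linePartners_symm hXY hl)).trans (adj hXY hl')
  rcases hS.1.pair A hA T hT with h | h | h
  · rw [cb_of_commute fun a ha => (commute_cb_right h ha ht).symm]
  · obtain ⟨C, hC⟩ := nd_line hS hnd hA
    obtain ⟨E, hE, -, hEl, hET, -, -⟩ := nd_opposite hS hnd hA hT h hC
    have hl := linePartners_cb hS.1 hEl t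
    exact ((adj hA hEl).trans (hcasestep hE.1 hT hET.1 t ht)).trans
      (adj (hS.1.conj_mem E hE.1 t) (linePartners_symm (hS.1.conj_mem A hA t) hl))
  · exact hcasestep hA hT h.1 t ht

theorem nd_eConnected : IsConnectedFamily (EAdj S S) S := by
  intro A hA B hB
  obtain ⟨g, rfl⟩ := hS.2.2 A hA B hB
  have hg : g ∈ ⨆ T : {T // T ∈ S}, (T : Subgroup G) := by
    rw [← iSup_subtype' (f := fun (T : Subgroup G) (_ : T ∈ S) => T), hS.1.generates]
    exact Subgroup.mem_top g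
  refine Subgroup.iSup_induction (C := fun g => ∀ A ∈ S, Relation.ReflTransGen (EAdj S S) A (conjBy A g))
    _ hg (fun T t ht A hA => nd_eConn hS hnd hA T.2 ht) ?_ ?_ A hA
  · intro A _; rw [cb_one]
  · intro x y hx hy A hA
    rw [← cb_cb]
    exact (hy A hA).trans (hx _ (hS.1.conj_mem A hA y))

theorem nd_generated {A B : Subgroup G} (hA : A ∈ S) (hB : B ∈ rankOnePartners S A) :
    (⨆ C ∈ linePartners S A, C) ⊔ B = ⊤ := by
  obtain ⟨H, hH⟩ : ∃ H, H = (⨆ C ∈ linePartners S A, C) ⊔ B := ⟨_, rfl⟩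
  rw [← hH]
  have hle : ∀ C ∈ linePartners S A, C ≤ H := fun C hC =>
    hH ▸ (le_iSup₂_of_le C hC le_rfl : C ≤ ⨆ C ∈ linePartners S A, C).trans le_sup_left
  have hBH : B ≤ H := hH ▸ le_sup_right
  have hne1 : ∀ {X Y : Subgroup G}, X ∈ S → Y ∈ S → X ≠ Y → ∀ {x y : G}, x ∈ X → x ≠ 1 → y ∈ Y →
      x * y ≠ 1 := by
    intro X Y hX hY hne x y hx hx1 hy e
    exact hne (eq_of_inter hS.1 hX (nd_not_isolated hS hnd hX) hY hx
      (by rw [eq_inv_of_mul_eq_one_left e]; exact inv_mem hy) hx1)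
  have hAH : A ≤ H := by
    obtain ⟨C, hC⟩ := nd_line hS hnd hA
    intro a ha
    by_cases ha1 : a = 1
    · rw [ha1]; exact one_mem _
    obtain ⟨c, hc, hc1⟩ := exists_mem_ne_one hS.1 hC.1.1
    obtain ⟨M, hM, hx⟩ := hC.2.2.1 (a * c) (mul_mem (le_sup_left (α := Subgroup G) ha)
      (le_sup_right (α := Subgroup G) hc)) (hne1 hA hC.1.1 hC.1.2.1.symm ha ha1 hc)
    have hMA : M ≠ A := by
      rintro rfl
      exact hC.1.2.1 (eq_of_inter hS.1 hA (nd_not_isolated hS hnd hA) hC.1.1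
        (show c ∈ M by simpa using mul_mem (inv_mem ha) hx) hc hc1).symm
    have := mul_mem (hle M (nd_line_member hS hnd hA hC hM hMA).2 hx) (inv_mem (hle C hC hc))
    simpa using this
  let Δ : Set (Subgroup G) := {X | ∃ g ∈ H, X = conjBy A g}
  have hΔ : ∀ X ∈ Δ, ∀ g ∈ H, conjBy X g ∈ Δ := by
    rintro X ⟨h, hh, rfl⟩ g hg
    exact ⟨g * h, mul_mem hg hh, cb_cb A g h⟩
  have hAΔ : A ∈ Δ := ⟨1, one_mem _, (cb_one A).symm⟩
  -- every line partner of `A` is conjugate to `A` inside `H`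
  have hconj : ∀ C ∈ linePartners S A, C ∈ Δ := by
    intro C hC
    obtain ⟨E, hE, hsupE, hEl, hEB, hcase, hEeq⟩ := nd_opposite hS hnd hA hB.1 hB.2 hC
    have hR : ⁅E, B⁆ ≤ H := (Subgroup.commutator_mono (hle E hEl) hBH).trans
      (Subgroup.commutator_le_self H)
    have hmem := (Cfsg.Agent.S5029.result hS.1 (nd_not_isolated hS hnd hA) hA hEB.1 hcase.1).1
    rw [← hEeq, hsupE] at hmem
    have hother : ∀ M ∈ membersIn S (A ⊔ C), M ≠ E → M ∈ Δ := by
      intro M hM hME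
      rw [hmem] at hM
      rcases hM with ⟨g, hg, rfl⟩ | hM
      · exact hΔ A hAΔ g (hR hg)
      · exact absurd hM hME
    by_cases hCE : C = E
    · subst hCE
      obtain ⟨T, hT, hCT, hCTA⟩ := nd_triangle hS hnd hA hC
      obtain ⟨t, ht, ht1⟩ := exists_mem_ne_one hS.1 hT.1.1
      have hCl : conjBy C t ∈ membersIn S (A ⊔ C) := by
        refine ⟨hS.1.conj_mem C hC.1.1 t, ?_⟩
        have := case_cb_le (case_symm hCT) ht
        rwa [Subgroup.commutator_comm, hCTA, sup_comm] at this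
      have hne : conjBy C t ≠ C := by
        intro e
        obtain ⟨c, hc, hc1⟩ := exists_mem_ne_one hS.1 hC.1.1
        refine ht1 (case_injective hS.1 hC.1.1 (nd_not_isolated hS hnd hC.1.1) hCT hc hc1 ht ?_)
        by_contra hne'
        have h1 : ⁅c, t⁆ ∈ C := by
          have h' := mul_mem hc (e ▸ cb_mem t (inv_mem hc))
          simpa [commutatorElement_def, mul_assoc] using h'
        exact hC.1.2.1 (eq_of_inter hS.1 hC.1.1 (nd_not_isolated hS hnd hC.1.1) hA h1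
          (hCTA ▸ Subgroup.commutator_mem_commutator hc ht) hne')
      have := hΔ _ (hother _ hCl hne) t⁻¹ (inv_mem (hle T hT ht))
      rwa [cb_cb, inv_mul_cancel, cb_one] at this
    · exact hother C ⟨hC.1.1, le_sup_right⟩ hCE
  -- closure along lines
  have hstep : ∀ X ∈ S, ∀ g : G, g ∈ H → X = conjBy A g → ∀ Y ∈ linePartners S X, ∃ g' ∈ H, Y = conjBy A g' := by
    intro X _ g hg hX Y hY
    subst hX
    have hY' := linePartners_cb hS.1 hY g⁻¹
    rw [cb_cb, inv_mul_cancel, cb_one] at hY'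
    obtain ⟨h', hh', e⟩ := hconj _ hY'
    refine ⟨g * h', mul_mem hg hh', ?_⟩
    rw [← cb_cb, ← e, cb_cb, mul_inv_cancel, cb_one]
  rw [eq_top_iff, ← hS.1.generates]
  refine iSup₂_le fun X hX => ?_
  suffices hXg : ∃ g ∈ H, X = conjBy A g by
    obtain ⟨g, hg, rfl⟩ := hXg
    exact cb_le_of_le hAH hg
  have hp := nd_eConnected hS hnd A hA X hX
  clear hX
  induction hp with
  | refl => exact ⟨1, one_mem _, (cb_one A).symm⟩
  | tail _ h ih =>
    obtain ⟨g, hg, e⟩ := ih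
    exact hstep _ h.1 g hg e _ h.2.2

end NonDegenerate

end Cfsg.Agent.Fischer
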