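/-
Odd transpositions with a connected commuting graph: two members with product of odd order
have a common commuting member.
-/
import Mathlib

set_option autoImplicit false
set_option linter.unusedSectionVars false

namespace Cfsg.Agent.Fischer.OddDiam

universe u

variable {G : Type u} [Group G] [Finite G]

/-- A conjugation invariant set of involutions, two members commuting or having product of odd order. -/
structure OT (D : Set G) : Prop where
  sq : ∀ d ∈ D, d * d = 1
  ne : ∀ d ∈ D, d ≠ 1
  conj : ∀ d ∈ D, ∀ g : G, g * d * g⁻¹ ∈ D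
  pair : ∀ a ∈ D, ∀ b ∈ D, Commute a b ∨ Odd (orderOf (a * b))

/-- Two commuting members whose product is a member. -/
structure Partner (D : Set G) (a b : G) : Prop where
  left : a ∈ D
  right : b ∈ D
  comm : Commute a b
  prod : a * b ∈ D

theorem inv_of_sq {z : G} (hz : z * z = 1) : z⁻¹ = z := inv_eq_of_mul_eq_one_right hz

theorem sq_mul {a b : G} (ha : a * a = 1) (hb : b * b = 1) (h : Commute a b) :
    a * b * (a * b) = 1 := by
  rw [h.symm.mul_mul_mul_comm, ha, hb, mul_one]

theorem comm_of_sq {a b : G} (ha : a * a = 1) (hb : b * b = 1) (h : a * b * (a * b) = 1) :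
    Commute a b := by
  have h1 := inv_of_sq h
  rw [mul_inv_rev, inv_of_sq ha, inv_of_sq hb] at h1
  exact h1.symm

theorem conj_invol {z a b : G} (hz : z * z = 1) (h : Commute a b) :
    Commute (z * a * z) (z * b * z) := by
  show z * a * z * (z * b * z) = z * b * z * (z * a * z)
  calc z * a * z * (z * b * z) = z * a * (z * z) * b * z := by group
    _ = z * (a * b) * z := by rw [hz]; group
    _ = z * (b * a) * z := by rw [h.eq]
    _ = z * b * (z * z) * a * z := by rw [hz]; group
    _ = z * b * z * (z * a * z) := by group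

theorem conj_twice {z : G} (hz : z * z = 1) (a : G) : z * (z * a * z) * z = a := by
  calc z * (z * a * z) * z = z * z * a * (z * z) := by group
    _ = a := by rw [hz]; group

theorem comm_iff_fix {z a : G} (hz : z * z = 1) : Commute z a ↔ z * a * z = a := by
  constructor
  · intro h
    rw [h.eq, mul_assoc, hz, mul_one]
  · intro h
    show z * a = a * z
    calc z * a = z * a * (z * z) := by rw [hz, mul_one]
      _ = z * a * z * z := by group
      _ = a * z := by rw [h]

variable {D : Set G}

theorem OT.conjInv (hD : OT D) {z d : G} (hz : z * z = 1) (hd : d ∈ D) : z * d * z ∈ D := by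
  have := hD.conj d hd z
  rwa [inv_of_sq hz] at this

theorem OT.eq_of_odd (hD : OT D) {a b : G} (ha : a ∈ D) (hb : b ∈ D)
    (ho : Odd (orderOf (a * b))) {k : ℕ} (hk : (a * b) ^ (2 ^ k) = 1) : Commute a b := by
  have h1 : orderOf (a * b) = 1 :=
    Nat.eq_one_of_dvd_coprimes (Nat.Coprime.pow_right k (Nat.coprime_two_right.mpr ho)) dvd_rfl
      (orderOf_dvd_of_pow_eq_one hk)
  rw [orderOf_eq_one_iff, mul_eq_one_iff_eq_inv, inv_of_sq (hD.sq b hb)] at h1
  rw [h1]

theorem comm_of_comm_sq {w h : G} (ho : Odd (orderOf h)) (hw : Commute w (h * h)) : Commute w h := by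
  obtain ⟨m, hm⟩ := ho
  have e : h = (h * h) ^ (m + 1) := by
    rw [← pow_two, ← pow_mul, show 2 * (m + 1) = orderOf h + 1 by omega, pow_succ,
      pow_orderOf_eq_one, one_mul]
  rw [e]
  exact hw.pow_right _

/-- An involution centralising `u` and `v` and carrying `u` into `D` forces `u`, `v` to commute. -/
theorem OT.comm_of_mul (hD : OT D) {u v i : G} (hu : u ∈ D) (hv : v ∈ D) (hi : i * i = 1)
    (hi1 : i ≠ 1) (hiu : Commute i u) (hiv : Commute i v) (hm : u * i ∈ D) : Commute u v := by
  rcases hD.pair u hu v hv with h | hodd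
  · exact h
  rcases hD.pair _ hm v hv with h | hodd'
  · have h2 := h.mul_left hiv
    rwa [mul_assoc, hi, mul_one] at h2
  have hc : Commute i (u * v) := hiu.mul_right hiv
  have e : u * i * v = i * (u * v) := by rw [← hiu.eq, mul_assoc]
  have ho : orderOf i = 2 := orderOf_eq_prime (by rw [pow_two, hi]) hi1
  rw [e, hc.orderOf_mul_eq_mul_orderOf_of_coprime (by
    rw [ho]; exact Nat.coprime_two_left.mpr hodd), ho] at hodd'
  exact absurd hodd' (by simp [parity_simps])

/-- Partners have the same commuting members. -/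
theorem Partner.twin (hD : OT D) {a b v : G} (h : Partner D a b) (hv : v ∈ D) :
    Commute v a ↔ Commute v b := by
  constructor
  · intro hva
    exact (hD.comm_of_mul h.right hv (hD.sq a h.left) (hD.ne a h.left) h.comm hva.symm
      (by rw [← h.comm.eq]; exact h.prod)).symm
  · intro hvb
    exact (hD.comm_of_mul h.left hv (hD.sq b h.right) (hD.ne b h.right) h.comm.symm hvb.symm h.prod).symm

theorem Partner.symm {a b : G} (h : Partner D a b) : Partner D b a :=
  ⟨h.right, h.left, h.comm.symm, by rw [← h.comm.eq]; exact h.prod⟩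

theorem Partner.conjInv (hD : OT D) {z a b : G} (hz : z * z = 1) (h : Partner D a b) :
    Partner D (z * a * z) (z * b * z) := by
  refine ⟨hD.conjInv hz h.left, hD.conjInv hz h.right, conj_invol hz h.comm, ?_⟩
  have e : z * a * z * (z * b * z) = z * (a * b) * z := by
    calc z * a * z * (z * b * z) = z * a * (z * z) * b * z := by group
      _ = z * (a * b) * z := by rw [hz]; group
  rw [e]
  exact hD.conjInv hz h.prod

/-- Commuting with a product of two different commuting members means commuting with both. -/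
theorem OT.split (hD : OT D) {a b v : G} (ha : a ∈ D) (hb : b ∈ D) (hv : v ∈ D)
    (hab : Commute a b) (hne : a ≠ b) (h : Commute v (a * b)) : Commute v a ∧ Commute v b := by
  have ha2 := hD.sq a ha
  have hab1 : a * b ≠ 1 := by
    rw [Ne, mul_eq_one_iff_eq_inv, inv_of_sq (hD.sq b hb)]
    exact hne
  have e : a * (a * b) = b := by rw [← mul_assoc, ha2, one_mul]
  have h1 : Commute a v := hD.comm_of_mul ha hv (sq_mul ha2 (hD.sq b hb) hab) hab1
    ((Commute.refl a).mul_left hab.symm) h.symm (by rw [e]; exact hb)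
  refine ⟨h1.symm, ?_⟩
  rw [← e]
  exact h1.symm.mul_right h

/-- The central involution of a dihedral group `⟨z, v⟩`. -/
theorem OT.central (hD : OT D) {z v : G} (hz : z * z = 1) (hv : v ∈ D)
    (hbad : ¬ Commute v (z * v * z)) :
    ∃ i : G, i * i = 1 ∧ Commute i z ∧ Commute i v ∧ i * z ∈ D ∧
      ∀ w : G, Commute w z → Commute w v → Commute w i := by
  have hm := hD.conjInv hz hv
  have hodd : Odd (orderOf (z * v * z * v)) := (hD.pair _ hm _ hv).resolve_left (fun h => hbad h.symm)
  set r := z * v with hr
  have hr2 : r ^ 2 = z * v * z * v := by rw [hr, pow_two]; group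
  rw [← hr2] at hodd
  obtain ⟨k, hk⟩ := hodd
  set i := r ^ (2 * k + 1) with hidef
  have hi : i * i = 1 := by
    rw [hidef, ← hk, ← pow_add, show orderOf (r ^ 2) + orderOf (r ^ 2) = 2 * orderOf (r ^ 2) by omega,
      pow_mul, pow_orderOf_eq_one]
  have hv2 := hD.sq v hv
  have hzr : z * r * z = r⁻¹ := by
    rw [hr, mul_inv_rev, inv_of_sq hz, inv_of_sq hv2, ← mul_assoc, hz, one_mul]
  have hzpow : ∀ n : ℕ, z * r ^ n * z = (r ^ n)⁻¹ := fun n => by
    have h := (map_pow (MulAut.conj z) r n)
    simp only [MulAut.conj_apply, inv_of_sq hz] at h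
    rw [h, hzr, inv_pow]
  have hiz : Commute i z :=
    ((comm_iff_fix hz).mpr (by rw [hidef, hzpow, ← hidef, inv_of_sq hi])).symm
  have hir : Commute i r := (Commute.refl r).pow_left _
  have ev : z * r = v := by rw [hr, ← mul_assoc, hz, one_mul]
  refine ⟨i, hi, hiz, ?_, ?_, fun w hwz hwv => (hwz.mul_right hwv).pow_right _⟩
  · rw [← ev]
    exact hiz.mul_right hir
  · have e : i * z = r ^ k * (z * v * z) * (r ^ k)⁻¹ := by
      rw [← hzpow k, hidef, show 2 * k + 1 = k + (1 + k) by omega, pow_add, pow_add, pow_one]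
      calc r ^ k * (r * r ^ k) * z = r ^ k * r * (r ^ k * z) := by group
        _ = r ^ k * r * (z * z) * (r ^ k * z) := by rw [hz, mul_one]
        _ = r ^ k * (r * z) * (z * r ^ k * z) := by group
    rw [e]
    exact hD.conj _ hm _

/-- Two commuting involutions with product in `D` are not both bad at a member. -/
theorem OT.not_both (hD : OT D) {z c v : G} (hz : z * z = 1) (hc : c ∈ D) (hzc : Commute z c)
    (hv : v ∈ D) (hcv : ¬ Commute c v) (h1 : Commute v (z * v * z))
    (h2 : Commute v (z * c * v * (z * c))) : False := by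
  have hc2 := hD.sq c hc
  set w := z * v * z with hw
  have h3 : Commute w (c * v * c) := by
    have e : z * c * v * (z * c) = c * w * c := by
      rw [hw]
      calc z * c * v * (z * c) = (z * c) * v * (z * c) := rfl
        _ = c * z * v * (z * c) := by rw [hzc.eq]
        _ = c * (z * v * z) * c := by group
    rw [e] at h2
    have := (conj_invol hc2 h2).symm
    rwa [conj_twice hc2] at this
  have hodd : Odd (orderOf (c * v)) := (hD.pair c hc v hv).resolve_left hcv
  have h4 : Commute w (c * v) := comm_of_comm_sq hodd (by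
    rw [show c * v * (c * v) = c * v * c * v by group]
    exact h3.mul_right h1.symm)
  have h5 : Commute w c := by
    have := h4.mul_right h1.symm
    rwa [mul_assoc, hD.sq v hv, mul_one] at this
  have h6 := conj_invol hz h5
  rw [hw, conj_twice hz, (comm_iff_fix hz).mp hzc] at h6
  exact hcv h6.symm

/-- Half of the configuration of a path `d, e, x, y`. -/
structure Half (D : Set G) (d e x y i q : G) : Prop where
  sq : i * i = 1
  qmem : q ∈ D
  qd : Commute q d
  qe : Commute q e
  eq : i = q * (d * e)
  id' : Commute i d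
  ie : Commute i e
  iy : Commute i y
  central : ∀ w : G, Commute w d → Commute w e → Commute w y → Commute w i
  pp : Commute (i * x * i) x
  pne : i * x * i ≠ x
  fix : ∀ v ∈ D, Commute v i → Commute v e → Commute v d

/-- A path of length three without shortcut. -/
structure Path (D : Set G) (d e x y x₂ e₂ : G) : Prop where
  ot : OT D
  hd : d ∈ D
  hy : y ∈ D
  de : Commute d e
  ex : Commute e x
  xy : Commute x y
  px : Partner D x x₂
  pe : Partner D e e₂
  none : ∀ w ∈ D, Commute w d → ¬ Commute w y
  good₁ : ¬ Commute y (d * e * y * (d * e))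
  good₂ : ¬ Commute d (y * x * d * (y * x))

variable {d e x y x₂ e₂ : G}

theorem Path.rev (h : Path D d e x y x₂ e₂) : Path D y x e d e₂ x₂ :=
  ⟨h.ot, h.hy, h.hd, h.xy.symm, h.ex.symm, h.de.symm, h.pe, h.px,
    fun w hw hwy hwd => h.none w hw hwd hwy, h.good₂, h.good₁⟩

theorem Path.dy (h : Path D d e x y x₂ e₂) : ¬ Commute d y := h.none d h.hd (Commute.refl d)

theorem Path.dx (h : Path D d e x y x₂ e₂) : ¬ Commute d x :=
  fun hc => h.none x h.px.left hc.symm h.xy

theorem Path.ey (h : Path D d e x y x₂ e₂) : ¬ Commute e y := h.none e h.pe.left h.de.symm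

theorem Path.exists_half (h : Path D d e x y x₂ e₂) : ∃ i q : G, Half D d e x y i q := by
  have hD := h.ot
  have hd2 := hD.sq d h.hd
  have he2 := hD.sq e h.pe.left
  have hne : d ≠ e := fun he => h.dx (he ▸ h.ex)
  obtain ⟨i, hi, hiz, hiy, hq, hcen⟩ := hD.central (sq_mul hd2 he2 h.de) h.hy h.good₁
  have hcen' : ∀ w : G, Commute w d → Commute w e → Commute w y → Commute w i :=
    fun w a b c => hcen w (a.mul_right b) c
  set q := i * (d * e) with hqdef
  have hqz : Commute q (d * e) := hiz.mul_left (Commute.refl _)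
  obtain ⟨hqd, hqe⟩ := hD.split h.hd h.pe.left hq h.de hne hqz
  have heq : i = q * (d * e) := by
    rw [hqdef, mul_assoc i, sq_mul hd2 he2 h.de, mul_one]
  have hid : Commute i d := by
    rw [heq]; exact hqd.mul_left ((Commute.refl d).mul_left h.de.symm)
  have hie : Commute i e := by
    rw [heq]; exact hqe.mul_left (h.de.mul_left (Commute.refl e))
  have hqne : q ≠ d := by
    intro hh
    have : i = e := by rw [heq, hh, ← mul_assoc, hd2, one_mul]
    exact h.ey (this ▸ hiy)
  have hfix : ∀ v ∈ D, Commute v i → Commute v e → Commute v d := by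
    intro v hv hvi hve
    have e1 : i * e = q * d := by rw [heq, mul_assoc, mul_assoc d, he2, mul_one]
    have h1 : Commute v (q * d) := e1 ▸ hvi.mul_right hve
    exact (hD.split hq h.hd hv hqd hqne h1).2
  have hpx : Commute (i * x * i) x := by
    by_contra hc
    obtain ⟨j, hj, hji, hjx, hu, hjc⟩ := hD.central hi h.px.left (fun hh => hc hh.symm)
    have hue : Commute (j * i) e := (hjc e hie.symm h.ex).symm.mul_left hie
    have huy : Commute (j * i) y := (hjc y hiy.symm h.xy.symm).symm.mul_left hiy
    exact h.none _ hu (hfix _ hu (hji.mul_left (Commute.refl i)) hue) huy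
  refine ⟨i, q, hi, hq, hqd, hqe, heq, hid, hie, hiy, hcen', hpx, ?_, hfix⟩
  intro hh
  exact h.dx (hfix x h.px.left ((comm_iff_fix hi).mpr hh).symm h.ex.symm).symm

/-- Without an involution centralising the path, `x₂` and the image of `x` are partners. -/
theorem Path.degenerate (h : Path D d e x y x₂ e₂) {i q : G} (H : Half D d e x y i q)
    (kill : ∀ L : G, L * L = 1 → L ≠ 1 → Commute L d → Commute L e → Commute L x → Commute L y →
      Commute L x₂ → Commute L e₂ → False) :
    x₂ * (i * x * i) ∈ D := by
  have hD := h.ot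
  have hi := H.sq
  have hx := h.px.left
  have hx₂ := h.px.right
  have he := h.pe.left
  have hd := h.hd
  set p := i * x * i with hpdef
  have hp : p ∈ D := hD.conjInv hi hx
  have hxp : Commute x p := H.pp.symm
  have hx₂p : Commute x₂ p := ((h.px.twin hD hp).mp hxp.symm).symm
  have hpe : Commute p e := (H.ie.mul_left h.ex.symm).mul_left H.ie
  have hpy : Commute p y := (H.iy.mul_left h.xy).mul_left H.iy
  have hx₂e : Commute x₂ e := ((h.px.twin hD he).mp h.ex).symm
  have hx₂y : Commute x₂ y := ((h.px.twin hD h.hy).mp h.xy.symm).symm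
  by_contra hz
  set j := x * p with hjdef
  have hj : j * j = 1 := sq_mul (hD.sq x hx) (hD.sq p hp) hxp
  have hje : Commute j e := h.ex.symm.mul_left hpe
  have hjy : Commute j y := h.xy.mul_left hpy
  have hji : Commute j i := by
    refine ((comm_iff_fix hi).mpr ?_).symm
    rw [hjdef]
    calc i * (x * p) * i = i * x * (i * i) * p * i := by rw [hi]; group
      _ = p * (i * p * i) := by rw [hpdef]; group
      _ = p * x := by rw [hpdef, conj_twice hi]
      _ = x * p := hxp.symm.eq
  have hjd : ¬ Commute d j := fun hc => h.dx (hD.split hx hp hd hxp H.pne.symm hc).1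
  set d' := j * d * j with hd'def
  have hd' : d' ∈ D := hD.conjInv hj hd
  have hdd' : Commute d d' := by
    by_contra hc
    obtain ⟨i₃, hi₃, hi₃j, hi₃d, hu, hcen⟩ := hD.central hj hd hc
    set u := i₃ * j with hudef
    have huj : Commute u j := hi₃j.mul_left (Commute.refl j)
    have hui : Commute u i := (hcen i hji.symm H.id').symm.mul_left hji
    have hue : Commute u e := (hcen e hje.symm h.de.symm).symm.mul_left hje
    have hud := H.fix u hu hui hue
    have e1 : j = i₃ * u := by rw [hudef, ← mul_assoc, hi₃, one_mul]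
    exact hjd (e1 ▸ hi₃d.symm.mul_right hud.symm)
  have hdne : d ≠ d' := fun hh => hjd ((comm_iff_fix hj).mpr hh.symm).symm
  set z := x₂ * p with hzdef
  have hz2 : z * z = 1 := sq_mul (hD.sq _ hx₂) (hD.sq p hp) hx₂p
  have hgood : ¬ Commute d (z * d * z) := by
    intro hb
    have e1 : j * (x * x₂) = z := by
      rw [hjdef, hzdef]
      calc x * p * (x * x₂) = x * (p * x) * x₂ := by group
        _ = x * (x * p) * x₂ := by rw [hxp.eq]
        _ = (x * x) * (p * x₂) := by group
        _ = x₂ * p := by rw [hD.sq x hx, one_mul, hx₂p.eq]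
    refine hD.not_both hj h.px.prod ?_ hd ?_ hdd' (by rw [e1]; exact hb)
    · exact ((Commute.refl x).mul_left hxp.symm).mul_right (h.px.comm.mul_left hx₂p.symm)
    · intro hc
      have h3 : Partner D x (x * x₂) := ⟨hx, h.px.prod, (Commute.refl x).mul_right h.px.comm,
        by rw [← mul_assoc, hD.sq x hx, one_mul]; exact hx₂⟩
      exact h.dx ((h3.twin hD hd).mpr hc.symm)
  obtain ⟨L, hL, hLz, hLd, hu, hcen⟩ := hD.central hz2 hd hgood
  set u := L * z with hudef
  have hLu : L = u * z := by rw [hudef, mul_assoc, hz2, mul_one]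
  have hx₂ne : x₂ ≠ p := by
    intro hh
    have hm : x * x₂ ∈ D := h.px.prod
    rw [hh] at hm
    exact h.none _ hm (H.fix _ hm hji hje) hjy
  obtain ⟨hux₂, hup⟩ := hD.split hx₂ hp hu hx₂p hx₂ne (hLz.mul_left (Commute.refl z))
  have hux : Commute u x := (h.px.twin hD hu).mpr hux₂
  have hzx : Commute z x := h.px.comm.symm.mul_left hxp.symm
  have hzp : Commute z p := hx₂p.mul_left (Commute.refl p)
  have hLj : Commute L j := by
    rw [hLu]
    exact (hux.mul_right hup).mul_left (hzx.mul_right hzp)
  set g := d * d' with hgdef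
  have hg : g * g = 1 := sq_mul (hD.sq d hd) (hD.sq d' hd') hdd'
  have hLg : Commute L g := hLd.mul_right ((hLj.mul_right hLd).mul_right hLj)
  have hgj : Commute j g := by
    refine (comm_iff_fix hj).mpr ?_
    calc j * (d * d') * j = j * d * (j * j) * d' * j := by rw [hj]; group
      _ = d' * (j * d' * j) := by rw [hd'def]; group
      _ = d' * d := by rw [hd'def, conj_twice hj]
      _ = d * d' := hdd'.symm.eq
  have himg : ∀ w ∈ D, Commute w j → Commute (g * w * g) x ∧ Commute (g * w * g) p := fun w hw hwj =>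
    hD.split hx hp (hD.conjInv hg hw) hxp H.pne.symm
      ((hgj.symm.mul_left hwj).mul_left hgj.symm)
  obtain ⟨hxx, hxp'⟩ := himg x hx ((Commute.refl x).mul_right hxp)
  obtain ⟨hpx', hpp⟩ := himg p hp (hxp.symm.mul_right (Commute.refl p))
  obtain ⟨hyx, hyp⟩ := himg y h.hy hjy.symm
  have hgx : g * x * g ∈ D := hD.conjInv hg hx
  have hgp : g * p * g ∈ D := hD.conjInv hg hp
  have tw := fun {v : G} (hv : v ∈ D) => (h.px.conjInv hD hg).twin hD hv
  have hxx₂ : Commute (g * x₂ * g) x := ((tw hx).mp hxx.symm).symm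
  have hpx₂ : Commute (g * x₂ * g) p := ((tw hp).mp hxp'.symm).symm
  have hx₂x₂ : Commute (g * x₂ * g) x₂ :=
    ((tw hx₂).mp ((h.px.twin hD hgx).mp hxx).symm).symm
  have hpx₂' : Commute (g * p * g) x₂ := (h.px.twin hD hgp).mp hpx'
  have hygx : Commute y (g * x * g) := by
    have := conj_invol hg hyx; rwa [conj_twice hg] at this
  have hygp : Commute y (g * p * g) := by
    have := conj_invol hg hyp; rwa [conj_twice hg] at this
  have hygx₂ : Commute y (g * x₂ * g) := (tw h.hy).mp hygx
  set z' := g * z * g with hz'def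
  have hz'e : z' = g * x₂ * g * (g * p * g) := by
    rw [hz'def, hzdef]
    calc g * (x₂ * p) * g = g * x₂ * (g * g) * p * g := by rw [hg]; group
      _ = g * x₂ * g * (g * p * g) := by group
  have hz'2 : z' * z' = 1 := by
    rw [hz'e]
    exact sq_mul (hD.sq _ (hD.conjInv hg hx₂)) (hD.sq _ hgp) (conj_invol hg hx₂p)
  have hzz' : Commute z z' := by
    rw [hz'e]
    exact (hx₂x₂.symm.mul_right hpx₂'.symm).mul_left (hpx₂.symm.mul_right hpp.symm)
  have hyzz : Commute y (z * z') := by
    rw [hz'e]
    exact (hx₂y.symm.mul_right hpy.symm).mul_right (hygx₂.mul_right hygp)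
  set u' := g * u * g with hu'def
  have hu' : u' ∈ D := hD.conjInv hg hu
  have hrel : u' * z' = u * z := by
    rw [← hLu, ← (comm_iff_fix hg).mp hLg.symm, hLu, hu'def, hz'def]
    calc g * u * g * (g * z * g) = g * u * (g * g) * z * g := by group
      _ = g * (u * z) * g := by rw [hg]; group
  have huu : u * u' = z * z' := by
    have e1 : u' = u * z * z' := by rw [← hrel, mul_assoc, hz'2, mul_one]
    rw [e1, ← mul_assoc u (u * z) z', ← mul_assoc u u z, hD.sq u hu, one_mul]
  have hcuu : Commute u u' := comm_of_sq (hD.sq u hu) (hD.sq _ hu')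
    (by rw [huu]; exact sq_mul hz2 hz'2 hzz')
  have hune : u ≠ u' := by
    intro hh
    have h1 : Commute u g := ((comm_iff_fix hg).mpr hh.symm).symm
    have h2 := (hD.split hd hd' hu hdd' hdne h1).1
    have e1 : z = u * L := by rw [hLu, ← mul_assoc, hD.sq u hu, one_mul]
    have h3 : Commute d z := e1 ▸ h2.symm.mul_right hLd.symm
    exact h.dx ((h.px.twin hD hd).mpr (hD.split hx₂ hp hd hx₂p hx₂ne h3).1)
  have hyu : Commute y u := (hD.split hu hu' h.hy hcuu hune (by rw [huu]; exact hyzz)).1
  have he₂x₂ : Commute e₂ x₂ := ((h.pe.twin hD hx₂).mp hx₂e).symm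
  have he₂p : Commute e₂ p := ((h.pe.twin hD hp).mp hpe).symm
  have he₂d : Commute e₂ d := ((h.pe.twin hD hd).mp h.de).symm
  refine kill L hL ?_ hLd ?_ ?_ ?_ ?_ ?_
  · intro h1
    apply hz
    rw [hudef, h1, one_mul] at hu
    exact hu
  · exact (hcen e (hx₂e.symm.mul_right hpe.symm) h.de.symm).symm
  · rw [hLu]; exact hux.mul_left hzx
  · rw [hLu]; exact hyu.symm.mul_left (hx₂y.mul_left hpy)
  · rw [hLu]; exact hux₂.mul_left ((Commute.refl x₂).mul_left hx₂p.symm)
  · exact (hcen e₂ (he₂x₂.mul_right he₂p) he₂d).symm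

/-- A path without shortcut is centralised by an involution. -/
theorem Path.exists_kill (h : Path D d e x y x₂ e₂)
    (kill : ∀ L : G, L * L = 1 → L ≠ 1 → Commute L d → Commute L e → Commute L x → Commute L y →
      Commute L x₂ → Commute L e₂ → False) : False := by
  have hD := h.ot
  obtain ⟨i, q, H⟩ := h.exists_half
  obtain ⟨k, m, K⟩ := h.rev.exists_half
  have hdeg := h.degenerate H kill
  have hdeg' := h.rev.degenerate K (fun L a b c d' e' f g g' => kill L a b f e' d' c g' g)
  have hx := h.px.left
  have hx₂ := h.px.right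
  have he := h.pe.left
  have hi := H.sq
  have hk := K.sq
  set p := i * x * i with hpdef
  set r := k * e * k with hrdef
  have hp : p ∈ D := hD.conjInv hi hx
  have hr : r ∈ D := hD.conjInv hk he
  have hPp : Partner D x₂ p :=
    ⟨hx₂, hp, ((h.px.twin hD hp).mp H.pp).symm, hdeg⟩
  have hPr : Partner D e₂ r :=
    ⟨h.pe.right, hr, ((h.pe.twin hD hr).mp K.pp).symm, hdeg'⟩
  have twp : ∀ v ∈ D, Commute v x → Commute v p :=
    fun v hv hvx => (hPp.twin hD hv).mp ((h.px.twin hD hv).mp hvx)
  have twr : ∀ v ∈ D, Commute v e → Commute v r :=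
    fun v hv hve => (hPr.twin hD hv).mp ((h.pe.twin hD hv).mp hve)
  have hrd : Commute r d := (twr d h.hd h.de).symm
  have hqr : Commute q r := twr q H.qmem H.qe
  have hre : Commute r e := K.pp
  have hrx : Commute r x := (K.ie.mul_left h.ex).mul_left K.ie
  have hir : Commute i r := by
    rw [H.eq]
    exact hqr.mul_left (hrd.symm.mul_left hre.symm)
  have hkp : Commute k p := by
    rw [K.eq]
    exact (twp m K.qmem K.qe).mul_left
      ((twp y h.hy h.xy.symm).mul_left (twp x hx (Commute.refl x)))
  set i' := k * i * k with hi'def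
  have hkd : Commute k d := K.iy
  have hi'd : Commute i' d := (hkd.mul_left H.id').mul_left hkd
  have hi'y : Commute i' y := (K.id'.mul_left H.iy).mul_left K.id'
  have hi'e : Commute i' e := by
    have := conj_invol hk hir
    rwa [hrdef, conj_twice hk] at this
  have hii' : Commute i i' := (H.central i' hi'd hi'e hi'y).symm
  have hi'2 : i' * i' = 1 := by
    rw [hi'def, show k * i * k * (k * i * k) = k * i * (k * k) * i * k by group, hk, mul_one,
      mul_assoc k i i, hi, mul_one, hk]
  set M := i * i' with hMdef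
  have hM : M * M = 1 := sq_mul hi hi'2 hii'
  have hMy : Commute M y := H.iy.mul_left hi'y
  have hMx : Commute M x := by
    refine (comm_iff_fix hM).mpr ?_
    have hkx : k * x * k = x := (comm_iff_fix hk).mp K.ie
    calc M * x * M = (i * i') * x * (i' * i) := by rw [hMdef]; nth_rw 2 [hii'.eq]
      _ = i * (k * (i * (k * x * k) * i) * k) * i := by rw [hi'def]; group
      _ = i * (k * p * k) * i := by rw [hkx]
      _ = i * p * i := by rw [(comm_iff_fix hk).mp hkp]
      _ = x := conj_twice hi x
  set q' := k * q * k with hq'def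
  have hq' : q' ∈ D := hD.conjInv hk H.qmem
  have hq'd : Commute q' d := (hkd.mul_left H.qd).mul_left hkd
  have hq'r : Commute q' r := conj_invol hk H.qe
  have hi'eq : i' = q' * (d * r) := by
    rw [hi'def, H.eq, hq'def, hrdef]
    calc k * (q * (d * e)) * k = k * q * (k * k) * d * (k * k) * e * k := by rw [hk]; group
      _ = k * q * k * (k * d * k * (k * e * k)) := by group
      _ = k * q * k * (d * (k * e * k)) := by rw [(comm_iff_fix hk).mp hkd]
  have hq'e : Commute q' e := by
    have h1 : Commute (i' * (d * r)) e := hi'e.mul_left (h.de.mul_left hre)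
    rwa [hi'eq, mul_assoc q', sq_mul (hD.sq d h.hd) (hD.sq r hr) hrd.symm, mul_one] at h1
  have hMeq : M = q * q' * (e * r) := by
    rw [hMdef, hi'eq, H.eq]
    calc q * (d * e) * (q' * (d * r)) = q * ((d * e) * q') * (d * r) := by group
      _ = q * (q' * (d * e)) * (d * r) := by rw [(hq'd.mul_right hq'e).eq]
      _ = q * q' * (d * (e * d) * r) := by group
      _ = q * q' * (d * (d * e) * r) := by rw [h.de.eq]
      _ = q * q' * ((d * d) * e * r) := by group
      _ = q * q' * (e * r) := by rw [hD.sq d h.hd, one_mul]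
  have her : Commute e r := hre.symm
  have her2 : e * r * (e * r) = 1 := sq_mul (hD.sq e he) (hD.sq r hr) her
  have hc : Commute (q * q') (e * r) :=
    (H.qe.mul_left hq'e).mul_right (hqr.mul_left hq'r)
  have hqq : Commute q q' := comm_of_sq (hD.sq q H.qmem) (hD.sq q' hq') (by
    have := hM
    rwa [hMeq, hc.symm.mul_mul_mul_comm, her2, mul_one] at this)
  by_cases hqe' : q = q'
  · rw [← hqe', hD.sq q H.qmem, one_mul] at hMeq
    exact h.ey (hD.split he hr h.hy her K.pne.symm (hMeq ▸ hMy.symm)).1.symm
  · have h1 : Commute x (q * q') := by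
      have h2 : Commute x (M * (e * r)) := hMx.symm.mul_right (h.ex.symm.mul_right hrx.symm)
      rwa [hMeq, mul_assoc (q * q'), her2, mul_one] at h2
    have hxq := (hD.split H.qmem hq' hx hqq hqe' h1).1
    have e1 : p = d * x * d := by
      rw [hpdef, H.eq]
      calc q * (d * e) * x * (q * (d * e)) = q * d * (e * x) * q * (d * e) := by group
        _ = q * d * (x * e) * q * (d * e) := by rw [h.ex.eq]
        _ = q * d * x * (e * q) * (d * e) := by group
        _ = q * d * x * (q * e) * (d * e) := by rw [H.qe.eq]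
        _ = q * (d * x * q) * (e * (d * e)) := by group
        _ = q * (q * (d * x)) * (e * (d * e)) := by rw [(H.qd.mul_right hxq.symm).eq]
        _ = (q * q) * (d * x) * (e * (e * d)) := by rw [h.de.eq]; group
        _ = d * x * d := by rw [hD.sq q H.qmem, ← mul_assoc e e d, hD.sq e he, one_mul, one_mul]
    have h2 : Commute x (d * x * d * x) := Commute.mul_right (by rw [← e1]; exact H.pp.symm) (Commute.refl x)
    have h3 : Commute x (d * x) := comm_of_comm_sq ((hD.pair d h.hd x hx).resolve_left h.dx)
      (by rw [show d * x * (d * x) = d * x * d * x by group]; exact h2)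
    have h4 : Commute x (d * x * x) := h3.mul_right (Commute.refl x)
    rw [mul_assoc, hD.sq x hx, mul_one] at h4
    exact h.dx h4.symm

/-- No path of length three is without shortcut. -/
theorem no_path_aux : ∀ (n : ℕ) (G : Type u) [Group G] [Finite G] (D : Set G) (d e x y x₂ e₂ : G),
    Nat.card G = n → Path D d e x y x₂ e₂ → False := by
  intro n
  induction n using Nat.strong_induction_on with
  | _ n ih =>
    intro G _ _ D d e x y x₂ e₂ hn h
    have hD := h.ot
    refine h.exists_kill fun L hL hL1 hLd hLe hLx hLy hLx₂ hLe₂ => ?_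
    have hLD : L ∉ D := fun hm => h.none L hm hLd hLy
    by_cases hcen : ∀ g : G, Commute L g
    · set N := Subgroup.zpowers L with hN
      haveI hNn : N.Normal := ⟨fun a ha g => by
        obtain ⟨k, rfl⟩ := Subgroup.mem_zpowers_iff.mp ha
        rw [((hcen g).zpow_left k).symm.eq, mul_inv_cancel_right]
        exact ha⟩
      have hmemN : ∀ a ∈ N, a = 1 ∨ a = L := by
        intro a ha
        obtain ⟨k, rfl⟩ := Subgroup.mem_zpowers_iff.mp ha
        rcases Int.even_or_odd' k with ⟨c, rfl | rfl⟩
        · left; rw [zpow_mul, zpow_two, hL, one_zpow]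
        · right; rw [zpow_add, zpow_mul, zpow_two, hL, one_zpow, one_mul, zpow_one]
      let π := QuotientGroup.mk' N
      have lift : ∀ a ∈ D, ∀ b ∈ D, Commute (π a) (π b) → Commute a b := by
        intro a ha b hb hab
        rcases hD.pair a ha b hb with h1 | h1
        · exact h1
        refine hD.eq_of_odd ha hb h1 (k := 2) ?_
        have h2 : π ((a * b) * (a * b)) = 1 := by
          rw [map_mul, map_mul]
          exact sq_mul (by rw [← map_mul, hD.sq a ha, map_one])
            (by rw [← map_mul, hD.sq b hb, map_one]) hab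
        rw [← MonoidHom.mem_ker, QuotientGroup.ker_mk'] at h2
        rw [show (2 : ℕ) ^ 2 = 2 * 2 from rfl, pow_mul, pow_two, pow_two]
        rcases hmemN _ h2 with h3 | h3 <;> rw [h3]
        · rw [mul_one]
        · exact hL
      have hπ : Function.Surjective π := QuotientGroup.mk'_surjective N
      have hot : OT (π '' D) := by
        refine ⟨?_, ?_, ?_, ?_⟩
        · rintro _ ⟨a, ha, rfl⟩; rw [← map_mul, hD.sq a ha, map_one]
        · rintro _ ⟨a, ha, rfl⟩ h1
          rw [← MonoidHom.mem_ker, QuotientGroup.ker_mk'] at h1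
          rcases hmemN _ h1 with h2 | h2
          · exact hD.ne a ha h2
          · exact hLD (h2 ▸ ha)
        · rintro _ ⟨a, ha, rfl⟩ g
          obtain ⟨g, rfl⟩ := hπ g
          exact ⟨g * a * g⁻¹, hD.conj a ha g, by simp only [map_mul, map_inv]⟩
        · rintro _ ⟨a, ha, rfl⟩ _ ⟨b, hb, rfl⟩
          rcases hD.pair a ha b hb with h1 | h1
          · exact Or.inl (h1.map π)
          · right
            rw [← map_mul]
            exact Odd.of_dvd_nat h1 (orderOf_map_dvd π _)
      have part : ∀ {a b : G}, Partner D a b → Partner (π '' D) (π a) (π b) := fun {a b} hp =>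
        ⟨⟨a, hp.left, rfl⟩, ⟨b, hp.right, rfl⟩, hp.comm.map π, ⟨a * b, hp.prod, map_mul π a b⟩⟩
      refine ih (Nat.card (G ⧸ N)) ?_ (G ⧸ N) (π '' D) (π d) (π e) (π x) (π y) (π x₂) (π e₂) rfl
        ⟨hot, ⟨d, h.hd, rfl⟩, ⟨y, h.hy, rfl⟩, h.de.map π, h.ex.map π, h.xy.map π, part h.px, part h.pe,
          ?_, ?_, ?_⟩
      · rw [← hn, Subgroup.card_eq_card_quotient_mul_card_subgroup N]
        have h1 : 1 < Nat.card N := by
          rw [hN, Nat.card_zpowers, orderOf_eq_prime (by rw [pow_two, hL]) hL1]
          norm_num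
        have h2 : 0 < Nat.card (G ⧸ N) := Nat.card_pos
        exact lt_mul_of_one_lt_right h2 h1
      · rintro _ ⟨w, hw, rfl⟩ h1 h2
        exact h.none w hw (lift w hw d h.hd h1) (lift w hw y h.hy h2)
      · intro h1
        rw [← map_mul, ← map_mul, ← map_mul] at h1
        exact h.good₁ (lift y h.hy _ (hD.conjInv (sq_mul (hD.sq d h.hd) (hD.sq e h.pe.left) h.de) h.hy) h1)
      · intro h1
        rw [← map_mul, ← map_mul, ← map_mul] at h1
        exact h.good₂ (lift d h.hd _
          (hD.conjInv (sq_mul (hD.sq y h.hy) (hD.sq x h.px.left) h.xy.symm) h.hd) h1)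
    · set C := Subgroup.centralizer ({L} : Set G) with hC
      have mem : ∀ {g : G}, Commute L g → g ∈ C := fun {g} hg => by
        rw [hC, Subgroup.mem_centralizer_singleton_iff]; exact hg.eq.symm
      set D' : Set C := {a | (a : G) ∈ D} with hD'
      have down : ∀ {a b : C}, Commute a b → Commute (a : G) b := fun {a b} hab =>
        hab.map C.subtype
      have up : ∀ {a b : C}, Commute (a : G) b → Commute a b := fun {a b} hab =>
        Subtype.ext hab.eq
      have hot : OT D' := by
        refine ⟨fun a ha => Subtype.ext (hD.sq _ ha), fun a ha h1 => hD.ne _ ha (by rw [h1]; rfl),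
          fun a ha g => hD.conj _ ha g, fun a ha b hb => ?_⟩
        rcases hD.pair _ ha _ hb with h1 | h1
        · exact Or.inl (up h1)
        · exact Or.inr (by rwa [← Subgroup.orderOf_coe])
      refine ih (Nat.card C) ?_ C D' ⟨d, mem hLd⟩ ⟨e, mem hLe⟩ ⟨x, mem hLx⟩ ⟨y, mem hLy⟩
        ⟨x₂, mem hLx₂⟩ ⟨e₂, mem hLe₂⟩ rfl
        ⟨hot, h.hd, h.hy, up h.de, up h.ex, up h.xy,
          ⟨h.px.left, h.px.right, up h.px.comm, h.px.prod⟩,
          ⟨h.pe.left, h.pe.right, up h.pe.comm, h.pe.prod⟩,
          fun w hw h1 h2 => h.none _ hw (down h1) (down h2),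
          fun h1 => h.good₁ (down h1), fun h1 => h.good₂ (down h1)⟩
      rw [← hn]
      refine lt_of_le_of_ne (Finite.card_subtype_le _) fun heq => hcen fun g => ?_
      have htop := Subgroup.eq_top_of_card_eq C heq
      have hg : g ∈ C := htop ▸ Subgroup.mem_top g
      rw [hC, Subgroup.mem_centralizer_singleton_iff] at hg
      exact hg.symm

/-- Members joined by a commuting path have a common commuting member. -/
theorem exists_common (hD : OT D) (hpart : ∀ a ∈ D, ∃ b, Partner D a b) {a b : G} (ha : a ∈ D)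
    (hb : Relation.ReflTransGen (fun s t => s ∈ D ∧ t ∈ D ∧ Commute s t) a b) :
    ∃ w ∈ D, Commute w a ∧ Commute w b := by
  induction hb with
  | refl => exact ⟨a, ha, Commute.refl a, Commute.refl a⟩
  | @tail c b _ hcb ih =>
    obtain ⟨hc, hbD, hcb⟩ := hcb
    obtain ⟨e, he, hea, hec⟩ := ih
    by_contra hno
    push Not at hno
    obtain ⟨a₂, hA⟩ := hpart a ha
    obtain ⟨b₂, hB⟩ := hpart b hbD
    obtain ⟨x₂, hX⟩ := hpart c hc
    obtain ⟨e₂, hE⟩ := hpart e he
    -- replace an end of the path by a twin to avoid the degenerate product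
    have third : ∀ {s t : G}, Partner D s t → ∀ {v : G}, v ∈ D → ¬ Commute v s →
        ¬ Commute (s * t) v := fun {s t} hP {v} hv hvs hc' => by
      have h3 : Partner D s (s * t) := ⟨hP.left, hP.prod, (Commute.refl s).mul_right hP.comm,
        by rw [← mul_assoc, hD.sq s hP.left, one_mul]; exact hP.right⟩
      exact hvs ((h3.twin hD hv).mpr hc'.symm)
    have choose_end : ∀ {s t w v : G}, Partner D s t → w ∈ D → Commute s w → v ∈ D → ¬ Commute v s →
        ∃ s', s' ∈ D ∧ (∀ u ∈ D, Commute u s ↔ Commute u s') ∧ ¬ Commute v (s' * w * v * (s' * w)) := by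
      intro s t w v hP hw hsw hv hvs
      by_cases h1 : Commute v (s * w * v * (s * w))
      · refine ⟨t, hP.right, fun u hu => hP.twin hD hu, fun h2 => ?_⟩
        have htw : Commute w t := (hP.twin hD hw).mp hsw.symm
        have e1 : s * w * (s * t) = t * w := by
          calc s * w * (s * t) = s * (w * s) * t := by group
            _ = s * (s * w) * t := by rw [hsw.eq]
            _ = (s * s) * (w * t) := by group
            _ = t * w := by rw [hD.sq s hP.left, one_mul, htw.eq]
        refine hD.not_both (sq_mul (hD.sq s hP.left) (hD.sq w hw) hsw) hP.prod ?_ hv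
          (third hP hv hvs) h1 (by rw [e1]; exact h2)
        exact (((Commute.refl s).mul_left hsw.symm).mul_right (hP.comm.mul_left htw))
      · exact ⟨s, hP.left, fun u _ => Iff.rfl, h1⟩
    have hab : ¬ Commute b a := fun hh => hno a ha (Commute.refl a) hh.symm
    obtain ⟨d, hd, twd, hg1⟩ := choose_end hA he hea.symm hbD hab
    have hdb : ¬ Commute d b := fun hh => hab ((twd b hbD).mpr hh.symm)
    obtain ⟨y, hy, twy, hg2⟩ := choose_end hB hc hcb.symm hd hdb
    have hde : Commute d e := ((twd e he).mp hea).symm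
    have hz : d * e * (d * e) = 1 := sq_mul (hD.sq d hd) (hD.sq e he) hde
    refine no_path_aux (Nat.card G) G D d e c y x₂ e₂ rfl
      ⟨hD, hd, hy, hde, hec, (twy c hc).mp hcb, hX, hE,
        fun w hw hwd hwy => hno w hw ((twd w hw).mpr hwd) ((twy w hw).mpr hwy), ?_, hg2⟩
    intro h1
    apply hg1
    -- badness is a property of the twin class
    have h2 : Commute (d * e * y * (d * e)) b := (twy _ (hD.conjInv hz hy)).mpr h1.symm
    have h3 := conj_invol hz h2
    rw [conj_twice hz] at h3
    have h4 : Commute (d * e * b * (d * e)) b := (twy _ (hD.conjInv hz hbD)).mpr h3.symm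
    exact h4.symm

end Cfsg.Agent.Fischer.OddDiam
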