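import Cfsg.Agent.Fischer.RankOneGroup

/-! Rank one groups with a quadratic module: the operators of `A` and `B` modulo fixed points. -/

set_option autoImplicit false
open Cfsg

namespace Cfsg.Agent.Fischer

variable {X : Type*} [Group X] {N : Type*} [AddCommGroup N] [DistribMulAction X N]

/-- fixed points of a subgroup -/
def fixSub (H : Subgroup X) : AddSubgroup N where
  carrier := {v | ∀ h ∈ H, h • v = v}
  zero_mem' := fun h _ => smul_zero h
  add_mem' := fun ha hb h hh => by rw [smul_add, ha h hh, hb h hh]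
  neg_mem' := fun ha h hh => by rw [smul_neg, ha h hh]

/-- the span of the vectors `h • n - n` -/
def commSub (H : Subgroup X) : AddSubgroup N :=
  AddSubgroup.closure {v | ∃ h ∈ H, ∃ n : N, v = h • n - n}

theorem mem_fixSub {H : Subgroup X} {v : N} : v ∈ fixSub H ↔ ∀ h ∈ H, h • v = v := Iff.rfl

theorem comm_mem {H : Subgroup X} {h : X} (hh : h ∈ H) (n : N) : h • n - n ∈ commSub H :=
  AddSubgroup.subset_closure ⟨h, hh, n, rfl⟩

theorem smul_fixSub {H : Subgroup X} {x : X} {v : N} (hv : v ∈ fixSub H) :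
    x • v ∈ fixSub (conjBy H x) := by
  intro h hh
  rw [mem_cb] at hh
  calc h • x • v = x • ((x⁻¹ * h * x) • v) := by simp [smul_smul, mul_assoc]
    _ = x • v := by rw [hv _ hh]

theorem smul_commSub {H : Subgroup X} {x : X} {v : N} (hv : v ∈ commSub H) :
    x • v ∈ commSub (conjBy H x) := by
  refine AddSubgroup.closure_induction (p := fun v _ => x • v ∈ commSub (conjBy H x)) ?_ ?_ ?_ ?_ hv
  · rintro _ ⟨h, hh, n, rfl⟩
    have := comm_mem (cb_mem x hh) (x • n)
    rw [smul_sub]
    simpa [smul_smul, mul_assoc] using this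
  · simp
  · intro a b _ _ ha hb; rw [smul_add]; exact add_mem ha hb
  · intro a _ ha; rw [smul_neg]; exact neg_mem ha

theorem fix_sup {A B : Subgroup X} {v : N} (ha : v ∈ fixSub A) (hb : v ∈ fixSub B) :
    v ∈ fixSub (A ⊔ B) := by
  intro x hx
  have hle : A ⊔ B ≤ MulAction.stabilizer X v := sup_le ha hb
  exact hle hx

/-- elements acting trivially on `W` modulo `Z`, when both are invariant -/
def actKer (W Z : AddSubgroup N) (hW : ∀ x : X, ∀ v ∈ W, x • v ∈ W)
    (hZ : ∀ x : X, ∀ v ∈ Z, x • v ∈ Z) : Subgroup X where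
  carrier := {x | ∀ v ∈ W, x • v - v ∈ Z}
  one_mem' := fun v _ => by simp
  mul_mem' := by
    intro x y hx hy v hv
    have := Z.add_mem (hZ x _ (hy v hv)) (hx v hv)
    rw [smul_sub, sub_add_sub_cancel, smul_smul] at this
    exact this
  inv_mem' := by
    intro x hx v hv
    have := Z.neg_mem (hZ x⁻¹ _ (hx v hv))
    rw [smul_sub, inv_smul_smul, neg_sub] at this
    exact this

theorem actKer_normal (W Z : AddSubgroup N) (hW : ∀ x : X, ∀ v ∈ W, x • v ∈ W)
    (hZ : ∀ x : X, ∀ v ∈ Z, x • v ∈ Z) : (actKer W Z hW hZ).Normal := by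
  refine ⟨fun n hn g v hv => ?_⟩
  have := hZ g _ (hn _ (hW g⁻¹ v hv))
  simpa [smul_sub, smul_smul, mul_assoc] using this

variable {A B : Subgroup X}

/-- The hypotheses: `X = ⟨A, B⟩` rank one, acting quadratically on `N`. -/
structure QuadSetup (A B : Subgroup X) (N : Type*) [AddCommGroup N] [DistribMulAction X N] :
    Prop where
  rk : IsRankOneGroup X A B
  quad : ∀ a ∈ A, ∀ a' ∈ A, ∀ n : N, a' • (a • n - n) = a • n - n

namespace QuadSetup

variable (h : QuadSetup A B N)
include h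

theorem quadB : ∀ b ∈ B, ∀ b' ∈ B, ∀ n : N, b' • (b • n - n) = b • n - n := by
  obtain ⟨x, -, rfl⟩ := exists_conj h.rk.2
  intro b hb b' hb' n
  rw [mem_cb] at hb hb'
  have := congrArg (x • ·) (h.quad _ hb _ hb' (x⁻¹ • n))
  simpa [smul_sub, smul_smul, mul_assoc] using this

theorem commA_le : commSub A ≤ (fixSub A : AddSubgroup N) := by
  refine (AddSubgroup.closure_le _).2 ?_
  rintro _ ⟨a, ha, n, rfl⟩ a' ha'
  exact h.quad a ha a' ha' n

theorem commB_le : commSub B ≤ (fixSub B : AddSubgroup N) := by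
  refine (AddSubgroup.closure_le _).2 ?_
  rintro _ ⟨b, hb, n, rfl⟩ b' hb'
  exact h.quadB b hb b' hb' n

theorem top_smul_fix {v : N} (hv : v ∈ fixSub A ⊓ fixSub B) (x : X) : x • v = v :=
  fix_sup hv.1 hv.2 x (h.rk.1 ▸ Subgroup.mem_top x)

theorem smul_V {x : X} {v : N} (hv : v ∈ commSub A ⊔ commSub B) :
    x • v ∈ commSub A ⊔ commSub B := by
  have hA : ∀ a ∈ A, ∀ v ∈ commSub A ⊔ commSub B, a • v ∈ (commSub A ⊔ commSub B : AddSubgroup N) := by
    intro a ha v hv
    have := add_mem (AddSubgroup.mem_sup_left (comm_mem ha v) : _ ∈ commSub A ⊔ commSub B) hv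
    simpa using this
  have hB : ∀ b ∈ B, ∀ v ∈ commSub A ⊔ commSub B, b • v ∈ (commSub A ⊔ commSub B : AddSubgroup N) := by
    intro b hb v hv
    have := add_mem (AddSubgroup.mem_sup_right (comm_mem hb v) : _ ∈ commSub A ⊔ commSub B) hv
    simpa using this
  have hx : x ∈ Subgroup.closure ((A : Set X) ∪ B) := by
    rw [Subgroup.closure_union, Subgroup.closure_eq, Subgroup.closure_eq, h.rk.1]; trivial
  exact Subgroup.closure_induction''
    (p := fun x _ => ∀ v ∈ commSub A ⊔ commSub B, x • v ∈ (commSub A ⊔ commSub B : AddSubgroup N))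
    (fun x hx v hv => hx.elim (fun e => hA x e v hv) (fun e => hB x e v hv))
    (fun x hx v hv => hx.elim (fun e => hA _ (inv_mem e) v hv) (fun e => hB _ (inv_mem e) v hv))
    (fun v hv => by simpa using hv)
    (fun x y _ _ ihx ihy v hv => by rw [mul_smul]; exact ihx _ (ihy v hv)) hx v hv

/-- The kernel of the action on `[N, X]` modulo its fixed points. -/
def ker : Subgroup X :=
  actKer (commSub A ⊔ commSub B : AddSubgroup N) (fixSub A ⊓ fixSub B)
    (fun _ _ hv => h.smul_V hv) (fun x v hv => by rw [h.top_smul_fix hv x]; exact hv)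

theorem rel_left {a b : X} (ha : a ∈ A) (hb : b ∈ B) (he : conjBy A b⁻¹ = conjBy B a⁻¹)
    {p : N} (hp : p ∈ commSub A) :
    a • (b • p - p) - (b • p - p) - p ∈ fixSub A ⊓ fixSub B := by
  have h1 := smul_commSub (x := b⁻¹) hp
  rw [he] at h1
  have h2 := smul_commSub (x := a) h1
  rw [cb_cb, mul_inv_cancel, cb_one] at h2
  set r := a • b⁻¹ • p with hr
  have hbp : b⁻¹ • p = p - (b • p - p) := by
    have := h.quadB b hb b⁻¹ (inv_mem hb) p
    rw [smul_sub, inv_smul_smul] at this
    rw [← this]; abel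
  have hrA : r - (a • r - r) = b⁻¹ • p := by
    have := h.quad a ha a⁻¹ (inv_mem ha) r
    rw [smul_sub, inv_smul_smul] at this
    rw [hr, inv_smul_smul] at *
    rw [← this]; abel
  -- z := p + (a r - r) = r + (b p - p)
  have hz : p + (a • r - r) = r + (b • p - p) := by
    rw [hbp] at hrA
    have := congrArg (fun t => t + (a • r - r) + (b • p - p)) hrA
    simp only [sub_add_cancel] at this
    rw [this]; abel
  have hzA : p + (a • r - r) ∈ fixSub A :=
    add_mem (h.commA_le hp) (h.commA_le (comm_mem ha r))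
  have hzB : p + (a • r - r) ∈ fixSub B := by
    rw [hz]; exact add_mem (h.commB_le h2) (h.commB_le (comm_mem hb p))
  have e : b • p - p = (p + (a • r - r)) - r := by rw [hz]; abel
  have e' : a • (b • p - p) - (b • p - p) - p = -(p + (a • r - r)) := by
    rw [e, smul_sub a, hzA a ha]; abel
  rw [e']
  exact neg_mem ⟨hzA, hzB⟩

theorem rel_right {a b : X} (ha : a ∈ A) (hb : b ∈ B) (he : conjBy A b⁻¹ = conjBy B a⁻¹)
    {r : N} (hr : r ∈ commSub B) :
    b • (a • r - r) - (a • r - r) - r ∈ fixSub A ⊓ fixSub B := by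
  have h' : QuadSetup B A N := ⟨⟨by rw [sup_comm]; exact h.rk.1, RankOnePair_symm h.rk.2⟩, h.quadB⟩
  rw [inf_comm]
  exact h'.rel_left hb ha he.symm hr

theorem inZ {x : X} (hx : x ∈ h.ker) {v : N} (hv : v ∈ commSub A ⊔ commSub B) :
    x • v - v ∈ fixSub A ⊓ fixSub B := hx v hv

/-- If the kernel is not central, `[N, X, X] = 0`. -/
theorem ker_central (hX : ∃ x y : X, ∃ n : N, y • (x • n - n) ≠ x • n - n) :
    h.ker ≤ Subgroup.center X := by
  have hn : h.ker.Normal := actKer_normal _ _ _ _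
  rcases normal_cases h.rk _ hn with htop | hc
  swap
  · exact hc
  by_contra hnc
  have hrk' : IsRankOneGroup X B A := ⟨by rw [sup_comm]; exact h.rk.1, RankOnePair_symm h.rk.2⟩
  have htopB : h.ker ⊔ B = ⊤ := (normal_cases hrk' _ hn).resolve_right hnc
  have hsplit : ∀ (H : Subgroup X), h.ker ⊔ H = ⊤ → ∀ x : X, ∃ k ∈ h.ker, ∃ u ∈ H, x = k * u := by
    intro H hH x
    obtain ⟨k, hk, u, hu, e⟩ := Subgroup.mem_sup_of_normal_left.1 (hH ▸ Subgroup.mem_top x)
    exact ⟨k, hk, u, hu, e.symm⟩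
  have hR : ∀ r ∈ commSub B, ∀ a ∈ A, a • r - r ∈ (fixSub A ⊓ fixSub B : AddSubgroup N) := by
    intro r hr a ha
    obtain ⟨k, hk, u, hu, rfl⟩ := hsplit B htopB a
    rw [mul_smul, h.commB_le hr u hu]
    exact h.inZ hk (AddSubgroup.mem_sup_right hr)
  have hP : ∀ p ∈ commSub A, ∀ b ∈ B, b • p - p ∈ (fixSub A ⊓ fixSub B : AddSubgroup N) := by
    intro p hp b hb
    obtain ⟨k, hk, u, hu, rfl⟩ := hsplit A htop b
    rw [mul_smul, h.commA_le hp u hu]
    exact h.inZ hk (AddSubgroup.mem_sup_left hp)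
  obtain ⟨a, ha, ha1⟩ := exists_ne_one h.rk.2
  obtain ⟨b, hb, -, he⟩ := h.rk.2.cond_left a ha ha1
  have hPf : commSub A ≤ (fixSub A ⊓ fixSub B : AddSubgroup N) := by
    intro p hp
    have h1 := h.rel_left ha hb he hp
    rw [(hP p hp b hb).1 a ha, sub_self, zero_sub] at h1
    simpa using neg_mem h1
  have hRf : commSub B ≤ (fixSub A ⊓ fixSub B : AddSubgroup N) := by
    intro r hr
    have h1 := h.rel_right ha hb he hr
    rw [(hR r hr a ha).2 b hb, sub_self, zero_sub] at h1
    simpa using neg_mem h1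
  obtain ⟨x, y, n, hne⟩ := hX
  apply hne
  refine h.top_smul_fix ?_ y
  suffices hxV : x • n - n ∈ commSub A ⊔ commSub B from sup_le hPf hRf hxV
  have hx : x ∈ Subgroup.closure ((A : Set X) ∪ B) := by
    rw [Subgroup.closure_union, Subgroup.closure_eq, Subgroup.closure_eq, h.rk.1]; trivial
  have hbase : ∀ y ∈ ((A : Set X) ∪ B), ∀ m : N, y • m - m ∈ (commSub A ⊔ commSub B : AddSubgroup N) ∧
      y⁻¹ • m - m ∈ (commSub A ⊔ commSub B : AddSubgroup N) := by
    rintro y (hy | hy) m
    · exact ⟨AddSubgroup.mem_sup_left (comm_mem hy m), AddSubgroup.mem_sup_left (comm_mem (inv_mem hy) m)⟩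
    · exact ⟨AddSubgroup.mem_sup_right (comm_mem hy m), AddSubgroup.mem_sup_right (comm_mem (inv_mem hy) m)⟩
  revert n
  refine fun n _ => Subgroup.closure_induction''
    (p := fun x _ => ∀ n : N, x • n - n ∈ (commSub A ⊔ commSub B : AddSubgroup N))
    (fun y hy m => (hbase y hy m).1) (fun y hy m => (hbase y hy m).2) (fun m => by simp)
    (fun y z _ _ iy iz m => by
      have := add_mem (iy (z • m)) (iz m)
      rwa [sub_add_sub_cancel, smul_smul] at this) hx n

theorem eq_one_of_ker (hc : h.ker ≤ Subgroup.center X) {U : Subgroup X}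
    (hU : U ∈ unipotentSubgroups A B) {u : X} (hu : u ∈ U) (huk : u ∈ h.ker) : u = 1 := by
  have hne : ∃ W ∈ unipotentSubgroups A B, U ≠ W := by
    by_cases e : U = A
    · exact ⟨B, right_mem h.rk.2, e ▸ h.rk.2.ne⟩
    · exact ⟨A, self_mem, e⟩
  obtain ⟨W, hW, hne⟩ := hne
  exact eq_one_of_normalize' h.rk.2 hU hW hne hu
    (cb_eq_self.1 (cb_of_commute fun w _ => (Subgroup.mem_center_iff.1 (hc huk) w).symm))

theorem smul_inv_eq {a : X} (ha : a ∈ A) (n : N) : a⁻¹ • n = n - (a • n - n) := by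
  have := h.quad a ha a⁻¹ (inv_mem ha) n
  rw [smul_sub, inv_smul_smul] at this
  rw [← this]; abel

theorem smul_invB_eq {b : X} (hb : b ∈ B) (n : N) : b⁻¹ • n = n - (b • n - n) := by
  have := h.quadB b hb b⁻¹ (inv_mem hb) n
  rw [smul_sub, inv_smul_smul] at this
  rw [← this]; abel

theorem special (hX : ∃ x y : X, ∃ n : N, y • (x • n - n) ≠ x • n - n) :
    IsSpecialRankOnePair A B := by
  have hc := h.ker_central hX
  refine ⟨h.rk.2, fun a ha ha1 b hb hb1 he => ?_⟩
  set u₁ := b⁻¹ * a * b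
  set u₂ := a⁻¹ * b⁻¹ * a
  have hU : conjBy A b⁻¹ ∈ unipotentSubgroups A B :=
    ⟨b⁻¹, h.rk.1 ▸ Subgroup.mem_top _, rfl⟩
  have h1 : u₁ ∈ conjBy A b⁻¹ := by rw [mem_cb]; simpa [u₁, mul_assoc] using ha
  have h2 : u₂ ∈ conjBy A b⁻¹ := by rw [he, mem_cb]; simpa [u₂, mul_assoc] using hb
  set Z : AddSubgroup N := fixSub A ⊓ fixSub B
  have hsub : ∀ v ∈ commSub A ⊔ commSub B, u₁ • v - u₂ • v ∈ Z := by
    intro v hv
    obtain ⟨p, hp, r, hr, rfl⟩ := AddSubgroup.mem_sup.1 hv
    have hP : u₁ • p - u₂ • p ∈ Z := by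
      set β := b • p - p
      have eβ : b • p = p + β := by simp [β]
      have hzp := h.rel_left ha hb he hp
      set z := a • β - β - p
      have eaβ : a • β = β + p + z := by simp [z]
      have hbβ : b • β = β := h.quadB b hb b hb p
      have hbi : ∀ w : N, b • w = w → b⁻¹ • w = w := fun w hw => by
        rw [inv_smul_eq_iff, hw]
      have hai : ∀ w : N, a • w = w → a⁻¹ • w = w := fun w hw => by
        rw [inv_smul_eq_iff, hw]
      have hap : a • p = p := h.commA_le hp a ha
      have e1 : u₁ • p = p + p - β + z := by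
        simp only [u₁, mul_smul]
        rw [eβ, smul_add, hap, eaβ, smul_add, smul_add, smul_add, hbi β hbβ, hbi z (hzp.2 b hb),
          h.smul_invB_eq hb p, eβ]
        abel
      have e2 : u₂ • p = p + p - β + z := by
        simp only [u₂, mul_smul]
        rw [hap, h.smul_invB_eq hb p, smul_sub, hai p hap, h.smul_inv_eq ha β]
        show p - (β - (a • β - β)) = _
        rw [eaβ]; abel
      rw [e1, e2, sub_self]; exact zero_mem _
    have hR : u₁ • r - u₂ • r ∈ Z := by
      set α := a • r - r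
      have eα : a • r = r + α := by simp [α]
      have hzr := h.rel_right ha hb he hr
      set z := b • α - α - r
      have ebα : b • α = α + r + z := by simp [z]
      have hbr : b • r = r := h.commB_le hr b hb
      have hbir : b⁻¹ • r = r := by rw [inv_smul_eq_iff, hbr]
      have haα : a • α = α := h.quad a ha a ha r
      have haiα : a⁻¹ • α = α := by rw [inv_smul_eq_iff, haα]
      have haiz : a⁻¹ • z = z := hzr.1 _ (inv_mem ha)
      have e1 : u₁ • r = α - z := by
        simp only [u₁, mul_smul]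
        rw [hbr, eα, smul_add, hbir, h.smul_invB_eq hb α, ebα]
        abel
      have e2 : u₂ • r = α - z := by
        simp only [u₂, mul_smul]
        rw [eα, smul_add, hbir, h.smul_invB_eq hb α, ebα,
          show r + (α - (α + r + z - α)) = α - z by abel, smul_sub, haiα, haiz]
      rw [e1, e2, sub_self]; exact zero_mem _
    have := add_mem hP hR
    rw [smul_add, smul_add]
    convert this using 1
    abel
  have hk : u₁⁻¹ * u₂ ∈ h.ker := by
    intro v hv
    have h3 : u₁ • v - u₂ • v ∈ Z := hsub v hv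
    have h4 := neg_mem (show u₁⁻¹ • (u₁ • v - u₂ • v) ∈ Z by
      rw [h.top_smul_fix h3]; exact h3)
    rw [smul_sub, inv_smul_smul, neg_sub] at h4
    rw [mul_smul]; exact h4
  exact inv_mul_eq_one.1 (h.eq_one_of_ker hc hU (mul_mem (inv_mem h1) h2) hk)

end QuadSetup

end Cfsg.Agent.Fischer

namespace Cfsg.Agent.Fischer

variable {X : Type*} [Group X] {N : Type*} [AddCommGroup N] [DistribMulAction X N] {A B : Subgroup X}

theorem eq_of_smul_eq (hf : ∀ x : X, (∀ v : N, x • v = v) → x = 1) {x y : X}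
    (e : ∀ v : N, x • v = y • v) : x = y :=
  (inv_mul_eq_one.1 (hf (y⁻¹ * x) fun v => by rw [mul_smul, e v, inv_smul_smul])).symm

theorem QuadSetup.comm_left (h : QuadSetup A B N) (hf : ∀ x : X, (∀ v : N, x • v = v) → x = 1) :
    IsMulCommutative A := by
  refine ⟨⟨fun ⟨a, ha⟩ ⟨b, hb⟩ => Subtype.ext (eq_of_smul_eq hf fun v => ?_)⟩⟩
  have e1 := h.quad b hb a ha v
  have e2 := h.quad a ha b hb v
  rw [smul_sub, sub_eq_iff_eq_add] at e1 e2
  simp only [Subgroup.coe_mul, mul_smul]
  rw [e1, e2]; abel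

theorem QuadSetup.comm_right (h : QuadSetup A B N) (hf : ∀ x : X, (∀ v : N, x • v = v) → x = 1) :
    IsMulCommutative B :=
  (show QuadSetup B A N from
    ⟨⟨by rw [sup_comm]; exact h.rk.1, RankOnePair_symm h.rk.2⟩, h.quadB⟩).comm_left hf

theorem QuadSetup.not_quad_all (h : QuadSetup A B N) (hf : ∀ x : X, (∀ v : N, x • v = v) → x = 1) :
    ∃ x y : X, ∃ n : N, y • (x • n - n) ≠ x • n - n := by
  by_contra hc
  push_neg at hc
  letI : CommGroup X :=
    { (inferInstance : Group X) with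
      mul_comm := fun a b => eq_of_smul_eq hf fun v => by
        have e1 := hc b a v
        have e2 := hc a b v
        rw [smul_sub, sub_eq_iff_eq_add] at e1 e2
        simp only [mul_smul]
        rw [e1, e2]; abel }
  exact not_nilpotent h.rk CommGroup.isNilpotent

end Cfsg.Agent.Fischer
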