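import Cfsg.Agent.Fischer.RankOne

/-! Normal subgroups and centre of a rank one group. -/

set_option autoImplicit false
open Cfsg
open scoped commutatorElement

namespace Cfsg.Agent.Fischer

variable {X : Type*} [Group X] {A B : Subgroup X}

theorem normalizing_central (h : IsRankOneGroup X A B) {N : Subgroup X} (hN : N.Normal)
    (hfix : ∀ n ∈ N, conjBy A n = A) : N ≤ Subgroup.center X := by
  obtain ⟨htop, hp⟩ := h
  have hall : ∀ n ∈ N, ∀ C ∈ unipotentSubgroups A B, conjBy C n = C := by
    rintro n hn C ⟨x, -, rfl⟩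
    have := hfix _ (hN.conj_mem' n hn x)
    rw [← cb_cb, ← cb_cb, cb_eq_iff, inv_inv] at this
    exact this
  have key : ∀ (C D : Subgroup X), C ∈ unipotentSubgroups A B → D ∈ unipotentSubgroups A B → C ≠ D →
      ∀ n ∈ N, ∀ c ∈ C, c * n = n * c := by
    intro C D hC hD hne n hn c hc
    have hm : n * c * n⁻¹ * c⁻¹ ∈ C := by
      refine mul_mem ?_ (inv_mem hc)
      have := cb_mem n hc
      rwa [hall n hn C hC] at this
    have hN' : n * c * n⁻¹ * c⁻¹ ∈ N := by
      have := mul_mem hn (hN.conj_mem _ (inv_mem hn) c)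
      simpa [mul_assoc] using this
    have := eq_one_of_normalize' hp hC hD hne hm (cb_eq_self.1 (hall _ hN' D hD))
    rw [mul_inv_eq_one, mul_inv_eq_iff_eq_mul] at this
    exact this.symm
  intro n hn
  rw [Subgroup.mem_center_iff]
  intro g
  have hg : g ∈ A ⊔ B := htop ▸ Subgroup.mem_top g
  have : A ⊔ B ≤ Subgroup.centralizer {n} := by
    refine sup_le ?_ ?_ <;> intro c hc <;> rw [Subgroup.mem_centralizer_singleton_iff]
    · exact key A B self_mem (right_mem hp) hp.ne n hn c hc
    · exact key B A (right_mem hp) self_mem hp.ne.symm n hn c hc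
  exact Subgroup.mem_centralizer_singleton_iff.1 (this hg)

theorem normal_cases (h : IsRankOneGroup X A B) (N : Subgroup X) (hN : N.Normal) :
    N ⊔ A = ⊤ ∨ N ≤ Subgroup.center X := by
  by_cases hfix : ∀ n ∈ N, conjBy A n = A
  · exact Or.inr (normalizing_central h hN hfix)
  · push_neg at hfix
    obtain ⟨n, hn, hne⟩ := hfix
    left
    rw [← h.1]
    exact sup_eq_of_normal h.2 (h.1 ▸ le_top) hn hne

theorem left_not_central (h : IsRankOneGroup X A B) : ¬ A ≤ Subgroup.center X := fun hA =>
  not_commute h.2 (bot_of_commute fun a ha b _ => (Subgroup.mem_center_iff.1 (hA ha) b).symm)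

theorem upperCentral_two (h : IsRankOneGroup X A B) :
    Subgroup.upperCentralSeries X 2 = Subgroup.center X := by
  refine le_antisymm (normalizing_central h inferInstance ?_) ?_
  · intro n hn
    by_contra hne
    have hC : conjBy A n ∈ unipotentSubgroups A B := ⟨n, h.1 ▸ Subgroup.mem_top n, rfl⟩
    have hnorm : ∀ c ∈ conjBy A n, conjBy A c = A := by
      intro c hc
      rw [mem_cb] at hc
      rw [Subgroup.mem_upperCentralSeries_succ_iff] at hn
      have hz : ⁅n, n⁻¹ * c * n⁆ ∈ Subgroup.center X := by
        have := hn (n⁻¹ * c * n)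
        rwa [Subgroup.upperCentralSeries_one] at this
      have e : c = ⁅n, n⁻¹ * c * n⁆ * (n⁻¹ * c * n) := by
        simp [commutatorElement_def, mul_assoc]
      rw [e, ← cb_cb, cb_of_mem hc]
      exact cb_of_commute fun a _ => (Subgroup.mem_center_iff.1 hz a).symm
    obtain ⟨a, ha, ha1⟩ := exists_ne_one h.2
    have := eq_one_of_normalize' h.2 hC self_mem hne (cb_mem n ha)
      (cb_eq_self.1 (hnorm _ (cb_mem n ha)))
    simp at this
    exact ha1 this
  · rw [← Subgroup.upperCentralSeries_one]
    exact Subgroup.upperCentralSeries_mono X (by norm_num)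

theorem not_nilpotent (h : IsRankOneGroup X A B) : ¬ Group.IsNilpotent X := by
  intro hn
  have h2 := upperCentral_two h
  have hstep : ∀ n, Subgroup.upperCentralSeries X n ≤ Subgroup.center X := by
    intro n
    induction n with
    | zero => simp
    | succ n ih =>
      intro x hx
      rw [← h2, Subgroup.mem_upperCentralSeries_succ_iff]
      intro y
      rw [Subgroup.upperCentralSeries_one]
      exact ih (Subgroup.mem_upperCentralSeries_succ_iff.1 hx y)
  obtain ⟨n, hn⟩ := hn.nilpotent
  exact left_not_central h (le_top.trans (hn ▸ hstep n))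

theorem perfect_quasisimple (h : IsRankOneGroup X A B) (hp : Group.IsPerfect X) :
    IsQuasisimple X := by
  refine ⟨hp, ?_⟩
  have hnt : Nontrivial (X ⧸ Subgroup.center X) := by
    obtain ⟨a, -, ha⟩ := SetLike.not_le_iff_exists.1 (left_not_central h)
    exact ⟨⟨(a : X ⧸ Subgroup.center X), 1, by simpa [QuotientGroup.eq_one_iff] using ha⟩⟩
  refine @IsSimpleGroup.mk _ _ hnt fun H hH => ?_
  rcases normal_cases h (H.comap (QuotientGroup.mk' _)) (hH.comap _) with htop | hle
  · right
    have hAN : Function.Surjective ((QuotientGroup.mk' (H.comap (QuotientGroup.mk' (Subgroup.center X)))).comp A.subtype) := by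
      intro q
      obtain ⟨x, rfl⟩ := QuotientGroup.mk_surjective q
      haveI := hH.comap (QuotientGroup.mk' (Subgroup.center X))
      obtain ⟨n, hn, a, ha, rfl⟩ := Subgroup.mem_sup_of_normal_left.1 (htop ▸ Subgroup.mem_top x)
      refine ⟨⟨a, ha⟩, ?_⟩
      show (a : X ⧸ _) = (QuotientGroup.mk (n * a) : X ⧸ H.comap (QuotientGroup.mk' (Subgroup.center X)))
      rw [QuotientGroup.mk_mul, (QuotientGroup.eq_one_iff n).2 hn, one_mul]
    haveI := h.2.nilpotent_left
    have hnil := Group.nilpotent_of_surjective _ hAN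
    set N := H.comap (QuotientGroup.mk' (Subgroup.center X))
    have hl : ∀ n, Subgroup.lowerCentralSeries (⊤ : Subgroup (X ⧸ N)) n = ⊤ := by
      intro n
      induction n with
      | zero => rfl
      | succ n ih =>
        rw [Subgroup.lowerCentralSeries_succ, ih]
        have hmap := congrArg (Subgroup.map (QuotientGroup.mk' N)) hp.commutator_eq_top
        rw [commutator_def, Subgroup.map_commutator,
          Subgroup.map_top_of_surjective _ (QuotientGroup.mk'_surjective N)] at hmap
        exact hmap
    obtain ⟨n, hn⟩ := Subgroup.nilpotent_iff_lowerCentralSeries.1 hnil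
    rw [hl] at hn
    rw [eq_top_iff]
    intro q _
    obtain ⟨x, rfl⟩ := QuotientGroup.mk_surjective q
    have : (x : X ⧸ N) ∈ (⊥ : Subgroup (X ⧸ N)) := hn ▸ Subgroup.mem_top _
    exact (QuotientGroup.eq_one_iff x).1 (Subgroup.mem_bot.1 this)
  · left
    rw [eq_bot_iff]
    intro q hq
    obtain ⟨x, rfl⟩ := QuotientGroup.mk_surjective q
    exact Subgroup.mem_bot.2 ((QuotientGroup.eq_one_iff x).2 (hle hq))

end Cfsg.Agent.Fischer
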