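/-
Root involutions: members with the same odd partners commute with the same members, and product partners
outside such a class are commutators of special pairs with a partner of order three.
-/
import Cfsg.Prelude.Def_RootSubgroups
import Cfsg.Agent.TwoGroups.RootInvolutions
import Cfsg.Agent.Components.Dihedral
import Cfsg.Agent.Components.BaerSuzuki

set_option autoImplicit false
set_option linter.unusedSectionVars false

namespace Cfsg.Agent.Fischer.RInv

open Cfsg Cfsg.Agent.TwoGroups.RootInv

variable {G : Type*} [Group G] {D : Set G}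

/-- Two members with the same odd partners. -/
def SameOdd (D : Set G) (a b : G) : Prop := ∀ x, OddAdj D a x ↔ OddAdj D b x

theorem SameOdd.symm {a b : G} (h : SameOdd D a b) : SameOdd D b a := fun x => (h x).symm

theorem SameOdd.trans {a b c : G} (h : SameOdd D a b) (h' : SameOdd D b c) : SameOdd D a c :=
  fun x => (h x).trans (h' x)

theorem sameOdd_conj (hD : IsRootInvolutionSet D) {a b : G} (h : SameOdd D a b) (g : G) :
    SameOdd D (g * a * g⁻¹) (g * b * g⁻¹) := by
  have key : ∀ {p q : G}, SameOdd D p q → ∀ x, OddAdj D (g * p * g⁻¹) x → OddAdj D (g * q * g⁻¹) x := by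
    intro p q hpq x hx
    have h1 : OddAdj D p (g⁻¹ * x * g) := by simpa [mul_assoc] using adj_conj hD hx g⁻¹
    simpa [mul_assoc] using adj_conj hD ((hpq _).mp h1) g
  exact fun x => ⟨key h x, key h.symm x⟩

/-- An element fixing one member of a class fixes the class. -/
theorem sameOdd_conj_of_commute (hD : IsRootInvolutionSet D) {r p g : G} (h : SameOdd D r p)
    (hg : Commute g r) : SameOdd D r (g * p * g⁻¹) := by
  have := sameOdd_conj hD h g
  rwa [hg.eq, mul_inv_cancel_right] at this

theorem ne_one (hD : IsRootInvolutionSet D) {d : G} (hd : d ∈ D) : d ≠ 1 := by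
  intro h
  have := hD.orderOf_eq d hd
  rw [h, orderOf_one] at this
  omega

theorem conj_mem' (hD : IsRootInvolutionSet D) {a b : G} (ha : a ∈ D) (hb : b ∈ D) : a * b * a ∈ D := by
  have h := hD.conj_mem b hb a
  rwa [inv_eq hD ha] at h

theorem sq_one_of_commute (hD : IsRootInvolutionSet D) {a b : G} (ha : a ∈ D) (hb : b ∈ D)
    (hc : a * b = b * a) : (a * b) ^ 2 = 1 := by
  rw [(show Commute a b from hc).mul_pow, pow_two, pow_two, mul_self hD ha, mul_self hD hb, one_mul]

theorem orderOf_four_of (hD : IsRootInvolutionSet D) {a b : G} (ha : a ∈ D) (hb : b ∈ D)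
    (hn : a * b ≠ b * a) (hodd : ¬ OddAdj D a b) : orderOf (a * b) = 4 := by
  rcases hD.pair a ha b hb with h | h | h
  · exact absurd h hn
  · exact absurd ⟨ha, hb, fun e => hn (by rw [e]), h⟩ hodd
  · exact h.1

theorem not_adj_of_four {a b : G} (h4 : orderOf (a * b) = 4) : ¬ OddAdj D a b := by
  intro h
  have := h.2.2.2
  rw [h4] at this
  exact absurd this (by decide)

theorem not_commute_of_four (hD : IsRootInvolutionSet D) {a b : G} (ha : a ∈ D) (hb : b ∈ D)
    (h4 : orderOf (a * b) = 4) : a * b ≠ b * a := by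
  intro hc
  have := Nat.le_of_dvd two_pos (h4 ▸ orderOf_dvd_of_pow_eq_one (sq_one_of_commute hD ha hb hc))
  omega

/-- The square `u` of a product of order four, with its relations. -/
structure FourFacts (D : Set G) (a b u : G) : Prop where
  mem : u ∈ D
  comm_left : u * a = a * u
  comm_right : u * b = b * u
  conj_right : a * b * a = b * u
  conj_left : b * a * b = a * u
  left_mem : u * a ∈ D
  right_mem : u * b ∈ D
  ne_left : u ≠ a
  ne_right : u ≠ b

theorem fourFacts (hD : IsRootInvolutionSet D) {a b : G} (ha : a ∈ D) (hb : b ∈ D)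
    (h4 : orderOf (a * b) = 4) : FourFacts D a b ((a * b) ^ 2) := by
  have hn := not_commute_of_four hD ha hb h4
  have hu : (a * b) ^ 2 ∈ D := by
    rcases hD.pair a ha b hb with h | h | h
    · exact absurd h hn
    · rw [h4] at h
      exact absurd h (by decide)
    · exact h.2
  have ha2 := mul_self hD ha
  have hb2 := mul_self hD hb
  set u := (a * b) ^ 2 with hudef
  have he : u = a * b * a * b := by rw [hudef, pow_two]; group
  have he' : u = b * a * b * a := by
    rw [← inv_eq hD hu]
    conv_lhs => rw [he]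
    simp only [mul_inv_rev, inv_eq hD ha, inv_eq hD hb, mul_assoc]
  have h1 : u * a = b * a * b := by
    conv_lhs => rw [he']
    rw [mul_assoc, ha2, mul_one]
  have h2 : u * b = a * b * a := by
    conv_lhs => rw [he]
    rw [mul_assoc, hb2, mul_one]
  have h3 : a * u = b * a * b := by
    conv_lhs => rw [he]
    simp only [← mul_assoc, ha2, one_mul]
  have h4' : b * u = a * b * a := by
    conv_lhs => rw [he']
    simp only [← mul_assoc, hb2, one_mul]
  refine ⟨hu, h1.trans h3.symm, h2.trans h4'.symm, h4'.symm, h3.symm, ?_, ?_, ?_, ?_⟩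
  · rw [h1]
    exact conj_mem' hD hb ha
  · rw [h2]
    exact conj_mem' hD ha hb
  · intro h
    exact ne_one hD (conj_mem' hD hb ha) (by rw [← h1, h, ha2])
  · intro h
    exact ne_one hD (conj_mem' hD ha hb) (by rw [← h2, h, hb2])

/-- An involution commuting with an odd pair does not carry one of its members into `D`. -/
theorem kill (hD : IsRootInvolutionSet D) {s t i : G} (h : OddAdj D s t) (hi : orderOf i = 2)
    (his : Commute i s) (hit : Commute i t) (hsi : s * i ∈ D) : False := by
  have hm := h.2.2.2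
  have ho : orderOf (s * i * t) = 2 * orderOf (s * t) := by
    rw [← his.eq, mul_assoc, (his.mul_right hit).orderOf_mul_eq_mul_orderOf_of_coprime (by
      rw [hi]; exact Nat.coprime_two_left.mpr hm), hi]
  obtain ⟨m, hm'⟩ := hm
  have hm1 : orderOf (s * t) ≠ 1 := by
    rw [Ne, orderOf_eq_one_iff, mul_eq_one_iff_eq_inv, inv_eq hD h.2.1]
    exact h.2.2.1
  rcases hD.pair _ hsi t h.2.1 with h' | h' | h'
  · have := Nat.le_of_dvd two_pos (orderOf_dvd_of_pow_eq_one (sq_one_of_commute hD hsi h.2.1 h'))
    omega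
  · rw [ho] at h'
    exact absurd h' (by simp [parity_simps])
  · have := h'.1
    omega

theorem adj_of_conj (hD : IsRootInvolutionSet D) {a x g : G} (h : OddAdj D a x) (hg : Commute g a) :
    OddAdj D a (g * x * g⁻¹) := by
  have := adj_conj hD h g
  rwa [hg.eq, mul_inv_cancel_right] at this

/-- Two product partners of `c` whose product centralizes an odd pair coincide. -/
theorem eq_of_centralize (hD : IsRootInvolutionSet D) {c t p₁ p₂ : G}
    (hp₁ : p₁ ∈ D) (hp₂ : p₂ ∈ D) (hc₁ : p₁ * c = c * p₁) (hc₂ : p₂ * c = c * p₂)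
    (hcp₁ : c * p₁ ∈ D) (hcp₂ : c * p₂ ∈ D) (hc : c ∈ D) (ht : OddAdj D (c * p₁) t)
    (hh : Commute (p₁ * p₂) t) : p₁ = p₂ := by
  by_contra hne
  by_cases hcom : p₁ * p₂ = p₂ * p₁
  · have h2 : orderOf (p₁ * p₂) = 2 := by
      refine orderOf_eq_prime (sq_one_of_commute hD hp₁ hp₂ hcom) ?_
      rw [Ne, mul_eq_one_iff_eq_inv, inv_eq hD hp₂]
      exact hne
    refine kill hD ht h2 ?_ hh ?_
    · exact ((show Commute p₁ c from hc₁).mul_left hc₂).mul_right
        ((Commute.refl p₁).mul_left (show Commute p₂ p₁ from hcom.symm))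
    · rw [show c * p₁ * (p₁ * p₂) = c * (p₁ * p₁) * p₂ by group, mul_self hD hp₁, mul_one]
      exact hcp₂
  by_cases hodd : OddAdj D p₁ p₂
  · exact not_commute_partner hD hodd hc hc₁.symm hcp₁ hc₂.symm
  have h4 := orderOf_four_of hD hp₁ hp₂ hcom hodd
  have F := fourFacts hD hp₁ hp₂ h4
  refine kill hD ht (hD.orderOf_eq _ F.mem) ?_ (hh.pow_left 2) ?_
  · exact (((show Commute p₁ c from hc₁).mul_left hc₂).pow_left 2).mul_right F.comm_left
  · have e : c * p₁ * (p₁ * p₂) ^ 2 = p₂ * (c * p₁) * p₂ := by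
      rw [mul_assoc, ← F.conj_left, ← mul_assoc p₂ c p₁, hc₂]
      group
    rw [e]
    exact conj_mem' hD hp₂ hcp₁

theorem exists_conj_eq_of_adj (hD : IsRootInvolutionSet D) {a b : G} (h : OddAdj D a b) :
    ∃ g : G, g * a * g⁻¹ = b :=
  isConj_iff.mp (Components.isConj_of_odd (hD.orderOf_eq a h.1) (hD.orderOf_eq b h.2.1) h.2.2.2)

theorem exists_conj_eq (hD : IsRootInvolutionSet D) (hc : IsConnectedSet (OddAdj D) D) {a b : G}
    (ha : a ∈ D) (hb : b ∈ D) : ∃ g : G, g * a * g⁻¹ = b := by
  induction hc a ha b hb with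
  | refl => exact ⟨1, by group⟩
  | tail _ hbc ih =>
    obtain ⟨g, hg⟩ := ih hbc.1
    obtain ⟨k, hk⟩ := exists_conj_eq_of_adj hD hbc
    exact ⟨k * g, by rw [← hk, ← hg]; group⟩

theorem sameOdd_of_subset [Finite G] (hD : IsRootInvolutionSet D) (hc : IsConnectedSet (OddAdj D) D)
    {a b : G} (ha : a ∈ D) (hb : b ∈ D) (h : ∀ x, OddAdj D a x → OddAdj D b x) : SameOdd D a b := by
  obtain ⟨g, hg⟩ := exists_conj_eq hD hc ha hb
  have himg : {x | OddAdj D b x} = (fun x => g * x * g⁻¹) '' {x | OddAdj D a x} := by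
    ext x
    constructor
    · intro hx
      refine ⟨g⁻¹ * x * g, ?_, by group⟩
      have := adj_conj hD (show OddAdj D b x from hx) g⁻¹
      rw [← hg] at this
      simpa [mul_assoc] using this
    · rintro ⟨y, hy, rfl⟩
      have := adj_conj hD hy g
      rwa [hg] at this
  have heq : {x | OddAdj D a x} = {x | OddAdj D b x} := by
    refine Set.eq_of_subset_of_ncard_le h ?_
    rw [himg]
    exact Set.ncard_image_le
  exact fun x => Set.ext_iff.mp heq x

/-- If `b` is odd with a partner of the class of `r`, it is not in that class. -/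
theorem not_adj_of_sameOdd {a b : G} (h : SameOdd D a b) : ¬ OddAdj D a b :=
  fun hab => ((h b).mp hab).2.2.1 rfl

/-- If `s` moves `r` inside its class then it commutes with `r` or the commutator is in that class. -/
theorem sq_same [Finite G] (hD : IsRootInvolutionSet D) (hc : IsConnectedSet (OddAdj D) D) {r s : G}
    (hr : r ∈ D) (hs : s ∈ D) (h : SameOdd D r (s * r * s)) (hn : r * s ≠ s * r) :
    orderOf (r * s) = 4 ∧ SameOdd D r ((r * s) ^ 2) := by
  have h4 : orderOf (r * s) = 4 := by
    refine orderOf_four_of hD hr hs hn fun hadj => ?_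
    refine not_adj_of_sameOdd h ⟨hr, conj_mem' hD hs hr, fun e => hn ?_, ?_⟩
    · calc r * s = s * r * s * s := by rw [← e]
        _ = s * r := by rw [mul_assoc, mul_self hD hs, mul_one]
    · rw [show r * (s * r * s) = (r * s) ^ 2 by rw [pow_two]; group]
      obtain ⟨m, hm⟩ := hadj.2.2.2
      have hco : (orderOf (r * s)).Coprime 2 := Nat.coprime_two_right.mpr hadj.2.2.2
      rw [hco.orderOf_pow]
      exact hadj.2.2.2
  refine ⟨h4, ?_⟩
  have F := fourFacts hD hr hs h4
  refine (sameOdd_of_subset hD hc F.mem hr fun x hx => ?_).symm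
  rcases adj_or_adj hD hx hr F.comm_left.symm (by rw [← F.comm_left]; exact F.left_mem) with h' | h'
  · exact h'
  · exact (h x).mpr (by rwa [← F.conj_left] at h')

theorem sameOdd_transitive (hD : IsRootInvolutionSet D) (hc : IsConnectedSet (OddAdj D) D) {r s : G}
    (hr : r ∈ D) (hs : s ∈ D) (h : SameOdd D r s) :
    ∃ k : G, k * r * k⁻¹ = s ∧ ∀ p, SameOdd D r p → SameOdd D r (k * p * k⁻¹) := by
  by_cases e : r = s
  · exact ⟨1, by simp [e], fun p hp => by simpa using hp⟩
  obtain ⟨x, hx⟩ := exists_adj_of_comp (hc r hr s hs) (Ne.symm e)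
  obtain ⟨g, hg⟩ := exists_conj_eq_of_adj hD hx
  obtain ⟨k, hk⟩ := exists_conj_eq_of_adj hD ((h x).mp hx)
  have e1 : k⁻¹ * g * r * (k⁻¹ * g)⁻¹ = s := by
    calc k⁻¹ * g * r * (k⁻¹ * g)⁻¹ = k⁻¹ * (g * r * g⁻¹) * k := by group
      _ = k⁻¹ * (k * s * k⁻¹) * k := by rw [hg, hk]
      _ = s := by group
  refine ⟨k⁻¹ * g, e1, fun p hp => h.trans ?_⟩
  have := sameOdd_conj hD hp (k⁻¹ * g)
  rwa [e1] at this

theorem sq_four_eq_one (hD : IsRootInvolutionSet D) {r s : G} (hr : r ∈ D) (hs : s ∈ D)
    (h : ¬ OddAdj D r s) : (r * s) ^ 4 = 1 := by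
  by_cases hn : r * s = s * r
  · rw [show 4 = 2 * 2 from rfl, pow_mul, sq_one_of_commute hD hr hs hn, one_pow]
  · rw [← orderOf_four_of hD hr hs hn h]
    exact pow_orderOf_eq_one _

/-- Members with the same odd partners commute. -/
theorem commute_of_sameOdd [Finite G] (hD : IsRootInvolutionSet D) (hc : IsConnectedSet (OddAdj D) D)
    {a b : G} (ha : a ∈ D) (hb : b ∈ D) (hab : SameOdd D a b) : a * b = b * a := by
  classical
  haveI := Fact.mk Nat.prime_two
  set R : Set G := {p | p ∈ D ∧ SameOdd D a p} with hRdef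
  have hconj : ∀ r ∈ R, ∀ s ∈ R, r * s * r ∈ R := by
    intro r hr s hs
    refine ⟨conj_mem' hD hr.1 hs.1, hr.2.trans ?_⟩
    have := sameOdd_conj_of_commute hD (hr.2.symm.trans hs.2) (Commute.refl r)
    rwa [inv_eq hD hr.1] at this
  -- some member centralizes the class
  have hcent : ∃ r ∈ R, ∀ s ∈ R, r * s = s * r := by
    by_contra hno
    push Not at hno
    set P : Subgroup G := Subgroup.closure R
    have hP : IsPGroup 2 ↥P := by
      set X : Set (Subgroup ↥P) :=
        {Y | ∃ r : ↥P, (r : G) ∈ R ∧ Y = Subgroup.zpowers r} with hX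
      have hRconj : ∀ g ∈ P, ∀ r ∈ R, g * r * g⁻¹ ∈ R := by
        intro g hg
        induction hg using Subgroup.closure_induction with
        | mem x hx => intro r hr; rw [inv_eq hD hx.1]; exact hconj x hx r hr
        | one => intro r hr; simpa using hr
        | mul x y _ _ hx hy =>
          intro r hr
          have := hx _ (hy r hr)
          simpa [mul_assoc] using this
        | inv x _ hx =>
          intro r hr
          have hinj : Function.Injective (fun q => x * q * x⁻¹) := fun p q h => by simpa using h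
          have him : (fun q => x * q * x⁻¹) '' R = R :=
            Set.eq_of_subset_of_ncard_le (Set.image_subset_iff.mpr fun q hq => hx q hq)
              (by rw [Set.ncard_image_of_injective _ hinj])
          obtain ⟨q, hq, hqr⟩ := him.symm ▸ hr
          rw [← hqr]
          simpa [mul_assoc] using hq
      have hgen : ∀ Y ∈ X, ∀ S : Sylow 2 ↥P, Y ≤ S := by
        refine Components.baer_suzuki_sylow X ?_ ?_
        · rintro _ ⟨r, hr, rfl⟩ g
          exact ⟨g * r * g⁻¹, by simpa using hRconj g g.2 r hr, by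
            rw [MonoidHom.map_zpowers]; rfl⟩
        · rintro _ ⟨r, hr, rfl⟩ _ ⟨s, hs, rfl⟩
          have h4 := sq_four_eq_one hD hr.1 hs.1 (not_adj_of_sameOdd (hr.2.symm.trans hs.2))
          have hK := pgroup_pair hD hr.1 hs.1 ⟨2, h4⟩
          refine (hK.comap_of_injective P.subtype P.subtype_injective).to_le ?_
          refine sup_le ?_ ?_
          · rw [Subgroup.zpowers_le]
            exact Subgroup.mem_sup_left (Subgroup.mem_zpowers _)
          · rw [Subgroup.zpowers_le]
            exact Subgroup.mem_sup_right (Subgroup.mem_zpowers _)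
      obtain ⟨S⟩ : Nonempty (Sylow 2 ↥P) := inferInstance
      have hle : P ≤ (S : Subgroup ↥P).map P.subtype := by
        refine (Subgroup.closure_le _).mpr fun r hr => ?_
        exact ⟨⟨r, Subgroup.subset_closure hr⟩,
          hgen _ ⟨_, hr, rfl⟩ S (Subgroup.mem_zpowers _), rfl⟩
      exact (S.isPGroup'.map P.subtype).to_le hle
    haveI := hP.isNilpotent
    obtain ⟨n, hn⟩ := (Subgroup.isNilpotent_iff_lowerCentralSeries P).mp inferInstance
    have step : ∀ k, ∃ r ∈ R, r ∈ P.lowerCentralSeries k := by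
      intro k
      induction k with
      | zero => exact ⟨a, ⟨ha, fun _ => Iff.rfl⟩, Subgroup.subset_closure ⟨ha, fun _ => Iff.rfl⟩⟩
      | succ k ih =>
        obtain ⟨r, hr, hrk⟩ := ih
        obtain ⟨s, hs, hrs⟩ := hno r hr
        obtain ⟨-, hsame⟩ := sq_same hD hc hr.1 hs.1
          (hr.2.symm.trans (hconj s hs r hr).2) hrs
        have h4 := orderOf_four_of hD hr.1 hs.1 hrs (not_adj_of_sameOdd (hr.2.symm.trans hs.2))
        refine ⟨(r * s) ^ 2, ⟨(fourFacts hD hr.1 hs.1 h4).mem, hr.2.trans hsame⟩, ?_⟩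
        rw [Subgroup.lowerCentralSeries_succ]
        have := Subgroup.commutator_mem_commutator hrk (Subgroup.subset_closure hs : s ∈ P)
        rw [commutatorElement_def, inv_eq hD hr.1, inv_eq hD hs.1] at this
        rwa [pow_two, ← mul_assoc]
    obtain ⟨r, hr, hrn⟩ := step n
    rw [hn, Subgroup.mem_bot] at hrn
    exact ne_one hD hr.1 hrn
  obtain ⟨r, hr, hrc⟩ := hcent
  obtain ⟨k, hk, hkR⟩ := sameOdd_transitive hD hc hr.1 ha hr.2.symm
  have hq : k⁻¹ * b * k ∈ R := by
    set R' : Set G := {p | p ∈ D ∧ SameOdd D r p}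
    have hinj : Function.Injective (fun q => k * q * k⁻¹) := fun p q h => by simpa using h
    have him : (fun q => k * q * k⁻¹) '' R' = R' :=
      Set.eq_of_subset_of_ncard_le
        (Set.image_subset_iff.mpr fun q hq => ⟨hD.conj_mem q hq.1 k, hkR q hq.2⟩)
        (by rw [Set.ncard_image_of_injective _ hinj])
    obtain ⟨q, hq, hqb⟩ := him.symm ▸ (show b ∈ R' from ⟨hb, hr.2.symm.trans hab⟩)
    refine ⟨hD.conj_mem b hb k⁻¹ |> (by simpa using ·), hr.2.trans ?_⟩
    rw [← hqb]
    simpa [mul_assoc] using hq.2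
  have h := hrc _ hq
  calc a * b = k * (r * (k⁻¹ * b * k)) * k⁻¹ := by rw [← hk]; group
    _ = k * (k⁻¹ * b * k * r) * k⁻¹ := by rw [h]
    _ = b * a := by rw [← hk]; group

theorem sameOdd_of_commuting [Finite G] (hD : IsRootInvolutionSet D) {d e : G} (hd : d ∈ D) (he : e ∈ D)
    (h : commutingMembers D d = commutingMembers D e) : SameOdd D d e := by
  have key : ∀ {p q : G}, p ∈ D → q ∈ D → commutingMembers D p = commutingMembers D q →
      ∀ x, OddAdj D p x → OddAdj D q x := by
    intro p q hp hq hpq x hx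
    have hqp : q * p = p * q := by
      have h0 : q ∈ commutingMembers D p := by rw [hpq]; exact ⟨hq, rfl⟩
      exact h0.2
    have hn : q * x ≠ x * q := fun e => by
      have h0 : x ∈ commutingMembers D p := by rw [hpq]; exact ⟨hx.2.1, e.symm⟩
      exact not_commute_of_adj hD hx h0.2.symm
    by_contra hodd
    have h4 := orderOf_four_of hD hq hx.2.1 hn hodd
    have F := fourFacts hD hq hx.2.1 h4
    have hzp : (q * x) ^ 2 * p = p * (q * x) ^ 2 := by
      have h0 : (q * x) ^ 2 ∈ commutingMembers D p := by rw [hpq]; exact ⟨F.mem, F.comm_left⟩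
      exact h0.2
    exact kill hD (adj_symm hx) (hD.orderOf_eq _ F.mem) F.comm_right hzp
      (by rw [← F.comm_right]; exact F.right_mem)
  exact fun x => ⟨key hd he h x, key he hd h.symm x⟩

/-- Two classes: a conjugation moving `e` out of its commuting set would enlarge the largest subgroup
contained in a class. -/
theorem commute_transfer [Finite G] (hD : IsRootInvolutionSet D) (hc : IsConnectedSet (OddAdj D) D)
    {d e c : G} (hd : d ∈ D) (he : e ∈ D) (hde : SameOdd D d e) (hcD : c ∈ D) (hcd : c * d = d * c) :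
    c * e = e * c := by
  classical
  by_contra hn
  have hn' : e * c ≠ c * e := fun h => hn h.symm
  have hed : d * e = e * d := commute_of_sameOdd hD hc hd he hde
  have hRd : SameOdd D e (c * e * c) := by
    have := sameOdd_conj_of_commute hD hde hcd
    rw [inv_eq hD hcD] at this
    exact hde.symm.trans this
  obtain ⟨h4, hzR⟩ := sq_same hD hc he hcD hRd hn'
  have Fz := fourFacts hD he hcD h4
  set z := (e * c) ^ 2
  have hblocks : ¬ SameOdd D e c := fun h => hn' (commute_of_sameOdd hD hc he hcD h)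
  have hsep : ∀ p, SameOdd D e p → ¬ SameOdd D c p := fun p h h' => hblocks (h.trans h'.symm)
  -- `s` normalizes the class of `r`
  have hnorm : ∀ {r s : G}, r ∈ D → s ∈ D → r * s = s * r → ∀ p, SameOdd D r p → SameOdd D r (s * p * s) := by
    intro r s hr hs hrs p hp
    have := sameOdd_conj_of_commute hD hp (show Commute s r from hrs.symm)
    rwa [inv_eq hD hs] at this
  have hzc : ∀ p, SameOdd D c p → SameOdd D c (z * p * z) := hnorm hcD Fz.mem Fz.comm_right.symm
  have hmutual : ∀ {r s : G}, r ∈ D → s ∈ D → SameOdd D e r → SameOdd D c s →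
      SameOdd D r (s * r * s) → SameOdd D s (r * s * r) → r * s = s * r := by
    intro r s hr hs hre hsc h1 h2
    by_contra hns
    obtain ⟨-, hu1⟩ := sq_same hD hc hr hs h1 hns
    obtain ⟨-, hu2⟩ := sq_same hD hc hs hr h2 (fun h => hns h.symm)
    have hinv : (s * r) ^ 2 = (r * s) ^ 2 := by
      have hrs4 : (r * s) ^ 4 = 1 := by
        rw [← (sq_same hD hc hr hs h1 hns).1]; exact pow_orderOf_eq_one _
      have : (s * r) ^ 2 * (r * s) ^ 2 = 1 := by
        rw [pow_two, pow_two, show s * r * (s * r) * (r * s * (r * s)) = s * r * s * (r * r) * s * r * s by group,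
          mul_self hD hr, mul_one, show s * r * s * s * r * s = s * r * (s * s) * r * s by group,
          mul_self hD hs, mul_one, mul_assoc s r r, mul_self hD hr, mul_one, mul_self hD hs]
      rw [eq_inv_of_mul_eq_one_left this, inv_eq_iff_mul_eq_one, ← pow_add]
      exact hrs4
    rw [hinv] at hu2
    exact hsep _ (hre.trans hu1) (hsc.trans hu2)
  have hno_e : ∀ s ∈ D, SameOdd D c s → e * s ≠ s * e := by
    intro s hs hsc hes
    refine hn' (hmutual he hcD (fun _ => Iff.rfl) (fun _ => Iff.rfl) hRd ?_)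
    exact hsc.trans (hnorm hs he hes.symm c hsc.symm)
  have hnot_adj : ∀ r s, SameOdd D e r → SameOdd D c s → ¬ OddAdj D r s := fun r s hr hs h =>
    not_adj_of_four h4 (adj_symm ((hs _).mpr (adj_symm ((hr _).mpr h))))
  -- every member of the class of `c` normalizes the class of `e`
  have hA : ∀ c₁ ∈ D, SameOdd D c c₁ → SameOdd D e (c₁ * e * c₁) := by
    intro c₁ hc₁ hcc
    by_contra hmove
    have hno : ∀ r ∈ D, SameOdd D e r → c₁ * r ≠ r * c₁ := fun r hr her hcr =>
      hmove (her.trans (hnorm hr hc₁ hcr.symm e her.symm))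
    have hzD := Fz.mem
    have hz1 : z * c₁ ≠ c₁ * z := fun h => hno z hzD hzR h.symm
    obtain ⟨ht4, htR⟩ := sq_same hD hc hc₁ hzD (hcc.symm.trans (hzc c₁ hcc)) (fun h => hz1 h.symm)
    have Ft := fourFacts hD hc₁ hzD ht4
    set t := (c₁ * z) ^ 2 with htdef
    have htc : SameOdd D c t := hcc.trans htR
    have ht_e : SameOdd D e (t * e * t) := hzR.trans (hnorm hzD Ft.mem Ft.comm_right.symm e hzR.symm)
    obtain ⟨hf4, hfR⟩ := sq_same hD hc he Ft.mem ht_e (hno_e t Ft.mem htc)
    have Ff := fourFacts hD he Ft.mem hf4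
    set f := (e * t) ^ 2 with hfdef
    have hf1 : c₁ * f ≠ f * c₁ := hno f Ff.mem hfR
    have hf_c : SameOdd D c₁ (f * c₁ * f) :=
      (hcc.symm.trans htc).trans (hnorm Ft.mem Ff.mem Ff.comm_right.symm c₁ (htc.symm.trans hcc))
    obtain ⟨hf'4, hf'R⟩ := sq_same hD hc hc₁ Ff.mem hf_c hf1
    have Ff' := fourFacts hD hc₁ Ff.mem hf'4
    set f' := (c₁ * f) ^ 2 with hf'def
    have hv4 := orderOf_four_of hD he hc₁ (hno_e c₁ hc₁ hcc) (hnot_adj e c₁ (fun _ => Iff.rfl) hcc)
    have Fv := fourFacts hD he hc₁ hv4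
    set v := (e * c₁) ^ 2 with hvdef
    -- the two classes meet in a commutative subgroup
    set R : Set G := {p | p ∈ D ∧ SameOdd D e p}
    have hPcomm : ∀ g ∈ Subgroup.closure R, e * g = g * e := by
      intro g hg
      have hle : Subgroup.closure R ≤ Subgroup.centralizer {e} :=
        (Subgroup.closure_le _).mpr fun p hp =>
          Subgroup.mem_centralizer_singleton_iff.mpr (commute_of_sameOdd hD hc hp.1 he hp.2.symm)
      exact (Subgroup.mem_centralizer_singleton_iff.mp (hle hg)).symm
    have hz_e : z * e = e * z := Fz.comm_left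
    have hv' : c₁ * v = v * c₁ := Fv.comm_right.symm
    have he1 : e * c₁ * e = c₁ * v := Fv.conj_right
    have ht_eq : t = z * c₁ * z * c₁ := by
      rw [← inv_eq hD Ft.mem, htdef, pow_two]
      simp only [mul_inv_rev, inv_eq hD hzD, inv_eq hD hc₁, mul_assoc]
    have hez : e * z * e = z := by rw [← hz_e, mul_assoc, mul_self hD he, mul_one]
    have key : e * t * e = z * c₁ * (v * z * v) * c₁ := by
      calc e * t * e = e * (z * c₁ * z * c₁) * e := by rw [ht_eq]
        _ = (e * z * e) * (e * c₁ * e) * (e * z * e) * (e * c₁ * e) := by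
            simp only [← mul_assoc]
            rw [mul_assoc (e * z) e e, mul_self hD he, mul_one, mul_assoc (e * z * c₁) e e, mul_self hD he,
              mul_one, mul_assoc (e * z * c₁ * z) e e, mul_self hD he, mul_one]
        _ = z * (c₁ * v) * z * (c₁ * v) := by rw [hez, he1]
        _ = z * (c₁ * v) * z * (v * c₁) := by rw [hv']
        _ = _ := by group
    have hf_eq : f = c₁ * (z * (v * z * v)) * c₁ := by
      calc f = (t * t) * f := by rw [mul_self hD Ft.mem, one_mul]
        _ = t * (e * t * e) := by rw [mul_assoc, ← Ff.conj_right]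
        _ = (c₁ * z * c₁ * z) * (z * c₁ * (v * z * v) * c₁) := by rw [key, htdef, pow_two]; group
        _ = c₁ * z * (c₁ * (z * z) * c₁) * (v * z * v) * c₁ := by group
        _ = _ := by rw [mul_self hD hzD, mul_one, mul_self hD hc₁, mul_one]; group
    have hvR : SameOdd D e (v * z * v) :=
      hnorm he Fv.mem Fv.comm_left.symm z hzR
    have hf'P : f' ∈ Subgroup.closure R := by
      have e1 : f' = z * (v * z * v) * f := by
        calc f' = (c₁ * f * c₁) * f := by rw [hf'def, pow_two]; group
          _ = (c₁ * c₁) * (z * (v * z * v)) * (c₁ * c₁) * f := by rw [hf_eq]; group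
          _ = _ := by rw [mul_self hD hc₁, one_mul, mul_one]
      rw [e1]
      exact mul_mem (mul_mem (Subgroup.subset_closure ⟨hzD, hzR⟩)
        (Subgroup.subset_closure ⟨conj_mem' hD Fv.mem hzD, hvR⟩)) (Subgroup.subset_closure ⟨Ff.mem, hfR⟩)
    exact hno_e f' Ff'.mem (hcc.trans hf'R) (hPcomm f' hf'P)
  -- largest subgroup inside a class
  obtain ⟨W, ⟨a, haD, hWa⟩, hmax⟩ := Set.exists_max_image
    {W : Subgroup G | ∃ a ∈ D, ∀ w ∈ W, w ≠ 1 → w ∈ D ∧ SameOdd D a w} (fun W => Nat.card W)
    (Set.toFinite _) ⟨⊥, d, hd, fun w hw hw1 => absurd (Subgroup.mem_bot.mp hw) hw1⟩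
  obtain ⟨g, hg⟩ := exists_conj_eq hD hc haD hcD
  set W' : Subgroup G := W.map (MulAut.conj g).toMonoidHom with hW'
  have hW'c : ∀ w ∈ W', w ≠ 1 → w ∈ D ∧ SameOdd D c w := by
    rintro _ ⟨w, hw, rfl⟩ hw1
    obtain ⟨h1, h2⟩ := hWa w hw (fun h => hw1 (by simp [h]))
    refine ⟨hD.conj_mem w h1 g, ?_⟩
    have := sameOdd_conj hD h2 g
    rwa [hg] at this
  have hcard : Nat.card W' = Nat.card W :=
    (Nat.card_congr (W.equivMapOfInjective _ (MulAut.conj g).injective).toEquiv).symm
  have himage : ∀ w ∈ W', w ≠ 1 → (w * e * w * e ∈ D ∧ SameOdd D e (w * e * w * e)) ∧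
      ∀ w' ∈ W', Commute (w * e * w * e) w' := by
    intro w hw hw1
    obtain ⟨hwD, hwc⟩ := hW'c w hw hw1
    obtain ⟨hf4, hfR⟩ := sq_same hD hc he hwD (hA w hwD hwc) (hno_e w hwD hwc)
    have Ff := fourFacts hD he hwD hf4
    have heq : w * e * w * e = (e * w) ^ 2 := by
      rw [← inv_eq hD Ff.mem, pow_two]
      simp only [mul_inv_rev, inv_eq hD he, inv_eq hD hwD, mul_assoc]
    rw [heq]
    refine ⟨⟨Ff.mem, hfR⟩, fun w' hw' => ?_⟩
    by_cases h1 : w' = 1
    · rw [h1]; exact Commute.one_right _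
    obtain ⟨hw'D, hw'c⟩ := hW'c w' hw' h1
    refine hmutual Ff.mem hw'D hfR hw'c (hfR.symm.trans ?_) ?_
    · exact (hA w' hw'D hw'c).trans (by
        have := sameOdd_conj hD hfR w'
        rwa [inv_eq hD hw'D] at this)
    · exact (hw'c.symm.trans hwc).trans
        (hnorm hwD Ff.mem Ff.comm_right.symm w' (hwc.symm.trans hw'c))
  have hcommW : ∀ w ∈ W', ∀ w' ∈ W', Commute (w * e * w * e) w' := by
    intro w hw w' hw'
    by_cases h1 : w = 1
    · simp [h1, mul_self hD he]
    · exact (himage w hw h1).2 w' hw'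
  have hsq : ∀ w ∈ W', w * w = 1 := by
    intro w hw
    by_cases h1 : w = 1
    · simp [h1]
    · exact mul_self hD (hW'c w hw h1).1
  have hWcomm : ∀ w ∈ W', ∀ w' ∈ W', w * w' = w' * w := by
    intro w hw w' hw'
    by_cases h1 : w = 1
    · simp [h1]
    by_cases h2 : w' = 1
    · simp [h2]
    obtain ⟨p, q⟩ := hW'c w hw h1
    obtain ⟨p', q'⟩ := hW'c w' hw' h2
    exact commute_of_sameOdd hD hc p p' (q.symm.trans q')
  have hmul : ∀ w ∈ W', ∀ w' ∈ W', (w * w') * e * (w * w') * e = (w * e * w * e) * (w' * e * w' * e) := by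
    intro w hw w' hw'
    calc (w * w') * e * (w * w') * e = (w' * w) * e * (w * w') * e := by rw [hWcomm w hw w' hw']
      _ = w' * (w * e * w) * w' * e := by group
      _ = w' * (w * e * w * e) * e * w' * e := by
          simp only [mul_assoc]
          rw [← mul_assoc e e, mul_self hD he, one_mul]
      _ = (w * e * w * e) * (w' * e * w' * e) := by
          rw [← (hcommW w hw w' hw').eq]; group
  let φ : ↥W' →* G :=
    { toFun := fun w => (w : G) * e * w * e
      map_one' := by simp [mul_self hD he]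
      map_mul' := fun w w' => by simpa using hmul w w.2 w' w'.2 }
  have hinj : Function.Injective φ := by
    rw [injective_iff_map_eq_one]
    intro w hw
    by_contra h1
    have h1' : (w : G) ≠ 1 := fun h => h1 (Subtype.ext h)
    exact ne_one hD (himage w w.2 h1').1.1 hw
  set U := φ.range
  have hU : ∀ u ∈ U, Commute e u ∧ (u ≠ 1 → u ∈ D ∧ SameOdd D e u ∧ e * u ∈ D ∧ SameOdd D e (e * u)) := by
    rintro _ ⟨w, rfl⟩
    show Commute e ((w : G) * e * w * e) ∧ _
    by_cases h1 : (w : G) = 1
    · have e1 : (w : G) * e * w * e = 1 := by simp [h1, mul_self hD he]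
      exact ⟨by rw [e1]; exact Commute.one_right _, fun h => absurd e1 h⟩
    obtain ⟨⟨hfD, hfR⟩, -⟩ := himage w w.2 h1
    have hcm := commute_of_sameOdd hD hc he hfD hfR
    obtain ⟨hwD, hwc⟩ := hW'c w w.2 h1
    refine ⟨hcm, fun _ => ⟨hfD, hfR, ?_⟩⟩
    have e1 : e * ((w : G) * e * w * e) = (w : G) * e * w := by
      rw [hcm, mul_assoc ((w : G) * e * w) e e, mul_self hD he, mul_one]
    show e * ((w : G) * e * w * e) ∈ D ∧ SameOdd D e (e * ((w : G) * e * w * e))
    rw [e1]
    exact ⟨conj_mem' hD hwD he, hA w hwD hwc⟩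
  have heU : e ∉ U := by
    intro h
    obtain ⟨w, hw⟩ := h
    by_cases h1 : (w : G) = 1
    · exact ne_one hD he (by rw [← hw]; show (w : G) * e * w * e = 1; simp [h1, mul_self hD he])
    · obtain ⟨hwD, hwc⟩ := hW'c w w.2 h1
      apply hno_e w hwD hwc
      have := (hcommW w w.2 w w.2).eq
      rwa [show (w : G) * e * w * e = e from hw] at this
  have hee := mul_self hD he
  let V : Subgroup G :=
    { carrier := {x | x ∈ U ∨ e * x ∈ U}
      one_mem' := Or.inl U.one_mem
      inv_mem' := by
        rintro x (h | h)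
        · exact Or.inl (U.inv_mem h)
        · right
          have h2 := (hU _ h).1
          have : e * x⁻¹ = (e * x)⁻¹ := by
            have h3 : Commute e x := by
              have := ((Commute.refl e).mul_right h2)
              rwa [← mul_assoc, hee, one_mul] at this
            rw [mul_inv_rev, inv_eq hD he]
            exact h3.inv_right.eq
          rw [this]
          exact U.inv_mem h
      mul_mem' := by
        rintro x y (hx | hx) (hy | hy)
        · exact Or.inl (U.mul_mem hx hy)
        · right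
          rw [← mul_assoc, (hU x hx).1.eq, mul_assoc]
          exact U.mul_mem hx hy
        · right
          rw [← mul_assoc]
          exact U.mul_mem hx hy
        · left
          have h2 := (hU _ hx).1
          have h3 : Commute e x := by
            have := ((Commute.refl e).mul_right h2)
            rwa [← mul_assoc, hee, one_mul] at this
          have : x * y = (e * x) * (e * y) := by
            rw [show e * x * (e * y) = e * (x * e) * y by group, ← h3.eq, ← mul_assoc e e x, hee, one_mul]
          rw [this]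
          exact U.mul_mem hx hy }
  have hV : V ∈ {W : Subgroup G | ∃ a ∈ D, ∀ w ∈ W, w ≠ 1 → w ∈ D ∧ SameOdd D a w} := by
    refine ⟨e, he, fun x hx hx1 => ?_⟩
    rcases hx with h | h
    · obtain ⟨a1, a2, -, -⟩ := (hU x h).2 hx1
      exact ⟨a1, a2⟩
    · by_cases h1 : e * x = 1
      · have : x = e := by rw [← inv_eq hD he]; exact (inv_eq_of_mul_eq_one_right h1).symm
        rw [this]
        exact ⟨he, fun _ => Iff.rfl⟩
      · obtain ⟨-, -, a3, a4⟩ := (hU _ h).2 h1
        rw [← mul_assoc, hee, one_mul] at a3 a4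
        exact ⟨a3, a4⟩
  have hlt : Nat.card W < Nat.card V := by
    have hUW : Nat.card U = Nat.card W := by
      rw [← hcard]
      exact (Nat.card_congr (MonoidHom.ofInjective hinj).toEquiv).symm
    rw [← hUW, ← SetLike.coe_sort_coe U, Nat.card_coe_set_eq, ← SetLike.coe_sort_coe V,
      Nat.card_coe_set_eq]
    refine Set.ncard_lt_ncard ⟨fun x hx => Or.inl hx, fun h => heU (h ?_)⟩ (Set.toFinite _)
    exact Or.inr (by rw [hee]; exact U.one_mem)
  exact absurd (hmax V hV) (not_le.mpr hlt)

theorem commutingMembers_eq [Finite G] (hD : IsRootInvolutionSet D) (hc : IsConnectedSet (OddAdj D) D)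
    {d e : G} (hd : d ∈ D) (he : e ∈ D) (h : SameOdd D d e) :
    commutingMembers D d = commutingMembers D e := by
  ext c
  exact ⟨fun hcm => ⟨hcm.1, commute_transfer hD hc hd he h hcm.1 hcm.2⟩,
    fun hcm => ⟨hcm.1, commute_transfer hD hc he hd h.symm hcm.1 hcm.2⟩⟩

theorem mem_commuting_union_four (hD : IsRootInvolutionSet D) {d y : G} (hd : d ∈ D) :
    y ∈ commutingMembers D d ∪ fourPartners D d ↔ y ∈ D ∧ ¬ OddAdj D d y := by
  constructor
  · rintro (⟨hy, h⟩ | ⟨hy, h⟩)
    · exact ⟨hy, fun h' => not_commute_of_adj hD h' h.symm⟩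
    · exact ⟨hy, not_adj_of_four h⟩
  · rintro ⟨hy, hno⟩
    by_cases h : d * y = y * d
    · exact Or.inl ⟨hy, h.symm⟩
    · exact Or.inr ⟨hy, orderOf_four_of hD hd hy h hno⟩

theorem sameCommutingClass_eq [Finite G] (hD : IsRootInvolutionSet D) (hc : IsConnectedSet (OddAdj D) D)
    {d : G} (hd : d ∈ D) :
    sameCommutingClass D d = {e | e ∈ D ∧
      commutingMembers D d ∪ fourPartners D d = commutingMembers D e ∪ fourPartners D e} := by
  ext e
  constructor
  · rintro ⟨he, h⟩
    have hs := sameOdd_of_commuting hD hd he h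
    refine ⟨he, Set.ext fun y => ?_⟩
    rw [mem_commuting_union_four hD hd, mem_commuting_union_four hD he, hs y]
  · rintro ⟨he, h⟩
    refine ⟨he, commutingMembers_eq hD hc hd he fun x => ?_⟩
    have hx := Set.ext_iff.mp h x
    rw [mem_commuting_union_four hD hd, mem_commuting_union_four hD he] at hx
    by_cases hxD : x ∈ D
    · simpa [hxD, not_iff_not] using hx
    · exact ⟨fun h' => absurd h'.2.1 hxD, fun h' => absurd h'.2.1 hxD⟩

end Cfsg.Agent.Fischer.RInv
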