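/-
Root involutions with connected odd graph and a product partner: proper normal subgroups are
2-groups modulo the centre.
-/
import Cfsg.Agent.Fischer.RootInvTwins
import Cfsg.Prelude.Def_QuasithinSetup
import Cfsg.Agent.Core.Cores

set_option autoImplicit false
set_option linter.unusedSectionVars false
set_option linter.style.haveILetI false

namespace Cfsg.Agent.Fischer.RInv

open Cfsg Cfsg.Agent.TwoGroups.RootInv

variable {G : Type*} [Group G] {D : Set G}

theorem exists_productPartner (hD : IsRootInvolutionSet D) (hc : IsConnectedSet (OddAdj D) D)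
    (hDD : (D ∩ commutingProducts D).Nonempty) {a : G} (ha : a ∈ D) :
    ∃ b ∈ D, b * a = a * b ∧ b * a ∈ D := by
  obtain ⟨x, hx, a₀, ha₀, b₀, hb₀, hab, -, rfl⟩ := hDD
  obtain ⟨g, hg⟩ := exists_conj_eq hD hc ha₀ ha
  refine ⟨g * b₀ * g⁻¹, hD.conj_mem b₀ hb₀ g, ?_, ?_⟩
  · rw [← hg]
    calc g * b₀ * g⁻¹ * (g * a₀ * g⁻¹) = g * (b₀ * a₀) * g⁻¹ := by group
      _ = g * (a₀ * b₀) * g⁻¹ := by rw [hab]
      _ = g * a₀ * g⁻¹ * (g * b₀ * g⁻¹) := by group
  · rw [← hg, show g * b₀ * g⁻¹ * (g * a₀ * g⁻¹) = g * (b₀ * a₀) * g⁻¹ by group, ← hab]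
    exact hD.conj_mem _ hx g

/-- A normal subgroup missing `D` moves every member to a commuting one. -/
theorem commute_conj_of_normal (hD : IsRootInvolutionSet D) (hc : IsConnectedSet (OddAdj D) D)
    (hDD : (D ∩ commutingProducts D).Nonempty) {N : Subgroup G} [N.Normal]
    (hN : ∀ d ∈ D, d ∉ N) {a n : G} (ha : a ∈ D) (hn : n ∈ N) :
    a * (n * a * n⁻¹) = n * a * n⁻¹ * a := by
  by_contra hne
  set e := n * a * n⁻¹
  have he : e ∈ D := hD.conj_mem a ha n
  have hmem : a * e ∈ N := by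
    have h1 := (inferInstance : N.Normal).conj_mem n hn a
    have h2 := N.mul_mem h1 (N.inv_mem hn)
    rw [inv_eq hD ha] at h2
    rwa [show a * e = a * n * a * n⁻¹ by simp only [e, mul_assoc]]
  by_cases hodd : OddAdj D a e
  · obtain ⟨b, hb, hba, hbaD⟩ := exists_productPartner hD hc hDD ha
    have hbe := not_commute_partner hD hodd hb hba hbaD
    have himg : (QuotientGroup.mk (b * e) : G ⧸ N) = QuotientGroup.mk (b * a) := by
      rw [QuotientGroup.eq,
        show (b * e)⁻¹ * (b * a) = (a⁻¹ * e)⁻¹ by group, inv_eq hD ha]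
      exact N.inv_mem hmem
    have hsq : (QuotientGroup.mk (b * e) : G ⧸ N) ^ 2 = 1 := by
      rw [himg, ← QuotientGroup.mk_pow, sq_one_of_commute hD hb ha hba, QuotientGroup.mk_one]
    rcases hD.pair b hb e he with h | h | h
    · exact hbe h
    · have hdvd : orderOf (QuotientGroup.mk (b * e) : G ⧸ N) ∣ orderOf (b * e) :=
        orderOf_map_dvd (QuotientGroup.mk' N) _
      have h1 := Nat.eq_one_of_dvd_coprimes (Nat.coprime_two_left.mpr h)
        (orderOf_dvd_of_pow_eq_one hsq) hdvd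
      rw [orderOf_eq_one_iff, himg, QuotientGroup.eq_one_iff] at h1
      exact hN _ hbaD h1
    · rw [← QuotientGroup.mk_pow, QuotientGroup.eq_one_iff] at hsq
      exact hN _ h.2 hsq
  · refine hN _ (fourFacts hD ha he (orderOf_four_of hD ha he hne hodd)).mem ?_
    rw [pow_two]
    exact N.mul_mem hmem hmem

theorem le_twoZCore_of_normal [Finite G] (hD : IsRootInvolutionSet D) (hc : IsConnectedSet (OddAdj D) D)
    (hDD : (D ∩ commutingProducts D).Nonempty) {N : Subgroup G} [N.Normal]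
    (hN : ∀ d ∈ D, d ∉ N) : N ≤ twoZCore G := by
  haveI := Fact.mk Nat.prime_two
  have key : ∀ a ∈ D, ∀ n ∈ N, n * a * n⁻¹ * a ∈ pCore 2 G := by
    intro a ha n hn
    set S : Set G := {e | ∃ k ∈ N, e = k * a * k⁻¹} with hS
    set M := Subgroup.closure S
    have hScomm : ∀ x ∈ S, ∀ y ∈ S, Commute x y := by
      rintro _ ⟨k, hk, rfl⟩ _ ⟨l, hl, rfl⟩
      have h := commute_conj_of_normal hD hc hDD hN ha (N.mul_mem (N.inv_mem hk) hl)
      show k * a * k⁻¹ * (l * a * l⁻¹) = l * a * l⁻¹ * (k * a * k⁻¹)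
      calc k * a * k⁻¹ * (l * a * l⁻¹) = k * (a * (k⁻¹ * l * a * (k⁻¹ * l)⁻¹)) * k⁻¹ := by group
        _ = k * (k⁻¹ * l * a * (k⁻¹ * l)⁻¹ * a) * k⁻¹ := by rw [h]
        _ = _ := by group
    have hMcomm : IsMulCommutative ↥M := Subgroup.isMulCommutative_closure fun x hx y hy => hScomm x hx y hy
    have hM2 : ∀ x ∈ M, x ^ 2 = 1 := by
      intro x hx
      induction hx using Subgroup.closure_induction with
      | mem x hx =>
        obtain ⟨k, -, rfl⟩ := hx
        rw [pow_two, mul_self hD (hD.conj_mem a ha k)]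
      | one => simp
      | mul x y hx hy ihx ihy =>
        have hxy : Commute x y := congrArg Subtype.val (hMcomm.is_comm.comm ⟨x, hx⟩ ⟨y, hy⟩)
        rw [hxy.mul_pow, ihx, ihy, one_mul]
      | inv x _ ih => rw [inv_pow, ih, inv_one]
    have hnorm : ∀ k ∈ N, ∀ x ∈ M, k * x * k⁻¹ ∈ M := by
      intro k hk x hx
      have hle : M.map (MulAut.conj k).toMonoidHom ≤ M := by
        rw [MonoidHom.map_closure, Subgroup.closure_le]
        rintro _ ⟨_, ⟨l, hl, rfl⟩, rfl⟩
        exact Subgroup.subset_closure ⟨k * l, N.mul_mem hk hl, by simp [mul_assoc]⟩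
      exact hle ⟨x, hx, rfl⟩
    have hle : M.subgroupOf N ≤ pCore 2 N := by
      refine Core.le_pCore ⟨fun x hx k => ?_⟩ fun x => ⟨1, ?_⟩
      · exact hnorm k k.2 x hx
      · exact Subtype.ext (Subtype.ext (by simpa using hM2 _ x.2))
    have hmem : n * a * n⁻¹ * a ∈ N := by
      rw [show n * a * n⁻¹ * a = n * (a * n⁻¹ * a) by group]
      refine N.mul_mem hn ?_
      have h1 := (inferInstance : N.Normal).conj_mem n⁻¹ (N.inv_mem hn) a
      rwa [inv_eq hD ha] at h1
    have h2 : n * a * n⁻¹ * a ∈ M := M.mul_mem (Subgroup.subset_closure ⟨n, hn, rfl⟩)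
      (Subgroup.subset_closure ⟨1, N.one_mem, by simp⟩)
    have h3 : (n * a * n⁻¹ * a) ∈ (pCore 2 N).map N.subtype := ⟨⟨_, hmem⟩, hle h2, rfl⟩
    rw [Core.map_pCore_subtype] at h3
    exact h3.1
  intro n hn
  rw [twoZCore, Subgroup.mem_comap, Subgroup.mem_center_iff]
  intro q
  obtain ⟨g, rfl⟩ := QuotientGroup.mk'_surjective (pCore 2 G) q
  have hg : g ∈ Subgroup.closure D := by rw [hD.generates]; trivial
  induction hg using Subgroup.closure_induction with
  | mem a ha =>
    rw [← map_mul, ← map_mul]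
    refine (QuotientGroup.eq.mpr ?_ : ((a * n : G) : G ⧸ pCore 2 G) = ((n * a : G) : G ⧸ pCore 2 G))
    have h := key a ha n⁻¹ (N.inv_mem hn)
    rw [inv_inv] at h
    rwa [mul_inv_rev, inv_eq hD ha, show n⁻¹ * a * (n * a) = n⁻¹ * a * n * a by group]
  | one => simp
  | mul x y _ _ hx hy =>
    rw [map_mul]
    calc _ = QuotientGroup.mk' _ x * (QuotientGroup.mk' _ y * QuotientGroup.mk' _ n) := by group
      _ = (QuotientGroup.mk' _ x * QuotientGroup.mk' _ n) * QuotientGroup.mk' _ y := by rw [hy]; group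
      _ = _ := by rw [hx]; group
  | inv x _ hx =>
    rw [map_inv]
    exact (show Commute (QuotientGroup.mk' _ x) (QuotientGroup.mk' _ n) from hx).inv_left.eq

theorem not_mem_twoZCore [Finite G] (hD : IsRootInvolutionSet D) (hc : IsConnectedSet (OddAdj D) D)
    (hDD : (D ∩ commutingProducts D).Nonempty) {a : G} (ha : a ∈ D) : a ∉ twoZCore G := by
  intro h
  obtain ⟨b, hb, -, hbaD⟩ := exists_productPartner hD hc hDD ha
  have hne : b ≠ a := fun e => ne_one hD hbaD (by rw [e, mul_self hD ha])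
  obtain ⟨x, hx⟩ := exists_adj_of_comp (hc a ha b hb) hne
  obtain ⟨g, hg⟩ := exists_conj_eq_of_adj hD hx
  rw [twoZCore, Subgroup.mem_comap, Subgroup.mem_center_iff] at h
  have himg : QuotientGroup.mk' (pCore 2 G) x = QuotientGroup.mk' (pCore 2 G) a := by
    rw [← hg, map_mul, map_mul, h, map_inv, mul_inv_cancel_right]
  have hmem : a * x ∈ pCore 2 G := by
    rw [← QuotientGroup.eq_one_iff (N := pCore 2 G)]
    show QuotientGroup.mk' _ (a * x) = 1
    rw [map_mul, himg, ← map_mul, mul_self hD ha, map_one]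
  obtain ⟨k, hk⟩ := Core.isPGroup_pCore 2 G ⟨_, hmem⟩
  have h1 : orderOf (a * x) = 1 := Nat.eq_one_of_dvd_coprimes
    ((Nat.coprime_two_left.mpr hx.2.2.2).pow_left k)
    (orderOf_dvd_of_pow_eq_one (congrArg Subtype.val hk)) dvd_rfl
  rw [orderOf_eq_one_iff, mul_eq_one_iff_eq_inv, inv_eq hD hx.2.1] at h1
  exact hx.2.2.1 h1

theorem normal_dichotomy [Finite G] (hD : IsRootInvolutionSet D) (hc : IsConnectedSet (OddAdj D) D)
    (hDD : (D ∩ commutingProducts D).Nonempty) (N : Subgroup G) [hn : N.Normal] :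
    N = ⊤ ∨ N ≤ twoZCore G := by
  by_cases h : ∀ d ∈ D, d ∉ N
  · exact Or.inr (le_twoZCore_of_normal hD hc hDD h)
  · push Not at h
    obtain ⟨d, hd, hdN⟩ := h
    refine Or.inl (eq_top_iff.mpr ?_)
    rw [← hD.generates, Subgroup.closure_le]
    intro e he
    obtain ⟨g, rfl⟩ := exists_conj_eq hD hc hd he
    exact hn.conj_mem d hdN g

theorem radical_and_simple [Finite G] (hD : IsRootInvolutionSet D) (hc : IsConnectedSet (OddAdj D) D)
    (hDD : (D ∩ commutingProducts D).Nonempty) :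
    solvableRadical G = twoZCore G ∧ IsSimpleGroup (G ⧸ twoZCore G) := by
  haveI := Fact.mk Nat.prime_two
  have hnot : ¬ Group.IsSolvable G := by
    intro hs
    obtain ⟨x, hx, a, ha, b, hb, hab, -, rfl⟩ := hDD
    have hDD' : (D ∩ commutingProducts D).Nonempty :=
      ⟨a * b, hx, a, ha, b, hb, hab, ne_one hD hx, rfl⟩
    haveI : Nontrivial G := ⟨⟨a, 1, ne_one hD ha⟩⟩
    have hlt := Group.IsSolvable.commutator_lt_top_of_nontrivial (G := G)
    have hle : commutator G ≤ twoZCore G :=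
      (normal_dichotomy hD hc hDD' (commutator G)).resolve_left hlt.ne
    set π := QuotientGroup.mk' (twoZCore G)
    have hconj : ∀ p ∈ D, ∀ q ∈ D, π p = π q := by
      intro p hp q hq
      obtain ⟨g, rfl⟩ := exists_conj_eq hD hc hp hq
      refine QuotientGroup.eq.mpr (hle ?_)
      have := Subgroup.commutator_mem_commutator (Subgroup.mem_top p⁻¹) (Subgroup.mem_top g)
      rw [commutatorElement_def, inv_inv] at this
      rw [commutator_def]
      simpa [mul_assoc] using this
    have h1 : π a = 1 := by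
      have e2 := hconj _ hx a ha
      rw [map_mul, hconj b hb a ha] at e2
      exact mul_eq_left.mp e2
    exact not_mem_twoZCore hD hc hDD' ha ((QuotientGroup.eq_one_iff a).mp h1)
  have hsolv : Group.IsSolvable ↥(twoZCore G) := by
    haveI : Group.IsNilpotent ↥(pCore 2 G) := (Core.isPGroup_pCore 2 G).isNilpotent
    have hle : pCore 2 G ≤ twoZCore G := fun q hq => by
      rw [twoZCore, Subgroup.mem_comap, QuotientGroup.mk'_apply, (QuotientGroup.eq_one_iff q).mpr hq]
      exact Subgroup.one_mem _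
    haveI : Group.IsSolvable ↥(Subgroup.center (G ⧸ pCore 2 G)) :=
      Group.isSolvable_of_comm fun x y => Subtype.ext ((Subgroup.mem_center_iff.mp y.2 x))
    refine Group.isSolvable_of_ker_le_range (Subgroup.inclusion hle)
      (((QuotientGroup.mk' (pCore 2 G)).comp (twoZCore G).subtype).codRestrict
        (Subgroup.center (G ⧸ pCore 2 G)) fun x => x.2) ?_
    intro x hx
    have : QuotientGroup.mk' (pCore 2 G) (x : G) = 1 := congrArg Subtype.val hx
    exact ⟨⟨x, (QuotientGroup.eq_one_iff (x : G)).mp this⟩, Subtype.ext rfl⟩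
  refine ⟨le_antisymm (sSup_le ?_) (le_sSup ⟨inferInstance, hsolv⟩), ?_⟩
  · rintro N ⟨hn, hs⟩
    haveI := hn
    refine (normal_dichotomy hD hc hDD N).resolve_left fun h => hnot ?_
    subst h
    haveI := hs
    exact Group.isSolvable_of_surjective (f := (⊤ : Subgroup G).subtype) fun g => ⟨⟨g, trivial⟩, rfl⟩
  · obtain ⟨x, hx, a, ha, b, hb, hab, hab1, rfl⟩ := hDD
    have hDD' : (D ∩ commutingProducts D).Nonempty := ⟨a * b, hx, a, ha, b, hb, hab, hab1, rfl⟩
    haveI : Nontrivial (G ⧸ twoZCore G) :=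
      ⟨⟨(a : G ⧸ twoZCore G), 1, fun h =>
        not_mem_twoZCore hD hc hDD' ha ((QuotientGroup.eq_one_iff a).mp h)⟩⟩
    refine ⟨fun K hK => ?_⟩
    haveI := hK
    rcases normal_dichotomy hD hc hDD' (K.comap (QuotientGroup.mk' (twoZCore G))) with h | h
    · right
      rw [← Subgroup.map_comap_eq_self_of_surjective (QuotientGroup.mk'_surjective _) K, h,
        ← MonoidHom.range_eq_map, MonoidHom.range_eq_top.mpr (QuotientGroup.mk'_surjective _)]
    · left
      rw [eq_bot_iff]
      intro q hq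
      obtain ⟨g, rfl⟩ := QuotientGroup.mk'_surjective (twoZCore G) q
      exact Subgroup.mem_bot.mpr ((QuotientGroup.eq_one_iff g).mpr (h hq))

end Cfsg.Agent.Fischer.RInv
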