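/-
Root involutions: a product partner outside the class of `a` is a commutator with `a`, and gives a
partner of `a` with product of order three.
-/
import Cfsg.Agent.Fischer.RootInvTwins

set_option autoImplicit false
set_option linter.unusedSectionVars false

namespace Cfsg.Agent.Fischer.RInv

open Cfsg Cfsg.Agent.TwoGroups.RootInv

variable {G : Type*} [Group G] {D : Set G}

theorem exists_adj_not_adj [Finite G] (hD : IsRootInvolutionSet D) (hc : IsConnectedSet (OddAdj D) D)
    {a b : G} (ha : a ∈ D) (hb : b ∈ D) (h : commutingMembers D a ≠ commutingMembers D b) :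
    ∃ w, OddAdj D a w ∧ ¬ OddAdj D b w := by
  by_contra hno
  push Not at hno
  exact h (commutingMembers_eq hD hc ha hb (sameOdd_of_subset hD hc ha hb hno))

/-- Every product partner outside the class of `a` is the square of a product of order four with `a`. -/
theorem exists_four_sq_eq [Finite G] (hD : IsRootInvolutionSet D) (hc : IsConnectedSet (OddAdj D) D)
    {a b : G} (ha : a ∈ D) (hb : b ∈ productPartners D a)
    (hbE : commutingMembers D a ≠ commutingMembers D b) :
    ∃ β ∈ D, orderOf (a * β) = 4 ∧ (a * β) ^ 2 = b := by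
  obtain ⟨w, haw, hbw⟩ := exists_adj_not_adj hD hc ha hb.1.1 hbE
  set Y : Set G := {p | p ∈ productPartners D a ∧ orderOf (p * w) = 4}
  have hbY : b ∈ Y :=
    ⟨hb, orderOf_four_of hD hb.1.1 haw.2.1 (not_commute_partner hD haw hb.1.1 hb.1.2.1 hb.2) hbw⟩
  have facts : ∀ p ∈ Y, FourFacts D p w ((p * w) ^ 2) ∧ orderOf (a * (p * w) ^ 2) = 4 ∧
      (a * (p * w) ^ 2) ^ 2 ∈ Y := by
    rintro p ⟨⟨⟨hpD, hpa, hpne⟩, hpaD⟩, h4⟩
    have F := fourFacts hD hpD haw.2.1 h4
    set u := (p * w) ^ 2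
    have hua : a * u ≠ u * a := by
      intro h
      refine kill hD (adj_symm haw) (hD.orderOf_eq u F.mem) F.comm_right h.symm ?_
      rw [← F.comm_right]; exact F.right_mem
    have hnadj : ¬ OddAdj D a u := fun h =>
      not_commute_partner hD h hpD hpa hpaD F.comm_left.symm
    have hau := orderOf_four_of hD ha F.mem hua hnadj
    refine ⟨F, hau, ?_⟩
    have Fz := fourFacts hD ha F.mem hau
    set z := (a * u) ^ 2
    have hzw : z * w ≠ w * z := not_commute_partner hD haw Fz.mem Fz.comm_left Fz.left_mem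
    have hzadj : ¬ OddAdj D z w := fun h =>
      not_commute_partner hD h F.mem Fz.comm_right.symm (by rw [← Fz.comm_right]; exact Fz.right_mem)
        F.comm_right
    exact ⟨⟨⟨Fz.mem, Fz.comm_left, Fz.ne_left⟩, Fz.left_mem⟩,
      orderOf_four_of hD Fz.mem haw.2.1 hzw hzadj⟩
  let F : Y → Y := fun p => ⟨_, (facts p p.2).2.2⟩
  have hinj : Function.Injective F := by
    rintro ⟨p₁, hp₁⟩ ⟨p₂, hp₂⟩ heq
    have heq' : (a * (p₁ * w) ^ 2) ^ 2 = (a * (p₂ * w) ^ 2) ^ 2 := congrArg Subtype.val heq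
    obtain ⟨F₁, h₁, -⟩ := facts p₁ hp₁
    obtain ⟨F₂, h₂, -⟩ := facts p₂ hp₂
    set u₁ := (p₁ * w) ^ 2
    set u₂ := (p₂ * w) ^ 2
    obtain ⟨⟨⟨hp₁D, hp₁a, -⟩, hp₁aD⟩, -⟩ := hp₁
    obtain ⟨⟨⟨hp₂D, hp₂a, -⟩, hp₂aD⟩, -⟩ := hp₂
    have e1 : u₁ * a * u₁ = u₂ * a * u₂ := by
      rw [(fourFacts hD ha F₁.mem h₁).conj_left, (fourFacts hD ha F₂.mem h₂).conj_left, heq']
    have hadj : OddAdj D (w * u₁) a := by
      have h := adj_conj hD (adj_symm haw) p₁
      rw [inv_eq hD hp₁D, F₁.conj_right, hp₁a, mul_assoc a p₁ p₁, mul_self hD hp₁D, mul_one] at h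
      exact h
    have hu : u₁ = u₂ := by
      refine eq_of_centralize hD F₁.mem F₂.mem F₁.comm_right F₂.comm_right
        (by rw [← F₁.comm_right]; exact F₁.right_mem) (by rw [← F₂.comm_right]; exact F₂.right_mem)
        haw.2.1 hadj ?_
      show u₁ * u₂ * a = a * (u₁ * u₂)
      calc u₁ * u₂ * a = u₁ * (u₂ * a * u₂) * u₂ := by
            simp only [mul_assoc, mul_self hD F₂.mem, mul_one]
        _ = u₁ * (u₁ * a * u₁) * u₂ := by rw [e1]
        _ = (u₁ * u₁) * a * (u₁ * u₂) := by group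
        _ = a * (u₁ * u₂) := by rw [mul_self hD F₁.mem, one_mul]
    have e2 : p₁ * w * p₁ = p₂ * w * p₂ := by rw [F₁.conj_right, F₂.conj_right]; exact congrArg _ hu
    have hadj' : OddAdj D (a * p₁) w := by
      rcases adj_or_adj hD haw hp₁D hp₁a hp₁aD with h | h
      · exact absurd h (not_adj_of_four (by assumption))
      · rwa [hp₁a] at h
    have hp : p₁ = p₂ := by
      refine eq_of_centralize hD hp₁D hp₂D hp₁a hp₂a (by rw [← hp₁a]; exact hp₁aD)
        (by rw [← hp₂a]; exact hp₂aD) ha hadj' ?_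
      show p₁ * p₂ * w = w * (p₁ * p₂)
      calc p₁ * p₂ * w = p₁ * (p₂ * w * p₂) * p₂ := by
            simp only [mul_assoc, mul_self hD hp₂D, mul_one]
        _ = p₁ * (p₁ * w * p₁) * p₂ := by rw [e2]
        _ = (p₁ * p₁) * w * (p₁ * p₂) := by group
        _ = w * (p₁ * p₂) := by rw [mul_self hD hp₁D, one_mul]
    exact Subtype.ext hp
  obtain ⟨⟨p, hp⟩, hFp⟩ := Finite.surjective_of_injective hinj ⟨b, hbY⟩
  exact ⟨_, (facts p hp).1.mem, (facts p hp).2.1, congrArg Subtype.val hFp⟩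

theorem exists_four_order_three [Finite G] (hD : IsRootInvolutionSet D) (hc : IsConnectedSet (OddAdj D) D)
    {a b : G} (ha : a ∈ D) (hb : b ∈ productPartners D a) (hbE : b ∉ sameCommutingClass D a) :
    ∃ x ∈ fourPartners D b, orderOf (a * x) = 3 := by
  have hbE' : commutingMembers D a ≠ commutingMembers D b := fun h => hbE ⟨hb.1.1, h⟩
  obtain ⟨β, hβ, h4, hsq⟩ := exists_four_sq_eq hD hc ha hb hbE'
  have F := fourFacts hD ha hβ h4
  rw [hsq] at F
  have hβX : β ∈ productPartners D b :=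
    ⟨⟨hβ, F.comm_right.symm, F.ne_right.symm⟩, by rw [← F.comm_right]; exact F.right_mem⟩
  have hne : commutingMembers D b ≠ commutingMembers D β := fun h =>
    not_commute_of_four hD ha hβ h4 ((h ▸ (⟨ha, F.comm_left.symm⟩ : a ∈ commutingMembers D b) :
      a ∈ commutingMembers D β)).2
  obtain ⟨v, hv, hv4, hvsq⟩ := exists_four_sq_eq hD hc hb.1.1 hβX hne
  have Fv := fourFacts hD hb.1.1 hv hv4
  rw [hvsq] at Fv
  refine ⟨v, ⟨hv, hv4⟩, ?_⟩
  have hb2 := mul_self hD hb.1.1
  have hbβ : b * β = β * b := F.comm_right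
  set g := a * v with hg
  have hgi : g⁻¹ = v * a := by rw [hg, mul_inv_rev, inv_eq hD hv, inv_eq hD ha]
  have g1 : g * b * g⁻¹ = β := by
    calc g * b * g⁻¹ = a * (v * b * v) * a := by rw [hgi, hg]; group
      _ = a * (b * β) * a := by rw [Fv.conj_left]
      _ = (a * b) * (β * a) := by group
      _ = (b * a) * (β * a) := by rw [F.comm_left]
      _ = b * (a * β * a) := by group
      _ = b * (β * b) := by rw [F.conj_right]
      _ = β := by rw [← hbβ, ← mul_assoc, hb2, one_mul]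
  have g2 : g * β * g⁻¹ = β * b := by
    calc g * β * g⁻¹ = a * (v * β * v) * a := by rw [hgi, hg]; group
      _ = a * β * a := by
          rw [← Fv.comm_right, mul_assoc β v v, mul_self hD hv, mul_one]
      _ = _ := F.conj_right
  have g3 : g ^ 3 * b * (g ^ 3)⁻¹ = b := by
    calc g ^ 3 * b * (g ^ 3)⁻¹ = g * (g * (g * b * g⁻¹) * g⁻¹) * g⁻¹ := by
          simp only [pow_succ, pow_zero, one_mul, mul_inv_rev, mul_assoc]
      _ = g * (β * b) * g⁻¹ := by rw [g1, g2]
      _ = (g * β * g⁻¹) * (g * b * g⁻¹) := by group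
      _ = β * b * β := by rw [g1, g2]
      _ = b := by rw [← hbβ, mul_assoc, mul_self hD hβ, mul_one]
  have hb_ne : g * b * g⁻¹ ≠ b := by rw [g1]; exact F.ne_right.symm
  have hodd : Odd (orderOf g) := by
    rcases hD.pair a ha v hv with h | h | h
    · exfalso
      have h2 : g ^ 2 = 1 := sq_one_of_commute hD ha hv h
      have : g ^ 3 = g := by rw [pow_succ, h2, one_mul]
      rw [this] at g3
      exact hb_ne g3
    · exact h
    · exfalso
      apply hb_ne
      have h4' : g ^ 4 = 1 := h.1 ▸ pow_orderOf_eq_one g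
      have hc3 : Commute (g ^ 3) b := (mul_inv_eq_iff_eq_mul.mp g3)
      have : g = (g ^ 3) ^ 3 := by
        rw [← pow_mul, show 3 * 3 = 4 * 2 + 1 from rfl, pow_succ, pow_mul, h4', one_pow, one_mul]
      rw [this, (hc3.pow_left 3).eq, mul_inv_cancel_right]
  set h := g ^ 3 with hh
  have h1 : h = 1 := by
    by_contra hh1
    have hhb : Commute h b := mul_inv_eq_iff_eq_mul.mp g3
    have hoh : Odd (orderOf h) := hodd.of_dvd_nat (orderOf_pow_dvd 3)
    have haga : a * g * a = g⁻¹ := by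
      rw [hgi, hg, ← mul_assoc a a v, mul_self hD ha, one_mul]
    have haha : a * h * a = h⁻¹ := by
      rw [hh, ← inv_pow, ← haga]
      calc a * g ^ 3 * a = a * g ^ 3 * a⁻¹ := by rw [inv_eq hD ha]
        _ = (a * g * a⁻¹) ^ 3 := conj_pow.symm
        _ = (a * g * a) ^ 3 := by rw [inv_eq hD ha]
    have hsub : h * a * h⁻¹ * a = h ^ 2 := by
      calc h * a * h⁻¹ * a = h * (a * h * a)⁻¹ := by
            simp only [mul_inv_rev, inv_eq hD ha]; group
        _ = h * h := by rw [haha, inv_inv]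
        _ = h ^ 2 := (pow_two h).symm
    have hord : orderOf (h * a * h⁻¹ * a) = orderOf h := by
      rw [hsub, (Nat.coprime_two_right.mpr hoh).orderOf_pow]
    refine kill hD (⟨hD.conj_mem a ha h, ha, fun e => ?_, by rw [hord]; exact hoh⟩ : OddAdj D (h * a * h⁻¹) a)
      (hD.orderOf_eq b hb.1.1) ?_ (show Commute b a from F.comm_left) ?_
    · rw [e, mul_self hD ha, orderOf_one] at hord
      exact hh1 (orderOf_eq_one_iff.mp hord.symm)
    · exact (hhb.symm.mul_right F.comm_left).mul_right hhb.symm.inv_right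
    · have : h * a * h⁻¹ * b = h * (a * b) * h⁻¹ := by
        rw [mul_assoc _ h⁻¹ b, hhb.inv_left.eq]; group
      rw [this]
      exact hD.conj_mem _ (by rw [← F.comm_left]; exact hb.2) h
  refine orderOf_eq_prime h1 fun e => hb_ne ?_
  rw [e]; group

end Cfsg.Agent.Fischer.RInv
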