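import Cfsg.Agent.Fischer.SmallPair

/-! The relations of the special linear group in dimension two over a prime field bound the order. -/

set_option autoImplicit false

namespace Cfsg.Agent.Fischer.SL2Rel

variable {P : Type*} [Group P] {p : ℕ} [hp : Fact p.Prime] (s t : P)

/-- powers of `s` indexed by the prime field -/
def sp (x : ZMod p) : P := s ^ x.val

/-- the element interchanging the two unipotent subgroups -/
def N (u : ZMod p) : P := sp s u * sp t u⁻¹ * sp s u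

/-- the diagonal element -/
def h (u : ZMod p) : P := N s t u * (N s t (1 : ZMod p))⁻¹

variable {s t} {hs : s ^ p = 1} {ht : t ^ p = 1}

theorem sp_add (hs : s ^ p = 1) (x y : ZMod p) : sp s (x + y) = sp s x * sp s y := by
  unfold sp
  rw [← pow_add, ZMod.val_add, ← pow_eq_pow_mod _ hs]

theorem sp_zero : sp s (0 : ZMod p) = 1 := by simp [sp]

theorem sp_one : sp s (1 : ZMod p) = s := by
  haveI : Fact (1 < p) := ⟨hp.1.one_lt⟩
  simp [sp, ZMod.val_one]

theorem sp_neg (hs : s ^ p = 1) (x : ZMod p) : sp s (-x) = (sp s x)⁻¹ :=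
  eq_inv_of_mul_eq_one_left (by rw [← sp_add hs, neg_add_cancel, sp_zero])

theorem sp_natCast (hs : s ^ p = 1) (k : ℕ) : sp s (k : ZMod p) = s ^ k := by
  unfold sp; rw [ZMod.val_natCast, ← pow_eq_pow_mod _ hs]

theorem semiconj_sp {g r : P} (hs : s ^ p = 1) (hr : r ^ p = 1) {k : ZMod p}
    (e : g * s = sp r k * g) (x : ZMod p) : g * sp s x = sp r (k * x) * g := by
  have : ∀ m : ℕ, g * sp s (m : ZMod p) = sp r (k * (m : ZMod p)) * g := by
    intro m
    induction m with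
    | zero => simp [sp_zero]
    | succ m ih =>
      rw [Nat.cast_succ, sp_add hs, ← mul_assoc, ih, sp_one, mul_assoc, e, ← mul_assoc,
        ← sp_add hr, mul_add, mul_one]
  simpa using this x.val

/-- the defining relations -/
structure Rel (p : ℕ) [Fact p.Prime] (s t : P) : Prop where
  hs : s ^ p = 1
  ht : t ^ p = 1
  conj_s : ∀ u : ZMod p, u ≠ 0 → N s t u * s = sp t (u * u)⁻¹ * N s t u
  conj_t : ∀ u : ZMod p, u ≠ 0 → N s t u * t = sp s (u * u) * N s t u

variable (R : Rel p s t)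
include R

theorem N_sp {u : ZMod p} (hu : u ≠ 0) (x : ZMod p) :
    N s t u * sp s x = sp t (x / (u * u)) * N s t u := by
  rw [semiconj_sp R.hs R.ht (R.conj_s u hu) x, div_eq_inv_mul]

theorem N_tp {u : ZMod p} (hu : u ≠ 0) (x : ZMod p) :
    N s t u * sp t x = sp s (u * u * x) * N s t u :=
  semiconj_sp R.ht R.hs (R.conj_t u hu) x

theorem braid {u : ZMod p} (hu : u ≠ 0) : N s t u = sp t u⁻¹ * sp s u * sp t u⁻¹ := by
  have e := N_sp R hu u
  rw [show u / (u * u) = u⁻¹ by field_simp] at e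
  apply mul_right_cancel (b := sp s u)
  rw [e]; simp only [N, mul_assoc]

theorem N_neg (u : ZMod p) : N s t (-u) = (N s t u)⁻¹ := by
  simp only [N, inv_neg, sp_neg R.hs, sp_neg R.ht]; group

theorem N_N {u v : ZMod p} (hu : u ≠ 0) (hv : v ≠ 0) :
    N s t u * N s t v = N s t (u * u / v) * N s t u := by
  rw [braid R (div_ne_zero (mul_ne_zero hu hu) hv), inv_div]
  calc N s t u * (sp s v * sp t v⁻¹ * sp s v) = N s t u * sp s v * sp t v⁻¹ * sp s v := by group
    _ = sp t (v / (u * u)) * (N s t u * sp t v⁻¹) * sp s v := by rw [N_sp R hu]; group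
    _ = sp t (v / (u * u)) * sp s (u * u * v⁻¹) * (N s t u * sp s v) := by rw [N_tp R hu]; group
    _ = _ := by rw [N_sp R hu, ← div_eq_mul_inv]; group

theorem h_n (u : ZMod p) : h s t u * N s t (1 : ZMod p) = N s t u := by simp [h]

theorem h_one : h s t (1 : ZMod p) = 1 := by simp [h]

theorem h_sp {u : ZMod p} (hu : u ≠ 0) (x : ZMod p) :
    h s t u * sp s x = sp s (u * u * x) * h s t u := by
  unfold h
  rw [← N_neg R, mul_assoc, N_sp R (neg_ne_zero.2 one_ne_zero), ← mul_assoc, N_tp R hu, mul_assoc]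
  simp

theorem h_tp {u : ZMod p} (hu : u ≠ 0) (x : ZMod p) :
    h s t u * sp t x = sp t (x / (u * u)) * h s t u := by
  unfold h
  rw [← N_neg R, mul_assoc, N_tp R (neg_ne_zero.2 one_ne_zero), ← mul_assoc, N_sp R hu, mul_assoc]
  simp

theorem n_h {v : ZMod p} (hv : v ≠ 0) : N s t (1 : ZMod p) * h s t v = h s t v⁻¹ * N s t (1 : ZMod p) := by
  rw [h_n R, h, ← mul_assoc, N_N R one_ne_zero hv, mul_inv_cancel_right, one_mul, one_div]

theorem h_N {u v : ZMod p} (hu : u ≠ 0) (hv : v ≠ 0) :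
    h s t u * N s t v = N s t (u * u * v) * h s t u := by
  calc h s t u * (sp s v * sp t v⁻¹ * sp s v) = h s t u * sp s v * sp t v⁻¹ * sp s v := by group
    _ = sp s (u * u * v) * (h s t u * sp t v⁻¹) * sp s v := by rw [h_sp R hu]; group
    _ = sp s (u * u * v) * sp t (v⁻¹ / (u * u)) * (h s t u * sp s v) := by rw [h_tp R hu]; group
    _ = _ := by
      rw [h_sp R hu, N, show (u * u * v)⁻¹ = v⁻¹ / (u * u) by field_simp]; group

theorem h_h {u v : ZMod p} (hu : u ≠ 0) (hv : v ≠ 0) :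
    h s t u * h s t v = h s t (u * u * v) * h s t u⁻¹ := by
  apply mul_right_cancel (b := N s t (1 : ZMod p))
  rw [mul_assoc, h_n R, h_N R hu hv, ← h_n R (u * u * v), mul_assoc (h s t _), n_h R hu, ← mul_assoc]

theorem comm_of_fix {x : P} (e1 : x * s = s * x) (e2 : x * t = t * x) (u : ZMod p) :
    Commute x (h s t u) := by
  have a1 : ∀ y : ZMod p, Commute x (sp s y) := fun y => (show Commute x s from e1).pow_right _
  have a2 : ∀ y : ZMod p, Commute x (sp t y) := fun y => (show Commute x t from e2).pow_right _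
  exact (((a1 _).mul_right (a2 _)).mul_right (a1 _)).mul_right
    (((a1 _).mul_right (a2 _)).mul_right (a1 _)).inv_right

theorem h_comm {u v : ZMod p} (hu : u ≠ 0) (hv : v ≠ 0) : Commute (h s t u) (h s t v) := by
  obtain ⟨g, hg⟩ := IsCyclic.exists_generator (α := (ZMod p)ˣ)
  have key : ∀ i : ℕ, ∀ x : ZMod p, h s t (g : ZMod p) ^ i * sp s x =
      sp s (((g : ZMod p) ^ i * (g : ZMod p) ^ i) * x) * h s t (g : ZMod p) ^ i ∧
      h s t (g : ZMod p) ^ i * sp t x =
      sp t (x / ((g : ZMod p) ^ i * (g : ZMod p) ^ i)) * h s t (g : ZMod p) ^ i := by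
    intro i
    induction i with
    | zero => intro x; simp
    | succ i ih =>
      intro x
      constructor
      · rw [pow_succ, mul_assoc, h_sp R g.ne_zero, ← mul_assoc, (ih _).1, mul_assoc]
        congr 2; ring
      · rw [pow_succ, mul_assoc, h_tp R g.ne_zero, ← mul_assoc, (ih _).2, mul_assoc]
        congr 2; field_simp; ring
  have split : ∀ w : ZMod p, w ≠ 0 → ∃ (i : ℕ) (z : P), z * s = s * z ∧ z * t = t * z ∧
      h s t w = h s t (g : ZMod p) ^ i * z := by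
    intro w hw
    obtain ⟨i, hi⟩ := (mem_powers_iff_mem_zpowers).2 (hg (Units.mk0 w hw))
    have hi' : (g : ZMod p) ^ i = w := by
      have := congrArg Units.val hi
      simpa using this
    refine ⟨i, (h s t (g : ZMod p) ^ i)⁻¹ * h s t w, ?_, ?_, by group⟩
    · have e1 := h_sp R hw 1
      have e2 := (key i 1).1
      rw [sp_one, mul_one] at e1 e2
      rw [hi'] at e2
      rw [mul_assoc, e1, inv_mul_eq_iff_eq_mul, ← mul_assoc, ← mul_assoc, e2]
      group
    · have e1 := h_tp R hw 1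
      have e2 := (key i 1).2
      rw [sp_one] at e1 e2
      rw [hi'] at e2
      rw [mul_assoc, e1, inv_mul_eq_iff_eq_mul, ← mul_assoc, ← mul_assoc, e2]
      group
  have hgu : ∀ w : ZMod p, w ≠ 0 → Commute (h s t (g : ZMod p)) (h s t w) := by
    intro w hw
    obtain ⟨i, z, z1, z2, e⟩ := split w hw
    rw [e]
    exact ((Commute.refl _).pow_right _).mul_right (comm_of_fix R z1 z2 _).symm
  obtain ⟨i, z, z1, z2, e⟩ := split u hu
  rw [e]
  exact ((hgu v hv).pow_left _).mul_left (comm_of_fix R z1 z2 _)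

theorem h_sq_mul {u v : ZMod p} (hu : u ≠ 0) (hv : v ≠ 0) :
    h s t (u * u * v) = h s t (u * u) * h s t v := by
  have e1 := h_h R hu hv
  have e2 := h_h R hu (one_ne_zero (α := ZMod p))
  rw [h_one R, mul_one, mul_one] at e2
  rw [e2, mul_assoc, (h_comm R (inv_ne_zero hu) hv).eq, ← mul_assoc] at e1
  exact (mul_right_cancel e1).symm

theorem h_add {a b : ZMod p} (ha : a ≠ 0) (hb : b ≠ 0) (hc : a + b ≠ 0) :
    h s t a * (h s t (a + b))⁻¹ * h s t b = h s t (a * b / (a + b)) := by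
  obtain ⟨c, hcdef⟩ : ∃ c, c = a + b := ⟨_, rfl⟩
  rw [← hcdef] at hc ⊢
  obtain ⟨d, hd⟩ : ∃ d, d = a * b / c := ⟨_, rfl⟩
  have hd0 : d ≠ 0 := hd ▸ div_ne_zero (mul_ne_zero ha hb) hc
  have hy : ∀ w : ZMod p, sp t w⁻¹ = sp s (-w) * N s t w * sp s (-w) := fun w => by
    rw [sp_neg R.hs, N]; group
  have hm : sp s (-c) = sp t c⁻¹ * N s t (-c) * sp t c⁻¹ := by
    rw [braid R (neg_ne_zero.2 hc), inv_neg, sp_neg R.ht]; group
  have e : sp t d⁻¹ = sp t a⁻¹ * sp t b⁻¹ := by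
    rw [← sp_add R.ht, hd, inv_div, hcdef]
    congr 1; field_simp; ring
  rw [hy d, hy a, hy b] at e
  have e2 : sp s (-a) * N s t a * sp s (-a) * (sp s (-b) * N s t b * sp s (-b)) =
      sp s (-d) * (N s t a * N s t (-c) * N s t b) * sp s (-d) := by
    calc sp s (-a) * N s t a * sp s (-a) * (sp s (-b) * N s t b * sp s (-b))
        = sp s (-a) * N s t a * (sp s (-a) * sp s (-b)) * N s t b * sp s (-b) := by group
      _ = sp s (-a) * (N s t a * sp t c⁻¹) * N s t (-c) * (sp t c⁻¹ * N s t b) * sp s (-b) := by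
        rw [← sp_add R.hs, show -a + -b = -c by rw [hcdef]; ring, hm]; group
      _ = (sp s (-a) * sp s (a * a * c⁻¹)) * (N s t a * N s t (-c) * N s t b) *
            (sp s (b * b * c⁻¹) * sp s (-b)) := by
        rw [N_tp R ha, show sp t c⁻¹ * N s t b = N s t b * sp s (b * b * c⁻¹) by
          rw [N_sp R hb]; congr 2; field_simp]
        group
      _ = _ := by
        rw [← sp_add R.hs, ← sp_add R.hs, show -a + a * a * c⁻¹ = -d by
          rw [hd]; field_simp; rw [hcdef]; ring, show b * b * c⁻¹ + -b = -d by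
          rw [hd]; field_simp; rw [hcdef]; ring]
  rw [e2] at e
  have e3 := mul_left_cancel (mul_right_cancel e)
  rw [← hd]
  apply mul_right_cancel (b := N s t (1 : ZMod p))
  rw [h_n R, e3, N_neg R, ← h_n R a, ← h_n R b, ← h_n R c]
  group

theorem h_mul {u v : ZMod p} (hu : u ≠ 0) (hv : v ≠ 0) :
    h s t (u * v) = h s t u * h s t v := by
  by_cases hsu : IsSquare u
  · obtain ⟨r, rfl⟩ := hsu
    exact h_sq_mul R (left_ne_zero_of_mul hu) hv
  by_cases hsv : IsSquare v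
  · obtain ⟨r, rfl⟩ := hsv
    rw [mul_comm u, h_sq_mul R (left_ne_zero_of_mul hv) hu, (h_comm R hv hu).eq]
  obtain ⟨x, y, hxy⟩ := ZMod.sq_add_sq p u⁻¹
  have hx : x ≠ 0 := by
    rintro rfl
    exact hsu ⟨y⁻¹, by rw [← mul_inv, ← inv_inv u, ← hxy]; ring_nf⟩
  have hy : y ≠ 0 := by
    rintro rfl
    exact hsu ⟨x⁻¹, by rw [← mul_inv, ← inv_inv u, ← hxy]; ring_nf⟩
  have hone : x * x * u + y * y * u = 1 := by
    rw [← add_mul, ← sq, ← sq, hxy, inv_mul_cancel₀ hu]
  have hsum := h_add R (mul_ne_zero (mul_ne_zero hx hx) hu) (mul_ne_zero (mul_ne_zero hy hy) hu)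
    (by rw [hone]; exact one_ne_zero)
  rw [hone, h_one R, inv_one, mul_one, div_one, h_sq_mul R hx hu, h_sq_mul R hy hu,
    show x * x * u * (y * y * u) = x * x * (y * y * (u * u)) by ring,
    h_sq_mul R hx (mul_ne_zero (mul_ne_zero hy hy) (mul_ne_zero hu hu)),
    h_sq_mul R hy (mul_ne_zero hu hu)] at hsum
  have hcu : Commute (h s t u) (h s t (y * y)) := h_comm R hu (mul_ne_zero hy hy)
  have hsame : h s t u * h s t u = h s t (u * u) := by
    rw [mul_assoc, mul_right_inj] at hsum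
    rw [← mul_assoc, hcu.eq, mul_assoc, mul_right_inj] at hsum
    exact hsum
  -- both factors are non-squares, so their quotient is a square
  have hsq : IsSquare (v * u⁻¹) := by
    have : quadraticChar (ZMod p) (v * u⁻¹) = 1 := by
      rw [map_mul]
      have e1 := quadraticChar_neg_one_iff_not_isSquare.2 hsv
      have e2 : quadraticChar (ZMod p) u⁻¹ = -1 :=
        quadraticChar_neg_one_iff_not_isSquare.2 (fun e => hsu (by simpa using e.inv))
      rw [e1, e2]; norm_num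
    exact (quadraticChar_one_iff_isSquare (mul_ne_zero hv (inv_ne_zero hu))).1 this
  obtain ⟨r, hr⟩ := hsq
  have hr0 : r ≠ 0 := by rintro rfl; simp [hu, hv] at hr
  have hv' : v = r * r * u := by rw [← hr, inv_mul_cancel_right₀ hu]
  rw [hv', show u * (r * r * u) = r * r * (u * u) by ring, h_sq_mul R hr0 (mul_ne_zero hu hu),
    h_sq_mul R hr0 hu, ← hsame, ← mul_assoc, ← mul_assoc,
    (h_comm R hu (mul_ne_zero hr0 hr0)).eq]

theorem n_n : N s t (1 : ZMod p) * N s t (1 : ZMod p) = h s t (-1 : ZMod p) := by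
  have e : h s t (-1 : ZMod p) * h s t (-1 : ZMod p) = 1 := by
    rw [← h_mul R (neg_ne_zero.2 one_ne_zero) (neg_ne_zero.2 one_ne_zero)]
    simp [h_one R]
  rw [← inv_eq_of_mul_eq_one_right e, h, N_neg R, mul_inv_rev, inv_inv]

theorem n_sp_n {w : ZMod p} (hw : w ≠ 0) : N s t (1 : ZMod p) * sp s w * N s t (1 : ZMod p) =
    sp s (-w⁻¹) * h s t (-w⁻¹) * N s t (1 : ZMod p) * sp s (-w⁻¹) := by
  have hty : sp t w = sp s (-w⁻¹) * (h s t w⁻¹ * N s t (1 : ZMod p)) * sp s (-w⁻¹) := by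
    rw [h_n R, sp_neg R.hs, N, inv_inv]; group
  have hm1 : (-1 : ZMod p) ≠ 0 := neg_ne_zero.2 one_ne_zero
  rw [N_sp R one_ne_zero, one_mul, div_one, mul_assoc, n_n R, hty]
  calc sp s (-w⁻¹) * (h s t w⁻¹ * N s t (1 : ZMod p)) * sp s (-w⁻¹) * h s t (-1 : ZMod p)
      = sp s (-w⁻¹) * h s t w⁻¹ * N s t (1 : ZMod p) * (h s t (-1 : ZMod p) * sp s (-w⁻¹)) := by
        rw [h_sp R hm1, neg_one_mul (-1 : ZMod p), neg_neg, one_mul]; group
    _ = sp s (-w⁻¹) * (h s t w⁻¹ * (N s t (1 : ZMod p) * h s t (-1 : ZMod p))) * sp s (-w⁻¹) := by group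
    _ = _ := by
      rw [n_h R hm1, inv_neg_one, ← mul_assoc (h s t w⁻¹), ← h_mul R (inv_ne_zero hw) hm1,
        mul_neg_one]
      group

open Classical in
theorem bound : ∃ T : Finset P, T.card ≤ p * (p ^ 2 - 1) ∧
    ∀ x ∈ Subgroup.closure ({s, t} : Set P), x ∈ T := by
  let U := {u : ZMod p // u ≠ 0}
  let f₁ : ZMod p × U → P := fun q => sp s q.1 * h s t q.2.1
  let f₂ : ZMod p × U × ZMod p → P := fun q => sp s q.1 * h s t q.2.1.1 * N s t (1 : ZMod p) * sp s q.2.2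
  refine ⟨Finset.univ.image f₁ ∪ Finset.univ.image f₂, ?_, ?_⟩
  · refine (Finset.card_union_le _ _).trans
      ((Nat.add_le_add Finset.card_image_le Finset.card_image_le).trans ?_)
    have hU : Fintype.card U = p - 1 := by
      simp [U, Fintype.card_subtype_compl, ZMod.card]
    simp only [Finset.card_univ, Fintype.card_prod, ZMod.card, hU]
    obtain ⟨q, rfl⟩ : ∃ q, p = q + 1 := ⟨p - 1, (Nat.sub_add_cancel hp.1.one_le).symm⟩
    rw [show (q + 1) ^ 2 - 1 = q * (q + 2) by rw [show (q + 1) ^ 2 = q * (q + 2) + 1 by ring]; simp]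
    simp only [Nat.add_sub_cancel]
    exact le_of_eq (by ring)
  intro x hx
  set T : Set P := ↑(Finset.univ.image f₁ ∪ Finset.univ.image f₂) with hT
  have hmem : ∀ {y : P}, y ∈ T ↔ (∃ (a : ZMod p) (u : ZMod p), u ≠ 0 ∧ sp s a * h s t u = y) ∨
      ∃ (a u b : ZMod p), u ≠ 0 ∧ sp s a * h s t u * N s t (1 : ZMod p) * sp s b = y := by
    intro y
    simp [hT, f₁, f₂, U]
  have hs' : ∀ (c : ZMod p), ∀ y ∈ T, sp s c * y ∈ T := by
    intro c y hy
    rcases hmem.1 hy with ⟨a, u, hu, rfl⟩ | ⟨a, u, b, hu, rfl⟩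
    · exact hmem.2 (Or.inl ⟨c + a, u, hu, by rw [sp_add R.hs, mul_assoc]⟩)
    · exact hmem.2 (Or.inr ⟨c + a, u, b, hu, by rw [sp_add R.hs]; group⟩)
  have hh : ∀ (w : ZMod p), w ≠ 0 → ∀ y ∈ T, h s t w * y ∈ T := by
    intro w hw y hy
    rcases hmem.1 hy with ⟨a, u, hu, rfl⟩ | ⟨a, u, b, hu, rfl⟩
    · exact hmem.2 (Or.inl ⟨w * w * a, w * u, mul_ne_zero hw hu, by
        rw [h_mul R hw hu, ← mul_assoc, ← h_sp R hw, mul_assoc]⟩)
    · exact hmem.2 (Or.inr ⟨w * w * a, w * u, b, mul_ne_zero hw hu, by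
        rw [h_mul R hw hu, ← mul_assoc, ← h_sp R hw]; group⟩)
  have hn : ∀ y ∈ T, N s t (1 : ZMod p) * y ∈ T := by
    intro y hy
    rcases hmem.1 hy with ⟨a, u, hu, rfl⟩ | ⟨a, u, b, hu, rfl⟩
    · refine hmem.2 (Or.inr ⟨0, u⁻¹, a / (u * u), inv_ne_zero hu, ?_⟩)
      rw [sp_zero, one_mul, ← n_h R hu, mul_assoc, h_sp R hu, mul_div_cancel₀ _ (mul_ne_zero hu hu)]
    · have hiu := inv_ne_zero hu
      have e : h s t u * N s t (1 : ZMod p) = N s t (1 : ZMod p) * h s t u⁻¹ := by rw [n_h R hiu, inv_inv]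
      have hb : h s t u⁻¹ * sp s b = sp s (u⁻¹ * u⁻¹ * b) * h s t u⁻¹ := h_sp R hiu b
      by_cases ha : a = 0
      · refine hmem.2 (Or.inl ⟨u⁻¹ * u⁻¹ * b, -1 * u⁻¹, mul_ne_zero (by simp) hiu, ?_⟩)
        subst ha
        rw [sp_zero, one_mul, e]
        calc sp s (u⁻¹ * u⁻¹ * b) * h s t (-1 * u⁻¹)
            = sp s ((-1) * (-1) * (u⁻¹ * u⁻¹ * b)) * (h s t (-1 : ZMod p) * h s t u⁻¹) := by
              rw [h_mul R (by simp) hiu]; simp
          _ = h s t (-1 : ZMod p) * (sp s (u⁻¹ * u⁻¹ * b) * h s t u⁻¹) := by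
              rw [← mul_assoc, ← h_sp R (by simp), mul_assoc]
          _ = N s t (1 : ZMod p) * N s t (1 : ZMod p) * (h s t u⁻¹ * sp s b) := by rw [n_n R, hb]
          _ = _ := by group
      · have hai : -a⁻¹ ≠ 0 := neg_ne_zero.2 (inv_ne_zero ha)
        refine hmem.2 (Or.inr ⟨-a⁻¹, -a⁻¹ * u, -a⁻¹ * (u * u) + b, mul_ne_zero hai hu, ?_⟩)
        calc sp s (-a⁻¹) * h s t (-a⁻¹ * u) * N s t (1 : ZMod p) * sp s (-a⁻¹ * (u * u) + b)
            = sp s (-a⁻¹) * h s t (-a⁻¹) * (h s t u * N s t (1 : ZMod p)) * sp s (-a⁻¹ * (u * u)) * sp s b := by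
              rw [h_mul R hai hu, sp_add R.hs]; group
          _ = sp s (-a⁻¹) * h s t (-a⁻¹) * N s t (1 : ZMod p) * (h s t u⁻¹ * sp s (-a⁻¹ * (u * u))) * sp s b := by
              rw [e]; group
          _ = sp s (-a⁻¹) * h s t (-a⁻¹) * N s t (1 : ZMod p) * sp s (-a⁻¹) * (h s t u⁻¹ * sp s b) := by
              rw [h_sp R hiu, show u⁻¹ * u⁻¹ * (-a⁻¹ * (u * u)) = -a⁻¹ by field_simp]; group
          _ = N s t (1 : ZMod p) * sp s a * N s t (1 : ZMod p) * (h s t u⁻¹ * sp s b) := by rw [n_sp_n R ha]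
          _ = N s t (1 : ZMod p) * (sp s a * (N s t (1 : ZMod p) * h s t u⁻¹) * sp s b) := by group
          _ = _ := by rw [← e]; group
  refine closure_subset_of_steps T (hmem.2 (Or.inl ⟨0, 1, one_ne_zero, by simp [sp_zero, h_one R]⟩))
    (fun y hy => ?_) (fun y hy => ?_) hp.1.pos R.hs R.ht hx
  · have := hs' 1 y hy; rwa [sp_one] at this
  · have hm1 : (-1 : ZMod p) ≠ 0 := neg_ne_zero.2 one_ne_zero
    have ht' : t = N s t (1 : ZMod p) * (sp s (1 : ZMod p) * (N s t (1 : ZMod p) * h s t (-1 : ZMod p))) := by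
      have := N_sp R one_ne_zero (1 : ZMod p)
      rw [sp_one, one_mul, div_one, sp_one] at this
      rw [sp_one, ← mul_assoc, this, mul_assoc, ← mul_assoc (N s t (1 : ZMod p)), n_n R, ← h_mul R hm1 hm1]
      simp [h_one R]
    rw [ht']
    simpa [mul_assoc] using hn _ (hs' 1 _ (hn _ (hh _ hm1 y hy)))

end Cfsg.Agent.Fischer.SL2Rel
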