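import Cfsg.Agent.Fischer.RankOneGroup
import Cfsg.Agent.Fischer.SL2Pair
import Cfsg.Agent.Fischer.Special
import Mathlib.Data.ZMod.Basic

/-! Special rank one groups on two and three elements. -/

set_option autoImplicit false
open Cfsg

namespace Cfsg.Agent.Fischer

section Bounds

variable {P : Type*} [Group P] {s t : P}

theorem closure_subset_of_steps (T : Set P) (h1 : (1 : P) ∈ T) (hs : ∀ x ∈ T, s * x ∈ T)
    (ht : ∀ x ∈ T, t * x ∈ T) {m : ℕ} (hm : 0 < m) (hsm : s ^ m = 1) (htm : t ^ m = 1)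
    {x : P} (hx : x ∈ Subgroup.closure ({s, t} : Set P)) : x ∈ T := by
  have hpow : ∀ g : P, (∀ x ∈ T, g * x ∈ T) → ∀ (k : ℕ), ∀ x ∈ T, g ^ k * x ∈ T := by
    intro g hg k
    induction k with
    | zero => intro x hx; simpa using hx
    | succ k ih => intro x hx; rw [pow_succ', mul_assoc]; exact hg _ (ih x hx)
  have hinv : ∀ g : P, g ^ m = 1 → g⁻¹ = g ^ (m - 1) := fun g hg => by
    refine inv_eq_of_mul_eq_one_right ?_
    rw [← pow_succ', Nat.sub_add_cancel hm, hg]
  induction hx using Subgroup.closure_induction_left with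
  | one => exact h1
  | mul_left g hg y _ ih =>
    rcases hg with rfl | rfl
    · exact hs _ ih
    · exact ht _ ih
  | inv_mul_cancel g hg y _ ih =>
    rcases hg with rfl | rfl
    · rw [hinv _ hsm]; exact hpow _ hs _ _ ih
    · rw [hinv _ htm]; exact hpow _ ht _ _ ih

theorem bound_six (hs : s ^ 2 = 1) (ht : t ^ 2 = 1) (hb : s * t * s = t * s * t) :
    ∃ T : Finset P, T.card ≤ 6 ∧ ∀ x ∈ Subgroup.closure ({s, t} : Set P), x ∈ T := by
  classical
  refine ⟨[1, s, t, s * t, t * s, s * t * s].toFinset, (List.toFinset_card_le _).trans (by simp), ?_⟩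
  intro x hx
  have hss : s * s = 1 := by rw [← sq, hs]
  have htt : t * t = 1 := by rw [← sq, ht]
  refine closure_subset_of_steps (↑([1, s, t, s * t, t * s, s * t * s].toFinset) : Set P)
    (by simp) ?_ ?_ (m := 2) two_pos hs ht hx
  · intro y hy
    simp only [List.coe_toFinset, List.mem_cons, List.not_mem_nil, or_false, Set.mem_setOf_eq] at hy ⊢
    rcases hy with rfl | rfl | rfl | rfl | rfl | rfl <;>
      simp [← mul_assoc, hss]
  · intro y hy
    simp only [List.coe_toFinset, List.mem_cons, List.not_mem_nil, or_false, Set.mem_setOf_eq] at hy ⊢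
    rcases hy with rfl | rfl | rfl | rfl | rfl | rfl <;>
      simp [← mul_assoc, htt, ← hb]
    right; right; right; left
    rw [mul_assoc (s * t), hss, mul_one]

theorem bound_twentyfour (hs : s ^ 3 = 1) (ht : t ^ 3 = 1) (hb : s * t * s = t * s * t) :
    ∃ T : Finset P, T.card ≤ 24 ∧ ∀ x ∈ Subgroup.closure ({s, t} : Set P), x ∈ T := by
  classical
  obtain ⟨n, hn⟩ : ∃ n, n = s * t * s := ⟨_, rfl⟩
  have hns : n * s = t * n := by
    calc n * s = t * s * t * s := by rw [hn, hb]
      _ = t * n := by rw [hn]; group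
  have hnt : n * t = s * n := by
    calc n * t = s * t * s * t := by rw [hn]
      _ = s * (t * s * t) := by group
      _ = s * n := by rw [← hb, ← hn]
  obtain ⟨z, hzdef⟩ : ∃ z, z = n * n := ⟨_, rfl⟩
  have hzs : Commute z s := by
    show z * s = s * z
    rw [hzdef, mul_assoc, hns, ← mul_assoc, hnt, mul_assoc]
  have hzn : Commute z n := by rw [hzdef]; exact (Commute.refl n).mul_left (Commute.refl n)
  have htn : t = s⁻¹ * n * s⁻¹ := by rw [hn]; group
  have hs2 : s⁻¹ = s * s := inv_eq_of_mul_eq_one_right (by rw [← mul_assoc, ← pow_three' s]; exact hs)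
  have hsn : s * n * (s * n) * (s * n) = 1 := by
    have h1 : s * n = s⁻¹ * t * s := by rw [hs2, hn]; group
    rw [h1]
    calc s⁻¹ * t * s * (s⁻¹ * t * s) * (s⁻¹ * t * s) = s⁻¹ * t ^ 3 * s := by rw [pow_three]; group
      _ = 1 := by rw [ht]; group
  have hz2 : z * z = 1 := by
    have h1 : n * s * n⁻¹ = s⁻¹ * n * s⁻¹ := by rw [hns, htn]; group
    have h2 : s * n * s = n * s⁻¹ * n := by
      calc s * n * s = s * (n * s * n⁻¹) * n := by group
        _ = s * (s⁻¹ * n * s⁻¹) * n := by rw [h1]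
        _ = _ := by group
    have h3 : n⁻¹ * s⁻¹ * n⁻¹ = n * s⁻¹ * n := by
      rw [← h2]
      calc n⁻¹ * s⁻¹ * n⁻¹ = (s * n * (s * n) * (s * n))⁻¹ * (s * n * s) := by group
        _ = _ := by rw [hsn]; group
    have h4 : z * s⁻¹ * z = s⁻¹ := by
      rw [hzdef]
      calc n * n * s⁻¹ * (n * n) = n * (n * s⁻¹ * n) * n := by group
        _ = n * (n⁻¹ * s⁻¹ * n⁻¹) * n := by rw [h3]
        _ = _ := by group
    rw [hzs.inv_right.eq, mul_assoc] at h4
    simpa using h4
  obtain ⟨j, hj⟩ : ∃ j, j = s * n * s⁻¹ := ⟨_, rfl⟩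
  obtain ⟨k, hk⟩ : ∃ k, k = s⁻¹ * n * s := ⟨_, rfl⟩
  have hsj : s * j * s⁻¹ = k := by
    rw [hj, hk, hs2]
    calc s * (s * n * (s * s)) * (s * s) = s * s * n * (s ^ 3) * s := by rw [pow_three]; group
      _ = _ := by rw [hs]; group
  have hsk : s * k * s⁻¹ = n := by rw [hk]; group
  have hsn' : s * n * s⁻¹ = j := hj.symm
  have hjkn : j * k * n = 1 := by
    rw [hj, hk, ← hsn]
    calc s * n * s⁻¹ * (s⁻¹ * n * s) * n = s * n * (s⁻¹ * s⁻¹) * (n * s * n) := by group
      _ = s * n * s * (n * s * n) := by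
        rw [show s⁻¹ * s⁻¹ = s from by rw [← mul_inv_rev, ← hs2, inv_inv]]
      _ = _ := by group
  have hzi : z⁻¹ = z := inv_eq_of_mul_eq_one_right hz2
  have hzj : Commute z j := by rw [hj]; exact (hzs.mul_right hzn).mul_right hzs.inv_right
  have hjj : j * j = z := by
    calc j * j = s * z * s⁻¹ := by rw [hj, hzdef]; group
      _ = z := by rw [← hzs.eq]; group
  have hkk : k * k = z := by
    calc k * k = s⁻¹ * z * s := by rw [hk, hzdef]; group
      _ = z := by rw [mul_assoc, hzs.eq]; group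
  have hninv : n⁻¹ = z * n :=
    inv_eq_of_mul_eq_one_right (by rw [← mul_assoc, ← hzn.eq, mul_assoc, ← hzdef, hz2])
  have hjk : j * k = n⁻¹ := by rw [eq_inv_iff_mul_eq_one]; exact hjkn
  have hnj : n * j = z * k := by
    have e1 : n * j * k = 1 := by rw [mul_assoc, hjk, mul_inv_cancel]
    calc n * j = n * j * k * k⁻¹ := by group
      _ = k⁻¹ := by rw [e1, one_mul]
      _ = z * k := by
        refine inv_eq_of_mul_eq_one_right ?_
        have : Commute z k := by rw [hk]; exact (hzs.inv_right.mul_right hzn).mul_right hzs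
        rw [← mul_assoc, ← this.eq, mul_assoc, hkk, hz2]
  have hkj : k * j = n := by
    have e2 : j * k * (k * j) = 1 := by
      rw [mul_assoc j k, ← mul_assoc k k, hkk, hzj.eq, ← mul_assoc, hjj, hz2]
    calc k * j = (j * k)⁻¹ := (inv_eq_of_mul_eq_one_right e2).symm
      _ = n := by rw [hjk, inv_inv]
  have hnk : n * k = j := by
    calc n * k = (s * k * s⁻¹) * (s * j * s⁻¹) := by rw [hsk, hsj]
      _ = s * (k * j) * s⁻¹ := by group
      _ = j := by rw [hkj, hj]
  let q : Fin 4 → P := ![1, n, j, k]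
  let g : Fin 2 × Fin 4 × Fin 3 → P := fun p => z ^ (p.1 : ℕ) * q p.2.1 * s ^ (p.2.2 : ℕ)
  refine ⟨Finset.univ.image g, Finset.card_image_le.trans (by simp), ?_⟩
  intro x hx
  have hmem : ∀ (e i : ℕ) (c : Fin 4), z ^ e * q c * s ^ i ∈ Finset.univ.image g := by
    intro e i c
    refine Finset.mem_image.2 ⟨(⟨e % 2, Nat.mod_lt _ two_pos⟩, c, ⟨i % 3, Nat.mod_lt _ three_pos⟩),
      Finset.mem_univ _, ?_⟩
    simp only [g]
    rw [← pow_eq_pow_mod i hs, ← pow_eq_pow_mod e (by rw [sq, hz2] : z ^ 2 = 1)]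
  have hsT : ∀ x ∈ Finset.univ.image g, s * x ∈ Finset.univ.image g := by
    intro y hy
    obtain ⟨⟨e, c, i⟩, -, rfl⟩ := Finset.mem_image.1 hy
    have : ∃ d, s * q c = q d * s := by
      fin_cases c
      · exact ⟨0, by simp [q]⟩
      · exact ⟨2, by simp [q, ← hsn']⟩
      · exact ⟨3, by simp [q, ← hsj]⟩
      · exact ⟨1, by simp [q, ← hsk]⟩
    obtain ⟨d, hd⟩ := this
    have : s * g (e, c, i) = z ^ (e : ℕ) * q d * s ^ ((i : ℕ) + 1) := by
      simp only [g]
      rw [← mul_assoc, ← mul_assoc, ← (hzs.pow_left _).eq, mul_assoc _ s (q c), hd, pow_succ']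
      group
    rw [this]; exact hmem _ _ _
  have hnT : ∀ x ∈ Finset.univ.image g, n * x ∈ Finset.univ.image g := by
    intro y hy
    obtain ⟨⟨e, c, i⟩, -, rfl⟩ := Finset.mem_image.1 hy
    have : ∃ (d : Fin 4) (u : ℕ), n * q c = z ^ u * q d := by
      fin_cases c
      · exact ⟨1, 0, by simp [q]⟩
      · exact ⟨0, 1, by simp [q, hzdef]⟩
      · exact ⟨3, 1, by simp [q, hnj]⟩
      · exact ⟨2, 0, by simp [q, hnk]⟩
    obtain ⟨d, u, hd⟩ := this
    have : n * g (e, c, i) = z ^ ((e : ℕ) + u) * q d * s ^ (i : ℕ) := by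
      simp only [g]
      rw [← mul_assoc, ← mul_assoc, ← (hzn.pow_left _).eq, mul_assoc _ n (q c), hd, ← mul_assoc,
        ← pow_add]
    rw [this]; exact hmem _ _ _
  refine closure_subset_of_steps (↑(Finset.univ.image g) : Set P) ?_ hsT ?_ (m := 3) three_pos hs ht hx
  · simpa [q] using hmem 0 0 0
  · intro y hy
    rw [htn, hs2]
    simpa [mul_assoc] using hsT _ (hsT _ (hnT _ (hsT _ (hsT _ hy))))

end Bounds

/-- A rank one group generated by two elements satisfying the relations of `SL₂(p)` is a quotient of it. -/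
theorem iso_of_bound {X : Type*} [Group X]
    {p : ℕ} [Fact p.Prime] {s t : X} (hne : s * t ≠ t * s) (hgen : Subgroup.closure ({s, t} : Set X) = ⊤)
    (hbound : ∃ T : Finset (Matrix.SpecialLinearGroup (Fin 2) (ZMod p) × X),
      T.card ≤ Nat.card (Matrix.SpecialLinearGroup (Fin 2) (ZMod p)) ∧
      ∀ x ∈ Subgroup.closure ({(slL (1 : ZMod p), s), (slU (-1), t)} :
        Set (Matrix.SpecialLinearGroup (Fin 2) (ZMod p) × X)), x ∈ T) :
    ∃ ψ : Matrix.SpecialLinearGroup (Fin 2) (ZMod p) →* X, Function.Surjective ψ ∧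
      ψ.ker ≤ Subgroup.center _ := by
  let K := Matrix.SpecialLinearGroup (Fin 2) (ZMod p)
  obtain ⟨T, hTc, hT⟩ := hbound
  let H : Subgroup (K × X) := Subgroup.closure {(slL (1 : ZMod p), s), (slU (-1), t)}
  let φ : H →* K := (MonoidHom.fst K X).comp H.subtype
  have hL : ∀ c : ZMod p, slL c = slL (1 : ZMod p) ^ c.val := by
    intro c
    have : ∀ k : ℕ, slL (1 : ZMod p) ^ k = slL (k : ZMod p) := by
      intro k
      induction k with
      | zero => simp [slL_zero]
      | succ k ih => rw [pow_succ, ih, slL_add]; simp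
    rw [this, ZMod.natCast_zmod_val]
  have hU : ∀ c : ZMod p, slU c = slU (-1 : ZMod p) ^ (-c).val := by
    intro c
    have : ∀ k : ℕ, slU (-1 : ZMod p) ^ k = slU (-(k : ZMod p)) := by
      intro k
      induction k with
      | zero => simp [slU_zero]
      | succ k ih => rw [pow_succ, ih, slU_add]; simp [add_comm]
    rw [this, ZMod.natCast_zmod_val, neg_neg]
  have hsurj : Function.Surjective φ := by
    rw [← MonoidHom.range_eq_top, eq_top_iff, ← sl2_sup]
    refine sup_le ?_ ?_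
    · intro g hg
      obtain ⟨c, rfl⟩ := mem_lower.1 hg
      rw [hL]
      refine pow_mem ?_ _
      exact ⟨⟨(slL (1 : ZMod p), s), Subgroup.subset_closure (Set.mem_insert _ _)⟩, rfl⟩
    · intro g hg
      obtain ⟨c, rfl⟩ := mem_upper.1 hg
      rw [hU]
      refine pow_mem ?_ _
      exact ⟨⟨(slU (-1 : ZMod p), t), Subgroup.subset_closure (Set.mem_insert_of_mem _ rfl)⟩, rfl⟩
  haveI : Finite H := (T.finite_toSet.subset hT).to_subtype
  have hcard : Nat.card H ≤ Nat.card K := by
    refine le_trans ?_ hTc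
    rw [← Nat.card_eq_finsetCard]
    exact Nat.card_le_card_of_injective (fun x : H => (⟨x.1, hT _ x.2⟩ : T))
      fun x y e => Subtype.ext (congrArg Subtype.val e :)
  have hbij : Function.Bijective φ :=
    hsurj.bijective_of_nat_card_le hcard
  let e := MulEquiv.ofBijective φ hbij
  let ψ : K →* X := ((MonoidHom.snd K X).comp H.subtype).comp e.symm.toMonoidHom
  have hval : ∀ q : H, ψ (φ q) = q.1.2 := fun q => by
    show ((e.symm (e q)).1).2 = _
    rw [e.symm_apply_apply]
  have hψ : Function.Surjective ψ := by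
    rw [← MonoidHom.range_eq_top, eq_top_iff, ← hgen, Subgroup.closure_le]
    rintro x (rfl | rfl)
    · exact ⟨_, hval ⟨_, Subgroup.subset_closure (Set.mem_insert _ _)⟩⟩
    · exact ⟨_, hval ⟨_, Subgroup.subset_closure (Set.mem_insert_of_mem _ rfl)⟩⟩
  refine ⟨ψ, hψ, ?_⟩
  rcases normal_cases (⟨sl2_sup, sl2_pair⟩ : IsRankOneGroup K (lowerUnipotentSL2 (ZMod p))
      (upperUnipotentSL2 (ZMod p))) ψ.ker inferInstance with htop | hc
  · exfalso
    refine hne ?_
    have hex : ∀ x : X, ∃ l ∈ lowerUnipotentSL2 (ZMod p), ψ l = x := by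
      intro x
      obtain ⟨g, rfl⟩ := hψ x
      obtain ⟨k, hk, l, hl, rfl⟩ := Subgroup.mem_sup_of_normal_left.1 (htop ▸ Subgroup.mem_top g)
      exact ⟨l, hl, by rw [map_mul, MonoidHom.mem_ker.1 hk, one_mul]⟩
    obtain ⟨l, hl, el⟩ := hex s
    obtain ⟨m, hm, em⟩ := hex t
    obtain ⟨c, rfl⟩ := mem_lower.1 hl
    obtain ⟨d, rfl⟩ := mem_lower.1 hm
    rw [← el, ← em, ← map_mul, ← map_mul, slL_add, slL_add, add_comm]
  · exact hc

theorem sl2_braid {k : Type*} [Field k] :
    slL (1 : k) * slU (-1) * slL 1 = slU (-1) * slL 1 * slU (-1) := by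
  ext i j
  simp only [Matrix.SpecialLinearGroup.coe_mul, slU_coe, slL_coe]
  fin_cases i <;> fin_cases j <;> simp [Matrix.mul_apply, Fin.sum_univ_two]

end Cfsg.Agent.Fischer
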