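import Cfsg.Agent.Fischer.RootBasic

/-! Rank one pairs with a commuting companion are special; degenerate classes have no twins. -/

set_option autoImplicit false
open Cfsg
open scoped commutatorElement

namespace Cfsg.Agent.Fischer

variable {G : Type*} [Group G] {S : Set (Subgroup G)}

theorem cb_eq_conj_of_comm {A : Subgroup G} {g : G} (h : ∀ x ∈ A, g * x = x * g) (e : G) :
    conjBy (conjBy A e) g = conjBy A (g * e * g⁻¹) := by
  conv_rhs => rw [← cb_cb, show conjBy A g⁻¹ = A from by rw [cb_eq_iff, inv_inv, cb_of_commute h]]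
  rw [cb_cb]

/-- `(A, F)` is configured: some `g` centralising `F` moves `A` to a different member commuting with it. -/
def Configured (A F : Subgroup G) : Prop :=
  IsRankOnePair A F ∧ ∃ g : G, (∀ x ∈ F, g * x = x * g) ∧ ⁅A, conjBy A g⁆ = ⊥ ∧ conjBy A g ≠ A

variable (hS : IsRootSubgroupSet S)
include hS

theorem not_same_of_commute {A C F : Subgroup G} (hC : C ∈ S) (hF : F ∈ S) (hAF : IsRankOnePair A F)
    (hAC : ⁅A, C⁆ = ⊥) (hne : C ≠ A) {a c : G} (ha : a ∈ A) (hc : c ∈ C)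
    (e : conjBy F c = conjBy F a) : a = 1 := by
  by_contra ha1
  obtain ⟨-, hu⟩ := same_action hS hC hF hAF ha ha1 hc e
  exact hne (eq_of_commute hAF hu self_mem (bot_symm hAC))

theorem configured_swap {A C F : Subgroup G} (hA : A ∈ S) (hC : C ∈ S) (hF : F ∈ S)
    (hAC : ⁅A, C⁆ = ⊥) (hne : C ≠ A) (hAF : IsRankOnePair A F) (hCF : IsRankOnePair C F) :
    Configured F A := by
  obtain ⟨a, ha, ha1⟩ := exists_ne_one hAF
  obtain ⟨f, hf, hf1, e⟩ := hAF.cond_left a⁻¹ (inv_mem ha) (inv_ne_one.2 ha1)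
  obtain ⟨c, hc, -, e'⟩ := hCF.cond_right f hf hf1
  rw [inv_inv] at e
  refine ⟨RankOnePair_symm hAF, c * a, fun x hx => ?_, ?_, fun h => ?_⟩
  · exact ((show Commute c x from (commute_cb_right hAC hx hc).symm).mul_left
      (show Commute a x from member_comm hS hA ha hx)).eq
  · have h := cb_bot (g := c) (cb_bot (g := f⁻¹) hAC)
    rw [e, ← e', cb_cb, cb_cb, mul_inv_cancel, cb_one] at h
    exact bot_symm h
  · refine ha1 (not_same_of_commute hS hC hF hAF hAC hne ha (inv_mem hc) ?_)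
    rw [← cb_cb, cb_eq_iff] at h
    exact h.symm

theorem configured_symm {A F : Subgroup G} (hA : A ∈ S) (hF : F ∈ S) (h : Configured A F) :
    Configured F A := by
  obtain ⟨hAF, g, hg, hAC, hne⟩ := h
  have hr := rankOne_cb hAF g
  rw [cb_of_commute hg] at hr
  exact configured_swap hS hA (hS.conj_mem A hA g) hF hAC hne hAF hr

theorem configured_identity {A F : Subgroup G} (hA : A ∈ S) (hF : F ∈ S) (h : Configured A F)
    {a a' f : G} (ha : a ∈ A) (ha' : a' ∈ A) (hf : f ∈ F) (hf1 : f ≠ 1)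
    (e1 : conjBy A f = conjBy F a) (e2 : conjBy A f⁻¹ = conjBy F a') :
    a⁻¹ * f * a' * f⁻¹ * a = f := by
  obtain ⟨hAF, g, hg, hAC, hne⟩ := h
  obtain ⟨C, hCdef⟩ : ∃ C, C = conjBy A g := ⟨_, rfl⟩
  rw [← hCdef] at hAC hne
  have hC : C ∈ S := hCdef ▸ hS.conj_mem A hA g
  have hCF : IsRankOnePair C F := by
    have hr := rankOne_cb hAF g
    rwa [cb_of_commute hg, ← hCdef] at hr
  obtain ⟨c, hcdef⟩ : ∃ c, c = g * a * g⁻¹ := ⟨_, rfl⟩
  obtain ⟨c', hc'def⟩ : ∃ c', c' = g * a' * g⁻¹ := ⟨_, rfl⟩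
  have hc : c ∈ C := by rw [hcdef, hCdef]; exact cb_mem g ha
  have hc' : c' ∈ C := by rw [hc'def, hCdef]; exact cb_mem g ha'
  have hgf : Commute g f := hg f hf
  obtain ⟨s, hsdef⟩ : ∃ s, s = a⁻¹ * f * a' * f⁻¹ * a := ⟨_, rfl⟩
  rw [← hsdef]
  have hs : s ∈ F := by
    have hm : a⁻¹ * f * a' * (a⁻¹ * f)⁻¹ ∈ conjBy A (a⁻¹ * f) := cb_mem _ ha'
    rw [← cb_cb A a⁻¹ f, e1, cb_cb, inv_mul_cancel, cb_one] at hm
    convert hm using 1
    rw [hsdef]; group
  have hgs : Commute g s := hg s hs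
  have h1 : conjBy F c' = conjBy C f⁻¹ := by
    rw [hc'def, ← cb_eq_conj_of_comm hg, ← e2, hCdef, cb_cb, cb_cb, hgf.inv_right.eq]
  have hfix : ∀ {x : G}, x ∈ A → conjBy C x = C := fun hx =>
    cb_of_commute fun z hz => commute_cb_right hAC hx hz
  obtain ⟨n, hn⟩ : ∃ n, n = a⁻¹ * f * a' := ⟨_, rfl⟩
  have hC' : C = conjBy F (a⁻¹ * f * c') := by
    rw [← cb_cb, h1, cb_cb, mul_inv_cancel_right, hfix (inv_mem ha)]
  have hA' : A = conjBy F n := by
    rw [hn, ← cb_cb, ← e2, cb_cb, mul_inv_cancel_right, cb_of_mem (inv_mem ha)]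
  have h5 : f * c' * f⁻¹ = c * s * c⁻¹ := by
    calc f * c' * f⁻¹ = (f * g) * a' * (f * g)⁻¹ := by rw [hc'def]; group
      _ = (g * f) * a' * (g * f)⁻¹ := by rw [hgf.eq]
      _ = g * a * s * a⁻¹ * g⁻¹ := by rw [hsdef]; group
      _ = g * a * g⁻¹ * (g * s) * a⁻¹ * g⁻¹ := by group
      _ = g * a * g⁻¹ * (s * g) * a⁻¹ * g⁻¹ := by rw [hgs.eq]
      _ = _ := by rw [hcdef]; group
  have hcomm' : Commute a' c' := commute_cb_right hAC ha' hc'
  have h6 : n * c' * n⁻¹ = a⁻¹ * c * s * (c⁻¹ * a) := by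
    calc n * c' * n⁻¹ = a⁻¹ * f * (a' * c') * a'⁻¹ * f⁻¹ * a := by rw [hn]; group
      _ = a⁻¹ * (f * c' * f⁻¹) * a := by rw [hcomm'.eq]; group
      _ = _ := by rw [h5]; group
  have hfixA : conjBy A (c⁻¹ * a) = A := by
    rw [← cb_cb, cb_of_mem ha]
    exact cb_of_commute fun x hx => (commute_cb_right hAC hx (inv_mem hc)).symm
  have h3 : conjBy C s = conjBy (conjBy A s) (a⁻¹ * c) := by
    calc conjBy C s = conjBy F (n * c') := by
          rw [hC', cb_cb]; congr 1; rw [hsdef, hn]; group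
      _ = conjBy A (n * c' * n⁻¹) := by rw [hA', cb_cb]; congr 1; group
      _ = conjBy (conjBy A (c⁻¹ * a)) (a⁻¹ * c * s) := by rw [h6, cb_cb]
      _ = _ := by rw [hfixA, cb_cb]
  obtain ⟨e, he, hee⟩ : ∃ e ∈ A, conjBy A s = conjBy F e := by
    refine right_of_ne hAF (unipotent_conj self_mem (le_sup_right (α := Subgroup G) hs)) fun h => ?_
    have hs1 : s = 1 := eq_one_of_normalize (RankOnePair_symm hAF) hs (cb_eq_self.1 h)
    rw [hsdef] at hs1
    have ha1' : a' = 1 := by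
      calc a' = f⁻¹ * a * (a⁻¹ * f * a' * f⁻¹ * a) * a⁻¹ * f := by group
        _ = 1 := by rw [hs1]; group
    rw [ha1', cb_one] at e2
    exact cb_ne (RankOnePair_symm hAF) (inv_mem hf) e2
  by_cases hd : a⁻¹ * e = 1
  · rw [← inv_mul_eq_one.1 hd, ← e1] at hee
    exact regular (RankOnePair_symm hAF) hs hf hee
  exfalso
  have hde : a⁻¹ * e ∈ A := mul_mem (inv_mem ha) he
  have hcd : c * (a⁻¹ * e) = a⁻¹ * e * c := (commute_cb_right hAC hde hc).symm
  have h7 : conjBy F (a⁻¹ * e) = conjBy C (c⁻¹ * s) := by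
    have hce : a⁻¹ * c * e = c * (a⁻¹ * e) := by
      rw [show a⁻¹ * c = c * a⁻¹ from commute_cb_right hAC (inv_mem ha) hc, mul_assoc]
    rw [hee, cb_cb, hce] at h3
    rw [← cb_cb C c⁻¹ s, h3, cb_cb, inv_mul_cancel_left]
  have hu : conjBy F (a⁻¹ * e) ∈ unipotentSubgroups C F := h7 ▸ unipotent_conj self_mem
    (mul_mem (le_sup_left (α := Subgroup G) (inv_mem hc)) (le_sup_right (α := Subgroup G) hs))
  by_cases hCe : conjBy F (a⁻¹ * e) = C
  · exact cb_ne hAF hde (eq_of_commute hAF (unipotent_conj (right_mem hAF)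
      (le_sup_left (α := Subgroup G) hde)) self_mem (hCe ▸ bot_symm hAC))
  · obtain ⟨c'', hc'', e''⟩ := right_of_ne hCF hu hCe
    exact hd (not_same_of_commute hS hC hF hAF hAC hne hde hc'' e''.symm)

theorem special_of_configured {A B : Subgroup G} (hA : A ∈ S) (hB : B ∈ S) (h : Configured A B) :
    IsSpecialRankOnePair A B := by
  have h' := configured_symm hS hA hB h
  refine ⟨h.1, fun a ha ha1 b hb hb1 e => ?_⟩
  obtain ⟨a', ha', -, ea'⟩ := h.1.cond_right b⁻¹ (inv_mem hb) (inv_ne_one.2 hb1)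
  rw [inv_inv] at ea'
  obtain ⟨f, hf, -, ef⟩ := h.1.cond_left a⁻¹ (inv_mem ha) (inv_ne_one.2 ha1)
  rw [inv_inv] at ef
  have i1 := configured_identity hS hA hB h (inv_mem ha) (inv_mem ha') (inv_mem hb) (inv_ne_one.2 hb1) e
    (by rw [inv_inv]; exact ea'.symm)
  simp only [inv_inv] at i1
  have i2 := configured_identity hS hB hA h' (inv_mem hb) (inv_mem hf) (inv_mem ha) (inv_ne_one.2 ha1)
    e.symm (by rw [inv_inv]; exact ef.symm)
  simp only [inv_inv] at i2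
  have hf_eq : f⁻¹ = b := by
    have h1 : a'⁻¹ = b * a⁻¹ * b⁻¹ * a * b⁻¹ := by
      calc a'⁻¹ = b * a⁻¹ * (a * b⁻¹ * a'⁻¹ * b * a⁻¹) * a * b⁻¹ := by group
        _ = _ := by rw [i1]
    have h2 : conjBy A b = conjBy B (b * a⁻¹ * b⁻¹ * a) := by
      rw [← ea', h1, ← cb_cb _ (b * a⁻¹ * b⁻¹ * a) b⁻¹, cb_of_mem (inv_mem hb)]
    have h4 : conjBy A b = conjBy B a := by
      have h5 := congrArg (fun K => conjBy K (b⁻¹)) h2
      simp only [cb_cb] at h5
      rw [inv_mul_cancel, cb_one, show b⁻¹ * (b * a⁻¹ * b⁻¹ * a) = a⁻¹ * (b⁻¹ * a) by group,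
        ← cb_cb, eq_comm, cb_eq_iff, inv_inv, cb_of_mem ha, ← cb_cb, cb_eq_iff, inv_inv] at h5
      exact h5.symm
    exact regular (RankOnePair_symm h.1) (inv_mem hf) hb (ef.trans h4.symm)
  rw [hf_eq] at i2
  calc b⁻¹ * a * b = b⁻¹ * (b * a⁻¹ * b * a * b⁻¹)⁻¹ * b := by rw [i2]; group
    _ = _ := by group

end Cfsg.Agent.Fischer
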