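import Cfsg.Agent.Fischer.Special
import Cfsg.Prelude.Def_Transfer

/-! Special rank one pairs with abelian unipotent subgroups: the unipotent subgroups are
elementary abelian or torsion-free divisible. -/

set_option autoImplicit false
open Cfsg

namespace Cfsg.Agent.Fischer

variable {G : Type*} [Group G] {A B : Subgroup G}
variable (hs : IsSpecialRankOnePair A B) (hab : HasAbelianUnipotents A B)
include hs hab

theorem exists_root {a : G} (ha : a ∈ A) {n : ℕ} (hn : a ^ n ≠ 1) : ∃ c ∈ A, c ^ n = a := by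
  have ha1 : a ≠ 1 := fun e => hn (by rw [e, one_pow])
  obtain ⟨b, hb, hb1, e⟩ := hs.1.cond_left a ha ha1
  obtain ⟨c, hc, hc1, ec⟩ := hs.1.cond_left (a ^ n) (pow_mem ha n) hn
  have hcn : c ^ n = b := partner_pow hs hab ha ha1 hb hb1 e hn hc hc1 ec
  obtain ⟨h1, -⟩ := swap_conj hs ha ha1 hb hb1 e
  set m := a * b⁻¹ * a
  have hm : m ∈ A ⊔ B := mul_mem (mul_mem (le_sup_left (α := Subgroup G) ha)
    (inv_mem (le_sup_right (α := Subgroup G) hb))) (le_sup_left (α := Subgroup G) ha)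
  have hAB : conjBy A m = B := by
    by_contra hne
    have hmem : b⁻¹ ∈ conjBy A m := h1 ▸ cb_mem m ha
    have := eq_one_of_normalize' hs.1 (unipotent_conj self_mem hm) (right_mem hs.1) hne hmem
      (Subgroup.le_normalizer (inv_mem hb))
    exact hb1 (inv_eq_one.1 this)
  have hc' : c⁻¹ ∈ conjBy A m := hAB.symm ▸ inv_mem hc
  rw [mem_cb] at hc'
  refine ⟨m⁻¹ * c⁻¹ * m, hc', ?_⟩
  have hp : (m⁻¹ * c⁻¹ * m) ^ n = m⁻¹ * (c⁻¹) ^ n * m := by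
    have := conj_pow (a := m⁻¹) (b := c⁻¹) (i := n)
    rwa [inv_inv] at this
  rw [hp, inv_pow, hcn, ← h1]
  simp [mul_assoc]

theorem elementary_or_divisible :
    (∃ p : ℕ, p.Prime ∧ IsElementaryAbelian p A) ∨
    ((∀ a ∈ A, a ≠ 1 → ¬ IsOfFinOrder a) ∧ ∀ a ∈ A, ∀ n : ℕ, 0 < n → ∃ c ∈ A, c ^ n = a) := by
  by_cases htf : ∀ a ∈ A, a ≠ 1 → ¬ IsOfFinOrder a
  · refine Or.inr ⟨htf, fun a ha n hn => ?_⟩
    by_cases ha1 : a = 1
    · exact ⟨1, one_mem _, by simp [ha1]⟩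
    exact exists_root hs hab ha fun e => htf a ha ha1 (isOfFinOrder_iff_pow_eq_one.2 ⟨n, hn, e⟩)
  push_neg at htf
  obtain ⟨a₀, ha₀, ha₀1, hfin⟩ := htf
  have hord : orderOf a₀ ≠ 1 := fun e => ha₀1 (orderOf_eq_one_iff.1 e)
  obtain ⟨p, hp, hpd⟩ := Nat.exists_prime_and_dvd hord
  set a₁ := a₀ ^ (orderOf a₀ / p)
  have hoa₁ : orderOf a₁ = p :=
    orderOf_pow_orderOf_div (hfin.orderOf_pos.ne') hpd
  have ha₁ : a₁ ∈ A := pow_mem ha₀ _
  have ha₁1 : a₁ ≠ 1 := fun e => hp.ne_one (by rw [← hoa₁, e, orderOf_one])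
  have ha₁p : a₁ ^ p = 1 := hoa₁ ▸ pow_orderOf_eq_one a₁
  refine Or.inl ⟨p, hp, hab.1, fun a ha => ?_⟩
  by_contra hap
  haveI := hab.1
  have hcom : Commute a a₁ := congrArg Subtype.val (mul_comm' (⟨a, ha⟩ : A) ⟨a₁, ha₁⟩)
  have hap' : (a * a₁) ^ p ≠ 1 := by rwa [hcom.mul_pow, ha₁p, mul_one]
  obtain ⟨z, hz, hzp⟩ := exists_root hs hab ha hap
  obtain ⟨z', hz', hz'p⟩ := exists_root hs hab (mul_mem ha ha₁) hap'
  set w := z⁻¹ * z'
  have hw : w ∈ A := mul_mem (inv_mem hz) hz'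
  have hwp : w ^ p = a₁ := by
    have hzz : Commute z⁻¹ z' :=
      congrArg Subtype.val (mul_comm' (⟨z⁻¹, inv_mem hz⟩ : A) ⟨z', hz'⟩)
    rw [hzz.mul_pow, inv_pow, hzp, hz'p, inv_mul_cancel_left]
  have hw1 : w ≠ 1 := fun e => ha₁1 (by rw [← hwp, e, one_pow])
  obtain ⟨bw, hbw, hbw1, ew⟩ := hs.1.cond_left w hw hw1
  obtain ⟨c, hc, hc1, ec⟩ := hs.1.cond_left (w ^ p) (pow_mem hw p) (hwp ▸ ha₁1)
  have hcp : c ^ p = bw := partner_pow hs hab hw hw1 hbw hbw1 ew (hwp ▸ ha₁1) hc hc1 ec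
  obtain ⟨h1, -⟩ := swap_conj hs (pow_mem hw p) (hwp ▸ ha₁1) hc hc1 ec
  have hcone : c ^ p = 1 := by
    have := conj_pow (a := w ^ p * c⁻¹ * w ^ p) (b := w ^ p) (i := p)
    rw [h1, hwp, ha₁p, mul_one, mul_inv_cancel, inv_pow, inv_eq_one] at this
    exact this
  exact hbw1 (hcp ▸ hcone)

end Cfsg.Agent.Fischer
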