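import Cfsg.Agent.Transfer.CentralTransfer
import Cfsg.Agent.Transfer.Basic
import Cfsg.Agent.Fischer.LargeWidth
import Cfsg.Agent.TwoGroups.ExtSub
import Cfsg.Agent.FGS3.PGroupFrattini
import Cfsg.Agent.S0215

/-! Self-normalizing Sylow 2-subgroups: central elements and the Frattini subgroup. -/

set_option autoImplicit false
open Cfsg
open scoped commutatorElement

namespace Cfsg.Agent.Fischer

variable {G : Type*} [Group G] [Finite G]

theorem ofAdd_one_ne : (Multiplicative.ofAdd (1 : ZMod 2)) ≠ 1 := by decide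

theorem mulZ2_sq (a : Multiplicative (ZMod 2)) : a * a = 1 := by revert a; decide

theorem transfer_central_involution {H : Subgroup G} (hH : IsPGroup 2 ↥H)
    (hN : Subgroup.normalizer (H : Set G) ≤ H)
    (f : ↥H →* Multiplicative (ZMod 2)) {y : G} (hy : y ∈ H)
    (hcen : ∀ r ∈ H, r * y = y * r) (hyy : y * y = 1) :
    MonoidHom.transfer f y = f ⟨y, hy⟩ := by
  classical
  haveI := Fact.mk Nat.prime_two
  letI := Fintype.ofFinite (G ⧸ H)
  have hcl : ∀ (a b : G) (ha : a⁻¹ * y * a ∈ H) (hb : b⁻¹ * y * b ∈ H), a⁻¹ * b ∈ H →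
      f ⟨a⁻¹ * y * a, ha⟩ = f ⟨b⁻¹ * y * b, hb⟩ := by
    intro a b ha hb hab
    rw [show (⟨b⁻¹ * y * b, hb⟩ : ↥H) = ⟨a⁻¹ * b, hab⟩⁻¹ * ⟨a⁻¹ * y * a, ha⟩ * ⟨a⁻¹ * b, hab⟩ from
      Subtype.ext (by simp [mul_assoc]), map_mul, map_mul, map_inv, mul_comm, mul_inv_cancel_left]
  have hfix : ∀ a : G, y • ((a : G) : G ⧸ H) = ((a : G) : G ⧸ H) ↔ a⁻¹ * y * a ∈ H := by
    intro a
    show ((y * a : G) : G ⧸ H) = ((a : G) : G ⧸ H) ↔ _
    rw [eq_comm, QuotientGroup.eq, ← mul_assoc]
  let F : G ⧸ H → Multiplicative (ZMod 2) := fun c =>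
    if h : c.out⁻¹ * y * c.out ∈ H then f ⟨_, h⟩ else 1
  have hF : ∀ (c : G ⧸ H) (a : G) (ha : a⁻¹ * y * a ∈ H), ((a : G) : G ⧸ H) = c → F c = f ⟨_, ha⟩ := by
    intro c a ha e
    have hout : ((c.out : G) : G ⧸ H) = ((a : G) : G ⧸ H) := by rw [QuotientGroup.out_eq', e]
    have hmem : c.out⁻¹ * y * c.out ∈ H := (hfix _).1 (by rw [hout]; exact (hfix a).2 ha)
    show (if h : _ then _ else _) = _
    rw [dif_pos hmem]
    exact hcl _ _ _ _ (QuotientGroup.eq.1 hout)
  have hF1 : ∀ c : G ⧸ H, y • c ≠ c → F c = 1 := by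
    intro c hc
    show (if h : _ then _ else _) = _
    rw [dif_neg]
    intro h
    exact hc (by have := (hfix c.out).2 h; rwa [QuotientGroup.out_eq'] at this)
  -- the transfer as a product over cosets
  have h1 : MonoidHom.transfer f y = ∏ c : G ⧸ H, F c := by
    letI : Fintype (Quotient (MulAction.orbitRel (Subgroup.zpowers y) (G ⧸ H))) := Fintype.ofFinite _
    rw [MonoidHom.transfer_eq_prod_quotient_orbitRel_zpowers_quot,
      ← Fintype.prod_fiberwise (g := fun c : G ⧸ H => (Quotient.mk'' c : Quotient (MulAction.orbitRel (Subgroup.zpowers y) (G ⧸ H)))) F]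
    refine Finset.prod_congr rfl fun o _ => ?_
    have hrel : ∀ c : G ⧸ H, (Quotient.mk'' c : Quotient (MulAction.orbitRel (Subgroup.zpowers y) (G ⧸ H))) = o →
        c = o.out ∨ c = y • o.out := by
      intro c hc
      have h2 : (MulAction.orbitRel (Subgroup.zpowers y) (G ⧸ H)).r c o.out :=
        Quotient.exact' (hc.trans (Quotient.out_eq' o).symm)
      obtain ⟨⟨u, hu⟩, e⟩ := h2
      rw [← e]
      obtain ⟨n, rfl⟩ := Subgroup.mem_zpowers_iff.1 hu
      show (y ^ n) • o.out = o.out ∨ _
      rcases Int.even_or_odd n with ⟨m, rfl⟩ | ⟨m, rfl⟩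
      · left; rw [zpow_add, ← (Commute.refl y).mul_zpow, hyy, one_zpow, one_smul]
      · right
        show (y ^ (2 * m + 1)) • o.out = _
        rw [zpow_add, two_mul, zpow_add, ← (Commute.refl y).mul_zpow, hyy, one_zpow, zpow_one, one_mul]
    have hout : ((o.out.out : G) : G ⧸ H) = o.out := QuotientGroup.out_eq' _
    by_cases hm : y • o.out = o.out
    · have hall : ∀ c : {c : G ⧸ H // (Quotient.mk'' c : Quotient (MulAction.orbitRel (Subgroup.zpowers y) (G ⧸ H))) = o},
          c.1 = o.out := fun c => by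
        rcases hrel c.1 c.2 with e | e
        · exact e
        · rw [e, hm]
      rw [Fintype.prod_eq_single (⟨o.out, Quotient.out_eq' o⟩ :
        {c : G ⧸ H // (Quotient.mk'' c : Quotient (MulAction.orbitRel (Subgroup.zpowers y) (G ⧸ H))) = o})
        fun c hc => absurd (Subtype.ext (hall c)) hc]
      have hmem : o.out.out⁻¹ * y * o.out.out ∈ H := (hfix _).1 (by rw [hout]; exact hm)
      rw [hF o.out o.out.out hmem hout]
      refine congrArg f (Subtype.ext ?_)
      show o.out.out⁻¹ * y ^ Function.minimalPeriod (y • ·) o.out * o.out.out = _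
      rw [Function.minimalPeriod_eq_one_iff_isFixedPt.mpr hm, pow_one]
    · rw [Fintype.prod_eq_one _ fun c => hF1 _ (by
        rcases hrel c.1 c.2 with e | e <;> rw [e]
        · exact hm
        · intro e2
          rw [smul_smul, hyy, one_smul] at e2
          exact hm e2.symm)]
      refine (congrArg f (Subtype.ext ?_)).trans (map_one f)
      show o.out.out⁻¹ * y ^ Function.minimalPeriod (y • ·) o.out * o.out.out = 1
      have h2 : Function.minimalPeriod (y • ·) o.out = 2 := by
        refine Function.minimalPeriod_eq_prime ?_ hm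
        show (y • ·)^[2] o.out = o.out
        rw [smul_iterate_apply, pow_two, hyy, one_smul]
      rw [h2, pow_two, hyy]; group
  rw [h1]
  -- group the cosets by the orbits of the Sylow subgroup
  have hinv : ∀ (r : ↥H) (c : G ⧸ H), F (r • c) = F c := by
    intro r c
    have hout : ((c.out : G) : G ⧸ H) = c := QuotientGroup.out_eq' _
    have hy' : ((r : G) * c.out)⁻¹ * y * ((r : G) * c.out) = c.out⁻¹ * y * c.out := by
      rw [mul_inv_rev, show c.out⁻¹ * (r : G)⁻¹ * y * ((r : G) * c.out) = c.out⁻¹ * ((r : G)⁻¹ * (y * r)) * c.out by group,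
        ← hcen r r.2, inv_mul_cancel_left]
    by_cases hm : y • c = c
    · have hmem : c.out⁻¹ * y * c.out ∈ H := (hfix _).1 (by rw [hout]; exact hm)
      rw [hF (r • c) ((r : G) * c.out) (hy' ▸ hmem) (by
        conv_rhs => rw [← hout]
        rfl), hF c c.out hmem hout]
      exact congrArg f (Subtype.ext hy')
    · rw [hF1 c hm, hF1 (r • c) fun e => hm ?_]
      have : y • ((r : G) • c) = (r : G) • c := e
      rw [smul_smul, ← hcen r r.2, ← smul_smul] at this
      exact smul_left_cancel _ this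
  letI : Fintype (Quotient (MulAction.orbitRel ↥H (G ⧸ H))) := Fintype.ofFinite _
  rw [← Fintype.prod_fiberwise (g := fun c : G ⧸ H => (Quotient.mk'' c : Quotient (MulAction.orbitRel ↥H (G ⧸ H)))) F]
  set c₀ : G ⧸ H := ((1 : G) : G ⧸ H) with hc₀
  have hc₀fix : ∀ r : ↥H, r • c₀ = c₀ := fun r => by
    show (((r : G) * 1 : G) : G ⧸ H) = ((1 : G) : G ⧸ H)
    exact QuotientGroup.eq.2 (by simp)
  rw [Fintype.prod_eq_single (Quotient.mk'' c₀ : Quotient (MulAction.orbitRel ↥H (G ⧸ H))) fun o ho => ?_]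
  · have hone : ∀ c : {c : G ⧸ H // (Quotient.mk'' c : Quotient (MulAction.orbitRel ↥H (G ⧸ H))) = Quotient.mk'' c₀},
        c.1 = c₀ := fun c => by
      obtain ⟨r, e⟩ : (MulAction.orbitRel ↥H (G ⧸ H)).r c.1 c₀ := Quotient.exact' c.2
      rw [← e]; exact hc₀fix r
    rw [Fintype.prod_eq_single (⟨c₀, rfl⟩ :
      {c : G ⧸ H // (Quotient.mk'' c : Quotient (MulAction.orbitRel ↥H (G ⧸ H))) = Quotient.mk'' c₀})
      fun c hc => absurd (Subtype.ext (hone c)) hc]
    rw [hF c₀ 1 (by simpa using hy) rfl]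
    exact congrArg f (Subtype.ext (by simp))
  · -- a nontrivial orbit has even length
    have hconst : ∀ c : {c : G ⧸ H // (Quotient.mk'' c : Quotient (MulAction.orbitRel ↥H (G ⧸ H))) = o},
        F c.1 = F o.out := fun c => by
      obtain ⟨r, e⟩ : (MulAction.orbitRel ↥H (G ⧸ H)).r c.1 o.out :=
        Quotient.exact' (c.2.trans (Quotient.out_eq' o).symm)
      rw [← e]; exact hinv r _
    rw [Finset.prod_congr rfl (fun c _ => hconst c), Finset.prod_const]
    have hcard : Nat.card {c : G ⧸ H // (Quotient.mk'' c : Quotient (MulAction.orbitRel ↥H (G ⧸ H))) = o} =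
        Nat.card (MulAction.orbit ↥H o.out) := by
      refine Nat.card_congr (Equiv.subtypeEquivRight fun c => ?_)
      constructor
      · intro hc
        exact (Quotient.exact' (hc.trans (Quotient.out_eq' o).symm) :
          (MulAction.orbitRel ↥H (G ⧸ H)).r c o.out)
      · intro hc
        exact (Quotient.sound' hc).trans (Quotient.out_eq' o)
    obtain ⟨k, hk⟩ := hH.card_orbit o.out
    have hk0 : k ≠ 0 := by
      intro h0
      rw [h0, pow_zero, Nat.card_eq_one_iff_unique] at hk
      have hfixed : ∀ r : ↥H, r • o.out = o.out := fun r => by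
        have := hk.1.elim ⟨r • o.out, MulAction.mem_orbit _ r⟩ ⟨o.out, MulAction.mem_orbit_self _⟩
        exact congrArg Subtype.val this
      apply ho
      have hout : ((o.out.out : G) : G ⧸ H) = o.out := QuotientGroup.out_eq' _
      have hn : o.out.out⁻¹ ∈ Subgroup.normalizer (H : Set G) := by
        refine relIndex_six.mem_normalizer_of_map_le fun r hr => ?_
        have e : ((r * o.out.out : G) : G ⧸ H) = ((o.out.out : G) : G ⧸ H) := by
          calc ((r * o.out.out : G) : G ⧸ H) = r • ((o.out.out : G) : G ⧸ H) := rfl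
            _ = r • o.out := by rw [hout]
            _ = o.out := hfixed ⟨r, hr⟩
            _ = _ := hout.symm
        have h3 := QuotientGroup.eq.1 e.symm
        rw [inv_inv]
        simpa [mul_assoc] using h3
      have hin : o.out.out ∈ H := by simpa using inv_mem (hN hn)
      rw [← Quotient.out_eq' o, ← hout, hc₀]
      exact congrArg _ (QuotientGroup.eq.2 (by simpa using inv_mem hin))
    rw [Finset.card_univ, ← Nat.card_eq_fintype_card, hcard, hk,
      show 2 ^ k = 2 * 2 ^ (k - 1) by rw [← pow_succ', Nat.sub_add_cancel (Nat.pos_of_ne_zero hk0)], pow_mul, pow_two,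
      mulZ2_sq, one_pow]

/-- In a nonabelian simple group with self-normalizing Sylow 2-subgroup, central involutions of
the Sylow subgroup lie in its Frattini subgroup. -/
theorem central_mem_frattini [IsSimpleGroup G] (hG : ¬ IsMulCommutative G) (R : Sylow 2 G)
    (hN : Subgroup.normalizer ((R : Subgroup G) : Set G) ≤ (R : Subgroup G)) {y : ↥(R : Subgroup G)}
    (hcen : ∀ r ∈ (R : Subgroup G), r * (y : G) = (y : G) * r) (hyy : (y : G) * y = 1) :
    y ∈ frattini ↥(R : Subgroup G) := by
  classical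
  haveI := Fact.mk Nat.prime_two
  simp only [frattini, Order.radical, Subgroup.mem_iInf]
  intro M hM
  by_contra hyM
  haveI hMn : M.Normal := FGS3.normal_of_coatom R.2 hM
  have hidx : M.index = 2 := FGS3.index_of_coatom R.2 hM
  let f : ↥(R : Subgroup G) →* Multiplicative (ZMod 2) := MonoidHom.mk'
    (fun r => if r ∈ M then 1 else Multiplicative.ofAdd 1) fun a b => by
      have h := Subgroup.mul_mem_iff_of_index_two hidx (a := a) (b := b)
      by_cases ha : a ∈ M <;> by_cases hb : b ∈ M <;> simp [ha, hb, h, mulZ2_sq]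
  have hfy : f y ≠ 1 := by
    show (if y ∈ M then (1 : Multiplicative (ZMod 2)) else Multiplicative.ofAdd 1) ≠ 1
    rw [if_neg hyM]; exact ofAdd_one_ne
  have htr := transfer_central_involution R.2 hN f y.2 hcen hyy
  rcases Subgroup.Normal.eq_bot_or_eq_top (MonoidHom.normal_ker (MonoidHom.transfer f)) with e | e
  · refine hG ⟨⟨fun a b => (MonoidHom.ker_eq_bot_iff _).1 e ?_⟩⟩
    rw [map_mul, map_mul, mul_comm]
  · refine hfy ?_
    rw [← htr]
    exact MonoidHom.mem_ker.1 (e ▸ Subgroup.mem_top _)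


end Cfsg.Agent.Fischer
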