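import Cfsg.Agent.Fischer.TwoCoresCent

/-! Two cores and a subgroup of odd order centralizing both involutions. -/

set_option autoImplicit false
open Cfsg
open scoped commutatorElement

namespace Cfsg.Agent.Fischer

variable {G : Type*} [Group G] [Finite G]

theorem exists_fixed_mover {x z : G} {F A : Subgroup G} (h : CoreLike x F) (hzF : z ∈ F)
    (hA : Odd (Nat.card ↥A)) (hAx : ∀ a ∈ A, a * x = x * a) (hAz : ∀ a ∈ A, a * z = z * a)
    {f₀ : G} (hf₀ : f₀ ∈ F) (e₀ : f₀ * z * f₀⁻¹ = x * z) :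
    ∃ f ∈ F, (∀ a ∈ A, a * f = f * a) ∧ f * z * f⁻¹ = x * z := by
  classical
  letI := Fintype.ofFinite ↥A
  have hψ : ∀ a b : ↥F, ⁅((a * b : ↥F) : G), z⁆ = ⁅(a : G), z⁆ * ⁅(b : G), z⁆ := by
    intro a b
    have hb := h.brack (b : G) b.2 z hzF
    have ha := h.brack (a : G) a.2 z hzF
    rw [Subgroup.coe_mul, show ⁅(a : G) * b, z⁆ = (a : G) * ⁅(b : G), z⁆ * (a : G)⁻¹ * ⁅(a : G), z⁆ by
      simp only [commutatorElement_def]; group]
    rcases hb with e | e <;> rcases ha with e' | e' <;> rw [e, e'] <;> simp [h.comm (a : G) a.2]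
  let ψ : ↥F →* G := MonoidHom.mk' (fun f => ⁅(f : G), z⁆) hψ
  have hxK : ((Subgroup.zpowers x).subgroupOf F).Normal := ⟨fun u hu q => by
    rw [Subgroup.mem_subgroupOf] at hu ⊢
    obtain ⟨n, hn⟩ := Subgroup.mem_zpowers_iff.1 hu
    refine Subgroup.mem_zpowers_iff.2 ⟨n, ?_⟩
    rw [Subgroup.coe_mul, Subgroup.coe_mul, Subgroup.coe_inv, ← hn,
      ((show Commute (q : G) x from h.comm q q.2).zpow_right n).eq, mul_inv_cancel_right]⟩
  haveI := hxK
  let V := ↥F ⧸ (Subgroup.zpowers x).subgroupOf F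
  let mk : ↥F →* V := QuotientGroup.mk' _
  have hker : ∀ u : ↥F, mk u = 1 ↔ (u : G) = 1 ∨ (u : G) = x := by
    intro u
    show (QuotientGroup.mk u : V) = 1 ↔ _
    rw [QuotientGroup.eq_one_iff, Subgroup.mem_subgroupOf, Subgroup.mem_zpowers_iff]
    constructor
    · rintro ⟨n, hn⟩
      rw [← hn]
      rcases Int.even_or_odd n with ⟨m, rfl⟩ | ⟨m, rfl⟩
      · exact Or.inl (by rw [zpow_add, ← (Commute.refl x).mul_zpow, h.sq, one_zpow])
      · exact Or.inr (by rw [zpow_add, two_mul, zpow_add, ← (Commute.refl x).mul_zpow, h.sq, one_zpow, zpow_one,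
          one_mul])
    · rintro (e | e)
      · exact ⟨0, by rw [e, zpow_zero]⟩
      · exact ⟨1, by rw [e, zpow_one]⟩
  letI : CommGroup V := { (inferInstance : Group V) with
    mul_comm := fun a b => by
      induction a using QuotientGroup.induction_on with
      | H a =>
      induction b using QuotientGroup.induction_on with
      | H b =>
      show mk a * mk b = mk b * mk a
      rw [← commutatorElement_eq_one_iff_mul_comm, ← map_commutatorElement, hker]
      exact h.brack (a : G) a.2 (b : G) b.2 }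
  let act : ↥A → ↥F → ↥F := fun a u => ⟨(a : G) * u * (a : G)⁻¹, h.norm a (hAx a a.2) u u.2⟩
  let l : List ↥A := Finset.univ.toList
  let u : ↥F := (l.map fun a => act a ⟨f₀, hf₀⟩).prod
  have hfix : ∀ b : ↥A, mk (act b u) = mk u := by
    intro b
    let c : ↥F →* ↥F := MonoidHom.mk' (act b) fun p q => Subtype.ext (by simp [act, mul_assoc])
    show (mk.comp c) u = mk u
    rw [map_list_prod, map_list_prod, List.map_map, List.map_map, ← List.prod_toFinset _ (Finset.nodup_toList _),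
      ← List.prod_toFinset _ (Finset.nodup_toList _), Finset.toList_toFinset]
    refine Fintype.prod_equiv (Equiv.mulLeft b) _ _ fun a => congrArg mk (Subtype.ext ?_)
    show (b : G) * ((a : G) * f₀ * (a : G)⁻¹) * (b : G)⁻¹ = ((b * a : ↥A) : G) * f₀ * ((b * a : ↥A) : G)⁻¹
    rw [Subgroup.coe_mul]; group
  have hmove : ψ u = x := by
    rw [map_list_prod, List.map_map]
    have hc : ∀ y ∈ l.map (ψ ∘ fun a => act a ⟨f₀, hf₀⟩), y = x := by
      intro y hy
      obtain ⟨a, -, rfl⟩ := List.mem_map.1 hy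
      show ⁅(a : G) * f₀ * (a : G)⁻¹, z⁆ = x
      have ha : (a : G)⁻¹ * z * a = z := by
        rw [mul_assoc, ← hAz a a.2, inv_mul_cancel_left]
      calc ⁅(a : G) * f₀ * (a : G)⁻¹, z⁆
          = (a : G) * (f₀ * ((a : G)⁻¹ * z * a) * f₀⁻¹) * (a : G)⁻¹ * z⁻¹ := by
            rw [commutatorElement_def]; group
        _ = (a : G) * (x * z) * (a : G)⁻¹ * z⁻¹ := by rw [ha, e₀]
        _ = x := by
          rw [(Commute.mul_right (hAx a a.2) (hAz a a.2)).eq, mul_inv_cancel_right, mul_inv_cancel_right]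
    rw [List.eq_replicate_of_mem hc, List.prod_replicate, List.length_map, Finset.length_toList,
      Finset.card_univ, ← Nat.card_eq_fintype_card]
    obtain ⟨m, hm⟩ := hA
    rw [hm, pow_succ, pow_mul, pow_two, h.sq, one_pow, one_mul]
  refine ⟨u, u.2, fun a ha => ?_, ?_⟩
  · have hm := hfix ⟨a, ha⟩
    rcases (hker ((act ⟨a, ha⟩ u) * u⁻¹)).1 (by rw [map_mul, map_inv, hm, mul_inv_cancel]) with r | r
    · exact mul_inv_eq_iff_eq_mul.1 (mul_inv_eq_one.1 (show a * u * a⁻¹ * (u : G)⁻¹ = 1 from r))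
    · exfalso
      have r' : a * (u : G) = x * u * a :=
        mul_inv_eq_iff_eq_mul.1 (mul_inv_eq_iff_eq_mul.1 (show a * u * a⁻¹ * (u : G)⁻¹ = x from r))
      have hn : ∀ n : ℕ, a ^ n * (u : G) = x ^ n * u * a ^ n := by
        intro n
        induction n with
        | zero => simp
        | succ n ih =>
          calc a ^ (n + 1) * (u : G) = a ^ n * (a * u) := by rw [pow_succ, mul_assoc]
            _ = a ^ n * (x * u * a) := by rw [r']
            _ = a ^ n * x * (u * a) := by group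
            _ = x * (a ^ n * u) * a := by rw [((show Commute a x from hAx a ha).pow_left n).eq]; group
            _ = _ := by rw [ih, pow_succ' x, pow_succ a]; group
      have h1 := hn (Nat.card ↥A)
      have ha1 : a ^ Nat.card ↥A = 1 := congrArg Subtype.val (pow_card_eq_one' (x := (⟨a, ha⟩ : ↥A)))
      rw [ha1] at h1
      obtain ⟨m, hm'⟩ := hA
      rw [hm', pow_succ, pow_mul, pow_two, h.sq, one_pow, one_mul, one_mul, mul_one] at h1
      exact h.ne (by simpa using h1.symm)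
  · have : ⁅(u : G), z⁆ = x := hmove
    rw [commutatorElement_def, mul_inv_eq_iff_eq_mul] at this
    exact this

namespace TwoCores

variable {z x g : G} {Q F : Subgroup G}

theorem odd_cent (h : TwoCores z x g Q F) {A R : Subgroup G} (hA : A ≤ Subgroup.centralizer ({z} : Set G))
    (hR : R = Q ⊓ Subgroup.centralizer (A : Set G))
    (hO : (oddCore ↥(Subgroup.centralizer ((A ⊔ R : Subgroup G) : Set G))).map
      (Subgroup.centralizer ((A ⊔ R : Subgroup G) : Set G)).subtype ≤ A)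
    (h4 : ¬ 4 ∣ Nat.card ↥(Subgroup.centralizer ((A ⊔ R : Subgroup G) : Set G))) :
    Subgroup.centralizer ((A ⊔ R : Subgroup G) : Set G) ≤ A ⊔ Subgroup.zpowers z := by
  haveI := Fact.mk Nat.prime_two
  set D := Subgroup.centralizer ((A ⊔ R : Subgroup G) : Set G) with hD
  have hzR : z ∈ R := by
    rw [hR]
    exact ⟨h.core.mem, Subgroup.mem_centralizer_iff.2 fun a ha => mem_cent_singleton.1 (hA ha)⟩
  have hzD : z ∈ D := by
    rw [hD, Subgroup.mem_centralizer_iff]
    intro a ha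
    have hle : A ⊔ R ≤ Subgroup.centralizer ({z} : Set G) :=
      sup_le hA fun r hr => by rw [hR] at hr; exact mem_cent_singleton.2 (h.core.comm r hr.1)
    exact mem_cent_singleton.1 (hle ha)
  have hcen : ∀ d ∈ D, d * z = z * d := fun d hd =>
    (Subgroup.mem_centralizer_iff.1 hd z (Subgroup.mem_sup_right hzR)).symm
  set N := Subgroup.zpowers (⟨z, hzD⟩ : ↥D) with hN
  haveI : N.Normal := ⟨fun n hn d => by
    obtain ⟨k, rfl⟩ := Subgroup.mem_zpowers_iff.1 hn
    rw [((show Commute d (⟨z, hzD⟩ : ↥D) from Subtype.ext (hcen d d.2)).zpow_right k).eq, mul_inv_cancel_right]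
    exact Subgroup.zpow_mem _ (Subgroup.mem_zpowers _) k⟩
  have hN2 : Nat.card ↥N = 2 := by
    rw [hN, Nat.card_zpowers, ← Subgroup.orderOf_coe]
    exact orderOf_eq_prime (by rw [pow_two]; exact h.core.sq) h.core.ne
  have hodd : ¬ 2 ∣ N.index := fun hd => h4 (by
    rw [← Subgroup.card_mul_index N, hN2]
    exact Nat.mul_dvd_mul_left 2 hd)
  obtain ⟨K, hK⟩ := Subgroup.exists_right_complement'_of_coprime (N := N)
    (by rw [hN2]; exact Nat.Prime.coprime_iff_not_dvd Nat.prime_two |>.2 hodd)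
  have hsplit : ∀ d : ↥D, ∃ n ∈ N, ∃ k ∈ K, n * k = d := fun d => by
    obtain ⟨⟨n, k⟩, e⟩ := hK.2 d
    exact ⟨n, n.2, k, k.2, e⟩
  haveI : K.Normal := ⟨fun k hk d => by
    obtain ⟨n, hn, k', hk', rfl⟩ := hsplit d
    obtain ⟨j, rfl⟩ := Subgroup.mem_zpowers_iff.1 hn
    have hc : Commute ((⟨z, hzD⟩ : ↥D) ^ j) (k' * k * k'⁻¹) :=
      ((show Commute (⟨z, hzD⟩ : ↥D) (k' * k * k'⁻¹) from
        Subtype.ext (hcen _ (k' * k * k'⁻¹).2).symm).zpow_left j)
    rw [show (⟨z, hzD⟩ : ↥D) ^ j * k' * k * ((⟨z, hzD⟩ : ↥D) ^ j * k')⁻¹ =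
      (⟨z, hzD⟩ : ↥D) ^ j * (k' * k * k'⁻¹) * ((⟨z, hzD⟩ : ↥D) ^ j)⁻¹ by group, hc.eq, mul_inv_cancel_right]
    exact mul_mem (mul_mem hk' hk) (inv_mem hk')⟩
  have hKodd : Odd (Nat.card ↥K) := by
    rw [← hK.symm.index_eq_card]
    exact Nat.odd_iff.2 (Nat.two_dvd_ne_zero.1 hodd)
  have hKA : ∀ k ∈ K, (k : G) ∈ A := fun k hk => hO ⟨k, (le_sSup (show K ∈ {N : Subgroup ↥D | N.Normal ∧ (Nat.card N).Coprime 2} from
    ⟨‹K.Normal›, Nat.coprime_two_right.2 hKodd⟩) : K ≤ oddCore _) hk, rfl⟩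
  intro d hd
  obtain ⟨n, hn, k, hk, e⟩ := hsplit ⟨d, hd⟩
  rw [show d = ((n * k : ↥D) : G) by rw [e], Subgroup.coe_mul]
  refine mul_mem (Subgroup.mem_sup_right ?_) (Subgroup.mem_sup_left (hKA k hk))
  obtain ⟨j, rfl⟩ := Subgroup.mem_zpowers_iff.1 hn
  rw [SubgroupClass.coe_zpow]
  exact Subgroup.zpow_mem _ (Subgroup.mem_zpowers z) j

theorem large_image_odd (h : TwoCores z x g Q F) (hQp : IsPGroup 2 ↥Q) {A R M : Subgroup G}
    (hA : A ≤ Subgroup.centralizer ({z} : Set G)) (hAodd : Odd (Nat.card ↥A))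
    (hR : R = Q ⊓ Subgroup.centralizer (A : Set G)) (hxR : x ∈ R)
    (hD : Subgroup.centralizer ((A ⊔ R : Subgroup G) : Set G) ≤ A ⊔ Subgroup.zpowers z)
    (hM : M = Subgroup.centralizer (A : Set G) ⊔ A) [hn : (A.subgroupOf M).Normal] :
    (M ⊓ Subgroup.centralizer ((R ⊔ A : Subgroup G) : Set G)) ⊔ A = A ⊔ (Subgroup.center ↥Q).map Q.subtype ∧
    IsLargeExtraspecial ((R.subgroupOf M).map (QuotientGroup.mk' (A.subgroupOf M))) ∧
    ∃ y ∈ R ⊔ (F ⊓ Subgroup.centralizer (A : Set G)), y * x * y⁻¹ = z := by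
  classical
  haveI := Fact.mk Nat.prime_two
  have hAz : ∀ a ∈ A, a * z = z * a := fun a ha => mem_cent_singleton.1 (hA ha)
  have hRQ : ∀ {r : G}, r ∈ R → r ∈ Q := fun hr => by rw [hR] at hr; exact hr.1
  have hRA : ∀ {r : G}, r ∈ R → ∀ a ∈ A, a * r = r * a := fun hr a ha => by
    rw [hR] at hr; exact Subgroup.mem_centralizer_iff.1 hr.2 a ha
  have hmemR : ∀ {r : G}, r ∈ Q → (∀ a ∈ A, a * r = r * a) → r ∈ R := fun hr ha => by
    rw [hR]; exact ⟨hr, Subgroup.mem_centralizer_iff.2 ha⟩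
  have hzR : z ∈ R := hmemR h.core.mem hAz
  have hAx : ∀ a ∈ A, a * x = x * a := hRA hxR
  obtain ⟨q₀, hq₀, eq₀⟩ := h.exists_move
  obtain ⟨q, hq, hqA, eq⟩ := exists_fixed_mover (x := z) (z := x) h.core h.memx hAodd hAz hAx hq₀ eq₀
  have hqR : q ∈ R := hmemR hq hqA
  obtain ⟨f₀, hf₀, ef₀⟩ := h.symm.exists_move
  obtain ⟨f, hf, hfA, ef⟩ := exists_fixed_mover (x := x) (z := z) h.other h.memz hAodd hAx hAz hf₀ ef₀
  have hCM : Subgroup.centralizer (A : Set G) ≤ M := hM ▸ le_sup_left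
  have hRC : R ≤ Subgroup.centralizer (A : Set G) := hR ▸ inf_le_right
  have hzM : z ∈ M := hCM (hRC hzR)
  have hDeq : M ⊓ Subgroup.centralizer ((R ⊔ A : Subgroup G) : Set G) =
      Subgroup.centralizer ((A ⊔ R : Subgroup G) : Set G) := by
    rw [sup_comm R A]
    exact inf_eq_right.2 ((Subgroup.centralizer_le (show (A : Set G) ⊆ _ from fun a ha => Subgroup.mem_sup_left ha)).trans hCM)
  have hZmap : (Subgroup.center ↥Q).map Q.subtype = Subgroup.zpowers z := by
    refine le_antisymm ?_ (Subgroup.zpowers_le.2 ⟨⟨z, h.core.mem⟩,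
      Subgroup.mem_center_iff.2 fun a => Subtype.ext (h.core.comm a a.2), rfl⟩)
    rintro _ ⟨c, hc, rfl⟩
    rcases h.core.center c c.2 (fun a ha => congrArg Subtype.val (Subgroup.mem_center_iff.1 hc ⟨a, ha⟩)) with e | e
    · show (c : G) ∈ _; rw [e]; exact one_mem _
    · show (c : G) ∈ _; rw [e]; exact Subgroup.mem_zpowers z
  have hzD : z ∈ Subgroup.centralizer ((A ⊔ R : Subgroup G) : Set G) := by
    rw [Subgroup.mem_centralizer_iff]
    intro a ha
    have hle : A ⊔ R ≤ Subgroup.centralizer ({z} : Set G) :=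
      sup_le hA fun r hr => mem_cent_singleton.2 (h.core.comm r (hRQ hr))
    exact mem_cent_singleton.1 (hle ha)
  refine ⟨?_, ?_, ⟨f * q, mul_mem (Subgroup.mem_sup_right (Subgroup.mem_inf.2 ⟨hf, Subgroup.mem_centralizer_iff.2 hfA⟩))
    (Subgroup.mem_sup_left hqR), ?_⟩⟩
  · rw [hDeq, hZmap]
    exact le_antisymm (sup_le hD le_sup_left) (sup_le le_sup_right
      ((Subgroup.zpowers_le.2 hzD).trans le_sup_left))
  swap
  · calc f * q * x * (f * q)⁻¹ = f * (q * x * q⁻¹) * f⁻¹ := by group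
      _ = f * z * f⁻¹ * (f * x * f⁻¹) := by rw [eq]; group
      _ = x * z * x := by rw [ef, h.other.comm f hf, mul_inv_cancel_right]
      _ = z := by rw [mul_assoc, h.zx, ← mul_assoc, h.other.sq, one_mul]
  set π := QuotientGroup.mk' (A.subgroupOf M) with hπ
  set Rb := (R.subgroupOf M).map π with hRb
  have hπ1 : ∀ y : ↥M, π y = 1 ↔ (y : G) ∈ A := by
    intro y
    rw [hπ, QuotientGroup.mk'_apply, QuotientGroup.eq_one_iff, Subgroup.mem_subgroupOf]
  have hRp : IsPGroup 2 ↥R := hQp.to_le (hR ▸ inf_le_left)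
  have hAR : ∀ {r : G}, r ∈ R → r ∈ A → r = 1 := fun hr hra =>
    (Subgroup.eq_bot_iff_forall _).1 (inf_bot_of_odd_two hAodd hRp) _ ⟨hra, hr⟩
  have hinj : ∀ y y' : ↥M, (y : G) ∈ R → (y' : G) ∈ R → π y = π y' → (y : G) = y' := by
    intro y y' hy hy' e
    have h1 : ((y⁻¹ * y' : ↥M) : G) ∈ A := (hπ1 _).1 (by rw [map_mul, map_inv, e, inv_mul_cancel])
    exact inv_mul_eq_one.1 (hAR (by simpa using mul_mem (inv_mem hy) hy') (by simpa using h1))
  have hmem : ∀ b, b ∈ Rb ↔ ∃ y : ↥M, (y : G) ∈ R ∧ π y = b := fun b => Iff.rfl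
  set zb := π ⟨z, hzM⟩ with hzb
  have hzbR : zb ∈ Rb := ⟨⟨z, hzM⟩, hzR, rfl⟩
  have hzb1 : zb ≠ 1 := fun e => h.core.ne (hAR hzR ((hπ1 _).1 e))
  -- representatives centralizing A
  have hrep : ∀ b : ↥M ⧸ A.subgroupOf M, ∃ y : ↥M, π y = b ∧ ∀ a ∈ A, a * (y : G) = (y : G) * a := by
    intro b
    obtain ⟨y, rfl⟩ := QuotientGroup.mk'_surjective _ b
    have hy : (y : G) ∈ Subgroup.centralizer (A : Set G) ⊔ A := hM.le y.2
    have hnle : A ≤ Subgroup.normalizer ((Subgroup.centralizer (A : Set G) : Subgroup G) : Set G) := fun a ha =>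
      relIndex_six.mem_normalizer_of_map_le fun c hc => Subgroup.mem_centralizer_iff.2 fun a' ha' => by
        have e := Subgroup.mem_centralizer_iff.1 hc (a⁻¹ * a' * a) (mul_mem (mul_mem (inv_mem ha) ha') ha)
        calc a' * (a * c * a⁻¹) = a * ((a⁻¹ * a' * a) * c) * a⁻¹ := by group
          _ = a * (c * (a⁻¹ * a' * a)) * a⁻¹ := by rw [e]
          _ = _ := by group
    rw [← SetLike.mem_coe, Subgroup.coe_mul_of_right_le_normalizer_left _ _ hnle] at hy
    obtain ⟨c, hc, a, ha, e⟩ := hy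
    refine ⟨⟨c, hCM hc⟩, ?_, fun a' ha' => Subgroup.mem_centralizer_iff.1 hc a' ha'⟩
    rw [show y = (⟨c, hCM hc⟩ : ↥M) * ⟨a, hM ▸ Subgroup.mem_sup_right ha⟩ from Subtype.ext e.symm, map_mul,
      (hπ1 ⟨a, _⟩).2 ha, mul_one]
  -- an element centralizing A fixes an element of R it fixes modulo A
  have hrigid : ∀ c y : ↥M, (y : G) ∈ R → (∀ a ∈ A, a * (c : G) = (c : G) * a) → π c * π y = π y * π c →
      (c : G) * y = y * c := by
    intro c y hy hc e
    have h1 : ((c * y * c⁻¹ * y⁻¹ : ↥M) : G) ∈ A := (hπ1 _).1 (by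
      rw [map_mul, map_mul, map_mul, map_inv, map_inv, e, mul_inv_cancel_right, mul_inv_cancel])
    simp only [Subgroup.coe_mul, Subgroup.coe_inv] at h1
    set α := (c : G) * y * (c : G)⁻¹ * (y : G)⁻¹ with hα
    have hcomm : Commute α y := hRA hy α h1
    have hp : ∀ n : ℕ, (c : G) * (y : G) ^ n * (c : G)⁻¹ = α ^ n * (y : G) ^ n := by
      intro n
      rw [← conj_pow, show (c : G) * y * (c : G)⁻¹ = α * y by rw [hα]; group, hcomm.mul_pow]
    obtain ⟨k, hk⟩ := IsPGroup.iff_orderOf.1 hRp ⟨y, hy⟩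
    rw [Subgroup.orderOf_mk] at hk
    have h2 := hp (2 ^ k)
    rw [← hk, pow_orderOf_eq_one, mul_one, mul_inv_cancel, mul_one, hk] at h2
    have hα1 : α = 1 := by
      have hd : orderOf α ∣ 2 ^ k := orderOf_dvd_of_pow_eq_one h2.symm
      have hd2 : orderOf α ∣ Nat.card ↥A := Subgroup.orderOf_dvd_natCard A h1
      have hcop : (2 ^ k).Coprime (Nat.card ↥A) :=
        Nat.Coprime.pow_left k (Nat.Prime.coprime_iff_not_dvd Nat.prime_two |>.2
          (fun h2 => (Nat.two_dvd_ne_zero.2 (Nat.odd_iff.1 hAodd)) h2))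
      exact orderOf_eq_one_iff.1 (Nat.eq_one_of_dvd_coprimes hcop hd hd2)
    rw [hα1] at hα
    exact (mul_inv_eq_iff_eq_mul.1 (mul_inv_eq_one.1 hα.symm))
  have hcentR : ∀ b, (∀ a ∈ Rb, a * b = b * a) → b = 1 ∨ b = zb := by
    intro b hb
    obtain ⟨c, rfl, hc⟩ := hrep b
    have hcD : (c : G) ∈ Subgroup.centralizer ((A ⊔ R : Subgroup G) : Set G) := by
      rw [Subgroup.mem_centralizer_iff]
      intro a ha
      have hle : A ⊔ R ≤ Subgroup.centralizer ({(c : G)} : Set G) :=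
        sup_le (fun a ha => mem_cent_singleton.2 (hc a ha)) fun r hr => mem_cent_singleton.2
          (hrigid c ⟨r, hCM (hRC hr)⟩ hr hc (hb _ ⟨_, hr, rfl⟩).symm).symm
      exact mem_cent_singleton.1 (hle ha)
    have h2 : Subgroup.zpowers z ≤ Subgroup.normalizer (A : Set G) := Subgroup.zpowers_le.2
      (relIndex_six.mem_normalizer_of_map_le fun a ha => by rwa [← hAz a ha, mul_inv_cancel_right])
    have h3 := hD hcD
    rw [← SetLike.mem_coe, Subgroup.coe_mul_of_right_le_normalizer_left _ _ h2] at h3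
    obtain ⟨a, ha, u, hu, e⟩ := h3
    obtain ⟨j, rfl⟩ := Subgroup.mem_zpowers_iff.1 hu
    have e' : π c = zb ^ j := by
      rw [show c = (⟨a, hM ▸ Subgroup.mem_sup_right ha⟩ : ↥M) * (⟨z, hzM⟩ : ↥M) ^ j from Subtype.ext (by
        simpa using e.symm), map_mul, (hπ1 ⟨a, _⟩).2 ha, one_mul, map_zpow]
    have hzz : zb * zb = 1 := by
      rw [hzb, ← map_mul, hπ1]; simp [h.core.sq]
    rw [e']
    rcases Int.even_or_odd j with ⟨m, rfl⟩ | ⟨m, rfl⟩
    · exact Or.inl (by rw [zpow_add, ← (Commute.refl zb).mul_zpow, hzz, one_zpow])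
    · exact Or.inr (by rw [zpow_add, two_mul, zpow_add, ← (Commute.refl zb).mul_zpow, hzz, one_zpow, zpow_one, one_mul])
  have hzall : ∀ a ∈ Rb, a * zb = zb * a := by
    rintro a ⟨y, hy, rfl⟩
    rw [hzb, ← map_mul, ← map_mul]
    exact congrArg π (Subtype.ext (h.core.comm _ (hRQ hy)))
  have hcenmap : ∀ b, b ∈ (Subgroup.center ↥Rb).map Rb.subtype ↔ b = 1 ∨ b = zb := by
    intro b
    constructor
    · rintro ⟨a, ha, rfl⟩
      exact hcentR a fun c hc => congrArg Subtype.val (Subgroup.mem_center_iff.1 ha ⟨c, hc⟩)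
    · rintro (rfl | rfl)
      · exact one_mem _
      · exact ⟨⟨zb, hzbR⟩, Subgroup.mem_center_iff.2 fun c => Subtype.ext (hzall c c.2), rfl⟩
  have hcen2 : Nat.card ↥(Subgroup.center ↥Rb) = 2 := by
    rw [Nat.card_eq_two_iff]
    refine ⟨1, ⟨⟨zb, hzbR⟩, Subgroup.mem_center_iff.2 fun c => Subtype.ext (hzall c c.2)⟩, fun e => hzb1
      (congrArg (fun w : ↥(Subgroup.center ↥Rb) => w.1.1) e).symm, Set.eq_univ_of_forall fun w => ?_⟩
    rcases (hcenmap w.1.1).1 ⟨w.1, w.2, rfl⟩ with e | e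
    · exact Or.inl (Subtype.ext (Subtype.ext e))
    · exact Or.inr (Subtype.ext (Subtype.ext e))
  have hcenmem : ∀ a : ↥Rb, a.1 = 1 ∨ a.1 = zb → a ∈ Subgroup.center ↥Rb := by
    intro a ha
    obtain ⟨c, hc, e⟩ := (hcenmap a.1).2 ha
    rwa [← show c = a from Subtype.ext e]
  have hRp' : IsPGroup 2 ↥Rb := (hRp.comap_of_injective M.subtype M.subtype_injective).map π
  have hbr : ∀ a b : ↥Rb, ⁅a, b⁆ ∈ Subgroup.center ↥Rb := by
    intro a b
    obtain ⟨y, hy, hy'⟩ := (hmem _).1 a.2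
    obtain ⟨y', hy2, hy2'⟩ := (hmem _).1 b.2
    have e : (⁅a, b⁆ : ↥Rb).1 = π ⁅y, y'⁆ := by rw [map_commutatorElement, hy', hy2']; rfl
    refine hcenmem _ ?_
    rcases h.core.brack _ (hRQ hy) _ (hRQ hy2) with r | r
    · exact Or.inl (by rw [e, show ⁅y, y'⁆ = 1 from Subtype.ext r, map_one])
    · exact Or.inr (by rw [e, hzb]; exact congrArg π (Subtype.ext r))
  have hxM : x ∈ M := hCM (hRC hxR)
  have hqM : q ∈ M := hCM (hRC hqR)
  have hcomm : commutator ↥Rb = Subgroup.center ↥Rb := by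
    have hle : commutator ↥Rb ≤ Subgroup.center ↥Rb := by
      rw [commutator_def, Subgroup.commutator_le]
      exact fun a _ b _ => hbr a b
    rcases (Nat.dvd_prime Nat.prime_two).1 (hcen2 ▸ Subgroup.card_dvd_of_le hle) with e | e
    · exfalso
      rw [Subgroup.card_eq_one] at e
      have := Subgroup.commutator_mem_commutator (Subgroup.mem_top (⟨π ⟨q, hqM⟩, _, hqR, rfl⟩ : ↥Rb))
        (Subgroup.mem_top (⟨π ⟨x, hxM⟩, _, hxR, rfl⟩ : ↥Rb))
      rw [← commutator_def, e, Subgroup.mem_bot, commutatorElement_eq_one_iff_mul_comm] at this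
      have h1 := hinj (⟨q, hqM⟩ * ⟨x, hxM⟩) (⟨x, hxM⟩ * ⟨q, hqM⟩) (mul_mem hqR hxR) (mul_mem hxR hqR)
        (by rw [map_mul, map_mul]; exact congrArg Subtype.val this)
      simp only [Subgroup.coe_mul] at h1
      rw [h1, mul_inv_cancel_right] at eq
      exact h.core.ne (by simpa using eq.symm)
    · exact Subgroup.eq_of_le_of_card_ge hle (by rw [hcen2, e])
  have hE : IsExtraspecial 2 ↥Rb := by
    refine ⟨⟨hRp', le_antisymm (FGS3.frattini_le_of_elementary (p := 2) hcomm.le fun a => ?_)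
      (hcomm ▸ FGS3.commutator_le_frattini hRp'), hcomm⟩, hcen2⟩
    obtain ⟨y, hy, hy'⟩ := (hmem _).1 a.2
    refine hcenmem _ ?_
    have e : (a ^ 2 : ↥Rb).1 = π (y * y) := by rw [map_mul, hy', pow_two]; rfl
    rcases h.core.square _ (hRQ hy) with r | r
    · exact Or.inl (by rw [e, show y * y = 1 from Subtype.ext r, map_one])
    · exact Or.inr (by rw [e, hzb]; exact congrArg π (Subtype.ext r))
  have hC : Subgroup.centralizer (Rb : Set _) = (Subgroup.center ↥Rb).map Rb.subtype := by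
    refine le_antisymm (fun b hb => (hcenmap b).2 (hcentR b fun a ha => Subgroup.mem_centralizer_iff.1 hb a ha))
      (fun b hb => Subgroup.mem_centralizer_iff.2 fun a ha => ?_)
    rcases (hcenmap b).1 hb with rfl | rfl
    · simp
    · exact hzall a ha
  have hNz : ∀ b, b * zb = zb * b → b ∈ Subgroup.normalizer (Rb : Set _) := by
    intro b hb
    obtain ⟨c, rfl, hc⟩ := hrep b
    have hcz : (c : G) * z = z * (c : G) := hrigid c ⟨z, hzM⟩ hzR hc hb
    refine relIndex_six.mem_normalizer_of_map_le fun a ha => ?_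
    obtain ⟨y, hy, rfl⟩ := (hmem a).1 ha
    refine ⟨c * y * c⁻¹, ?_, by rw [map_mul, map_mul, map_inv]⟩
    refine hmemR (h.core.norm _ hcz _ (hRQ hy)) fun a' ha' => ?_
    exact ((Commute.mul_right (show Commute a' (c : G) from hc a' ha') (hRA hy a' ha')).mul_right
      (show Commute a' (c : G) from hc a' ha').inv_right).eq
  refine ⟨hE, hC, fun b hb => hNz b (Subgroup.mem_centralizer_iff.1 hb zb ((hcenmap zb).2 (Or.inr rfl))).symm,
    fun K hK hnK => ?_⟩
  have hKP : K ⊓ Rb = ⊥ := inf_bot_of_odd_two hK hRp'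
  have hfix : ∀ k ∈ K, k * zb = zb * k → k = 1 := by
    intro k hk hkz
    have hkn := hNz k hkz
    have hcent : k ∈ Subgroup.centralizer (Rb : Set _) := Subgroup.mem_centralizer_iff.2 fun a ha => by
      have h1 : ⁅a, k⁆ ∈ K := by
        have := mul_mem ((Subgroup.mem_normalizer_iff.1 (hnK ha) k).1 hk) (inv_mem hk)
        simp only [commutatorElement_def, mul_assoc] at this ⊢; exact this
      have h2 : ⁅a, k⁆ ∈ Rb := by
        have := mul_mem ha ((Subgroup.mem_normalizer_iff.1 hkn a⁻¹).1 (inv_mem ha))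
        simp only [commutatorElement_def, mul_assoc] at this ⊢; exact this
      exact commutatorElement_eq_one_iff_mul_comm.1 ((Subgroup.eq_bot_iff_forall _).1 hKP _ ⟨h1, h2⟩)
    rw [hC] at hcent
    exact (Subgroup.eq_bot_iff_forall _).1 hKP _ ⟨hk, Subgroup.map_subtype_le _ hcent⟩
  have hzz : zb * zb = 1 := by rw [hzb, ← map_mul, hπ1]; simp [h.core.sq]
  have hzi : zb⁻¹ = zb := inv_eq_of_mul_eq_one_right hzz
  have hinv := fixedPointFree_inverts hzz (fun k hk => by
    have := (Subgroup.mem_normalizer_iff.1 (hnK hzbR) k).1 hk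
    rwa [hzi] at this) hfix
  set xb := π ⟨x, hxM⟩ with hxb
  have hxbR : xb ∈ Rb := ⟨_, hxR, rfl⟩
  have hcx : ∀ k ∈ K, k * xb = xb * k → k = 1 := by
    intro k hk hkx
    have hzk := hinv k hk
    obtain ⟨c, rfl, hc⟩ := hrep k
    have hcxx : (c : G) * x = x * (c : G) := hrigid c ⟨x, hxM⟩ hxR hc hkx
    set w : ↥M := c⁻¹ * ⟨z, hzM⟩ * c * ⟨z, hzM⟩ with hw
    have hwπ : π w = (π c)⁻¹ * (π c)⁻¹ := by
      rw [hw, map_mul, map_mul, map_mul, map_inv, show (π c)⁻¹ * zb * π c * zb = (π c)⁻¹ * (zb * π c * zb) by group,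
        hzk]
    have hwF : (w : G) ∈ F := by
      have h1 := h.other.norm (c : G)⁻¹ (show Commute (c : G) x from hcxx).inv_left.eq z h.memz
      have h2 := mul_mem h1 h.memz
      rw [inv_inv] at h2
      simpa [hw] using h2
    have h4 : (π c) ^ 8 = 1 := by
      have e : (w : G) * w * ((w : G) * w) = 1 := by
        rcases h.other.square _ hwF with r | r <;> rw [r]
        · exact mul_one _
        · exact h.other.sq
      have e2 : π (w * w * (w * w)) = 1 := by
        rw [show w * w * (w * w) = 1 from Subtype.ext e, map_one]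
      rw [map_mul, map_mul, hwπ] at e2
      refine inv_eq_one.1 ?_
      rw [← e2]; group
    obtain ⟨j, -, hj⟩ := (Nat.dvd_prime_pow Nat.prime_two).1 (show orderOf (π c) ∣ 2 ^ 3 from orderOf_dvd_of_pow_eq_one h4)
    rcases Nat.eq_zero_or_pos j with rfl | hj0
    · rwa [pow_zero, orderOf_eq_one_iff] at hj
    · exfalso
      have h2 : 2 ∣ Nat.card K := ((dvd_pow_self 2 hj0.ne').trans hj.symm.dvd).trans
        (Subgroup.orderOf_dvd_natCard K hk)
      exact (Nat.two_dvd_ne_zero.2 (Nat.odd_iff.1 hK)) h2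
  set qb := π ⟨q, hqM⟩ with hqb
  have hqbR : qb ∈ Rb := ⟨_, hqR, rfl⟩
  have hqx : qb * xb * qb⁻¹ = zb * xb := by
    rw [hqb, hxb, hzb, ← map_inv, ← map_mul, ← map_mul, ← map_mul]
    exact congrArg π (Subtype.ext eq)
  have hxx : xb * xb = 1 := by rw [hxb, ← map_mul, hπ1]; simp [h.other.sq]
  have hxi : xb⁻¹ = xb := inv_eq_of_mul_eq_one_right hxx
  have hxinv := fixedPointFree_inverts hxx (fun k hk => by
    have := (Subgroup.mem_normalizer_iff.1 (hnK hxbR) k).1 hk
    rwa [hxi] at this) hcx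
  refine (Subgroup.eq_bot_iff_forall _).2 fun k hk => ?_
  have hk1 : k * (zb * xb) = zb * xb * k := by
    calc k * (zb * xb) = zb * (zb * k * zb) * xb := by
          rw [show zb * (zb * k * zb) = (zb * zb) * (k * zb) by group, hzz, one_mul, mul_assoc]
      _ = zb * k⁻¹ * xb := by rw [hinv k hk]
      _ = zb * (xb * k * xb) * xb := by rw [hxinv k hk]
      _ = zb * xb * k * (xb * xb) := by group
      _ = _ := by rw [hxx, mul_one]
  have hk2 := hcx (qb⁻¹ * k * qb) (by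
    have := (Subgroup.mem_normalizer_iff.1 (hnK (inv_mem hqbR)) k).1 hk
    rwa [inv_inv] at this) (by
    calc qb⁻¹ * k * qb * xb = qb⁻¹ * (k * (qb * xb * qb⁻¹)) * qb := by group
      _ = qb⁻¹ * (zb * xb * k) * qb := by rw [hqx, hk1]
      _ = qb⁻¹ * (qb * xb * qb⁻¹ * k) * qb := by rw [hqx]
      _ = _ := by group)
  calc k = qb * (qb⁻¹ * k * qb) * qb⁻¹ := by group
    _ = 1 := by rw [hk2]; group

end TwoCores

end Cfsg.Agent.Fischer
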